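import Cfsg.Agent.Orth.Gen

/-! Stabilisers of subspaces in `EO`: Witt step, parabolics, non-degenerate blocks. -/

set_option autoImplicit false

namespace Cfsg.Agent.Orth

open Module

variable {F V : Type*} [Field F] [AddCommGroup V] [Module F V] {Q : QuadraticForm F V}

lemma finrank_sup_le (X Y : Submodule F V) [FiniteDimensional F V] :
    finrank F (X ⊔ Y : Submodule F V) ≤ finrank F X + finrank F Y := by
  have := Submodule.finrank_sup_add_finrank_inf_eq X Y
  omega

lemma map_eq_of_forall_mem [FiniteDimensional F V] {W : Submodule F V} {g : V ≃ₗ[F] V}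
    (h : ∀ v ∈ W, g v ∈ W) : W.map (g : V →ₗ[F] V) = W := by
  apply Submodule.eq_of_le_of_finrank_eq
  · rintro _ ⟨w, hw, rfl⟩; exact h w hw
  · exact LinearEquiv.finrank_map_eq _ _

lemma inv_mem_of_forall_mem [FiniteDimensional F V] {W : Submodule F V} {g : V ≃ₗ[F] V}
    (h : ∀ v ∈ W, g v ∈ W) : ∀ v ∈ W, g⁻¹ v ∈ W := by
  intro v hv
  rw [← map_eq_of_forall_mem h] at hv
  obtain ⟨w, hw, rfl⟩ := hv
  simpa using hw

lemma perp_stable [FiniteDimensional F V] {W : Submodule F V} {g : V ≃ₗ[F] V} (hg : g ∈ O Q)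
    (h : ∀ v ∈ W, g v ∈ W) : ∀ v ∈ perp Q W, g v ∈ perp Q W := by
  intro v hv w hw
  rw [B_comm, O_B_inv hg, B_comm]
  exact hv _ (inv_mem_of_forall_mem h w hw)

/-- the stabiliser of a subspace -/
def stab [FiniteDimensional F V] (W : Submodule F V) : Subgroup (V ≃ₗ[F] V) where
  carrier := {g | ∀ v ∈ W, g v ∈ W}
  mul_mem' ha hb v hv := ha _ (hb v hv)
  one_mem' _ hv := hv
  inv_mem' ha := inv_mem_of_forall_mem ha

lemma mem_stab [FiniteDimensional F V] {W : Submodule F V} {g : V ≃ₗ[F] V} :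
    g ∈ stab W ↔ ∀ v ∈ W, g v ∈ W := Iff.rfl

lemma refl_stable_of_perp {W : Submodule F V} {a : V} (ha : a ∈ perp Q W) :
    ∀ v ∈ W, refl Q a v = v := fun v hv => refl_of_perp (by rw [B_comm]; exact ha v hv)

section fin
variable [Finite F] [FiniteDimensional F V]

/-- Witt step: move `x` to `y` fixing `X` (and `U^⊥`) pointwise. -/
theorem NdOn.EU_trans_fix {U X : Submodule F V} (hU : NdOn Q U) (hX : X ≤ U)
    (hd : 2 * finrank F X + 5 ≤ finrank F U) {x y : V} (hx : x ∈ U) (hy : y ∈ U)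
    (hxX : x ∉ X) (hyX : y ∉ X) (hq : Q x = Q y) (hb : ∀ a ∈ X, B Q a x = B Q a y) :
    ∃ g ∈ EU Q (U ⊓ Orth.perp Q X), g x = y := by
  have aux : ∀ x ∈ U, Q x = Q y → (∀ a ∈ X, B Q a x = B Q a y) → x ∉ X ⊔ F ∙ (y - x) →
      ∃ g ∈ EU Q (U ⊓ Orth.perp Q X), g x = y := by
    intro x hx hq hb hxy
    have h1 := finrank_span_singleton_le (F := F) (y - x)
    have h2 := finrank_sup_le X (F ∙ (y - x))
    obtain ⟨e, he, hep, he0, hne⟩ := hU.exists_sing_perp_B_ne (X := X ⊔ F ∙ (y - x))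
      (sup_le hX ((Submodule.span_singleton_le_iff_mem _ _).2 (U.sub_mem hy hx))) (by omega) hx hxy
    rw [perp_sup] at hep
    have hep2 := hep.2
    rw [SetLike.mem_coe, mem_perp_span_singleton, map_sub, LinearMap.sub_apply, sub_eq_zero] at hep2
    have := eich_trans he0 hq (by rw [B_comm Q e, B_comm Q e, hep2]) (by rwa [B_comm])
    refine ⟨_, eich_mem_EU ⟨he, hep.1⟩ (Submodule.smul_mem _ _ ⟨U.sub_mem hy hx, ?_⟩), this.2⟩
    intro a ha
    rw [map_sub, hb a ha, sub_self]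
  obtain ⟨e, he, heX, he0, hne⟩ := hU.exists_sing_perp_B_ne hX (by omega) hx hxX
  have h1 := finrank_span_singleton_le (F := F) e
  have h2 := finrank_inf_perp_ge (Q := Q) U (X ⊔ F ∙ e)
  have h2' := finrank_sup_le X (F ∙ e)
  have h3 := finrank_span_triple_le (F := F) e x y
  have h3' := finrank_sup_le X (Submodule.span F {e, x, y})
  obtain ⟨w, hw, hwn⟩ := exists_mem_notMem_of_finrank_lt (H := U ⊓ Orth.perp Q (X ⊔ F ∙ e))
    (X := X ⊔ Submodule.span F {e, x, y}) (by omega)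
  rw [perp_sup] at hw
  have hew : B Q e w = 0 := mem_perp_span_singleton.1 hw.2.2
  have hg1 : eich Q e w ∈ EU Q (U ⊓ Orth.perp Q X) := eich_mem_EU ⟨he, heX⟩ ⟨hw.1, hw.2.1⟩
  set z := eich Q e w x with hz
  have hzn : z ∉ X ⊔ Submodule.span F {e, x, y} := by
    intro h
    apply hwn
    rw [hz, eich_apply he0 hew] at h
    have he' : e ∈ X ⊔ Submodule.span F ({e, x, y} : Set V) :=
      Submodule.mem_sup_right (Submodule.subset_span (by simp))
    have hx' : x ∈ X ⊔ Submodule.span F ({e, x, y} : Set V) :=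
      Submodule.mem_sup_right (Submodule.subset_span (by simp))
    have h4 := Submodule.sub_mem _ (Submodule.add_mem _ h
      (Submodule.smul_mem _ (B Q w x + Q w * B Q e x) he')) hx'
    have h5 := Submodule.smul_mem _ (B Q e x)⁻¹ h4
    rw [B_comm] at hne
    convert h5 using 1
    rw [sub_add_cancel, add_sub_cancel_left, smul_smul, inv_mul_cancel₀ hne, one_smul]
  have hzx := EU_sub_mem hg1 x
  obtain ⟨g, hg, hgz⟩ := aux z (by simpa using U.add_mem hzx.1 hx)
    (by rw [hz, eich_mem_O, hq])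
    (fun a ha => by
      have := hzx.2 a ha
      rw [map_sub, sub_eq_zero] at this
      rw [← hb a ha, ← this])
    (by
      intro h
      obtain ⟨x0, hx0, _, h', hc⟩ := Submodule.mem_sup.1 h
      obtain ⟨c, rfl⟩ := Submodule.mem_span_singleton.1 h'
      by_cases hc1 : 1 + c = 0
      · have : c = -1 := by linear_combination hc1
        rw [this] at hc
        apply hyX
        have : y = x0 := by
          have h6 : x0 + (-1 : F) • (y - z) - z = 0 := by rw [hc, sub_self]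
          rw [← sub_eq_zero, ← neg_eq_zero, ← h6]; module
        rwa [this]
      · apply hzn
        have : z = (1 + c)⁻¹ • x0 + ((1 + c)⁻¹ * c) • y := by
          have h6 : (1 + c) • z = x0 + c • y := by
            rw [add_smul, one_smul]; nth_rewrite 1 [← hc]; module
          rw [← smul_smul, ← smul_add, ← h6, smul_smul, inv_mul_cancel₀ hc1, one_smul]
        rw [this]
        exact Submodule.add_mem _ (Submodule.mem_sup_left (X.smul_mem _ hx0))
          (Submodule.mem_sup_right (Submodule.smul_mem _ _ (Submodule.subset_span (by simp)))))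
  exact ⟨g * eich Q e w, mul_mem hg hg1, hgz⟩

theorem Nd.EU_trans_fix (hQ : Nd Q) {X : Submodule F V}
    (hd : 2 * finrank F X + 5 ≤ finrank F V) {x y : V}
    (hxX : x ∉ X) (hyX : y ∉ X) (hq : Q x = Q y) (hb : ∀ a ∈ X, B Q a x = B Q a y) :
    ∃ g ∈ EU Q (Orth.perp Q X), g x = y := by
  have := hQ.ndOn_top.EU_trans_fix (X := X) le_top (by rwa [finrank_top]) trivial trivial
    hxX hyX hq hb
  simpa using this

variable {M : Subgroup (V ≃ₗ[F] V)}

/-- A full point that `M` moves by a singular vector: `EO ≤ M` as soon as `M` contains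
`EU U` for a large non-degenerate `U ∋ e`. -/
theorem EO_le_of_full_of_EU (hQ : Nd Q) (hM : M ≤ O Q) {U : Submodule F V} (hU : NdOn Q U)
    (hd : 5 ≤ finrank F U) (hEU : EU Q U ≤ M) {e : V} (heU : e ∈ U) (he0 : e ≠ 0) (he : Q e = 0)
    (hf : Full Q M e) : EO Q ≤ M := by
  obtain ⟨f, hfU, hf0, hef⟩ := exists_partner heU he (hU.exists_B_ne heU he0)
  obtain ⟨g, hg, hge⟩ := hU.EU_trans hd heU hfU he0 (by rintro rfl; simp at hef) (by rw [he, hf0])
  have := Submodule.finrank_le U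
  exact EO_le_of_full_of_move hQ (by omega) hM he hf (hEU hg) (by rw [hge, hef]; simp)

theorem exists_EO_not_stab (hQ : Nd Q) (hd : 5 ≤ finrank F V) {W : Submodule F V}
    (hW0 : W ≠ ⊥) (hW1 : W ≠ ⊤) : ∃ g ∈ EO Q, ¬ ∀ v ∈ W, g v ∈ W := by
  by_contra h
  push Not at h
  obtain ⟨v, hv, hv0⟩ := Submodule.exists_mem_ne_zero_of_ne_bot hW0
  obtain ⟨e, -, -, he0, hne⟩ := hQ.ndOn_top.exists_sing_perp_B_ne (X := ⊥) bot_le
    (by simp; omega) (a := v) trivial (by simpa using hv0)
  -- `W + e ⊇ e^⊥`, so `W` contains a non-zero singular vector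
  have h1 : perp Q (F ∙ e) ≤ W ⊔ F ∙ e := by
    intro w hw
    rw [mem_perp_span_singleton] at hw
    have h2 := W.sub_mem (h _ (eich_mem_EO e w) v hv) hv
    rw [eich_apply he0 hw] at h2
    have h3 := Submodule.add_mem _ (Submodule.mem_sup_left (T := F ∙ e) h2)
      (Submodule.mem_sup_right (Submodule.smul_mem _ (B Q w v + Q w * B Q e v)
        (Submodule.mem_span_singleton_self e)))
    have h4 := Submodule.smul_mem _ (B Q e v)⁻¹ h3
    rw [B_comm] at hne
    convert h4 using 1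
    rw [show v + B Q e v • w - (B Q w v + Q w * B Q e v) • e - v + (B Q w v + Q w * B Q e v) • e
      = B Q e v • w by abel, smul_smul, inv_mul_cancel₀ hne, one_smul]
  have h2 := Submodule.finrank_mono h1
  have h3 := finrank_sup_le W (F ∙ e)
  have h4 := finrank_span_singleton_le (F := F) e
  have h5 := finrank_perp_ge (Q := Q) (F ∙ e)
  obtain ⟨s, hs, hs0, hsq⟩ := exists_sing_of_three (Q := Q) W (by omega)
  obtain ⟨y, -, hy0, hyW⟩ := hQ.ndOn_top.exists_sing_notMem (H := ⊤) (Y := W) le_top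
    (by rw [finrank_top]; omega) (fun h => hW1 (top_le_iff.1 h))
  obtain ⟨g, hg, hgs⟩ := hQ.EO_trans hd hs0 (y := y) (by rintro rfl; exact hyW W.zero_mem)
    (by rw [hsq, hy0])
  exact hyW (hgs ▸ h g hg s hs)

/-- Parabolic subgroups. -/
theorem ts_max (hQ : Nd Q) (hd : 5 ≤ finrank F V) {W : Submodule F V} (hW : TS Q W)
    (hex : ∀ x ∈ perp Q W, x ∉ W → Q x = 0 → 2 * finrank F W + 3 ≤ finrank F V)
    (hM : M ≤ O Q) (hH : ∀ g ∈ EO Q, (∀ v ∈ W, g v ∈ W) → g ∈ M) :
    (∀ g ∈ M, ∀ v ∈ W, g v ∈ W) ∨ EO Q ≤ M := by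
  have hfull : ∀ e ∈ W, Full Q M e := by
    intro e he w hw
    refine hH _ (eich_mem_EO e w) fun v hv => ?_
    rw [eich_apply_of_perp_left (hW e he) hw (hW.B_eq_zero he hv)]
    exact W.sub_mem hv (W.smul_mem _ he)
  by_contra hcon
  push Not at hcon
  obtain ⟨⟨g, hg, v, hv, hx⟩, hE⟩ := hcon
  apply hE
  set x := g v
  have hx0 : Q x = 0 := by rw [hM hg, hW v hv]
  have hxf : Full Q M x := (hfull v hv).apply hM hg
  by_cases hp : x ∈ perp Q W
  swap
  · rw [mem_perp] at hp
    push Not at hp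
    obtain ⟨e, he, hne⟩ := hp
    exact EO_le_of_full hQ hd hM (hW e he) hx0 (hfull e he) hxf hne
  have hdim := hex x hp hx hx0
  obtain ⟨y, hy, hy0, hxy⟩ := exists_partner hp hx0 (hQ.exists_perp_B_ne hx)
  have hz : ∃ z ∈ perp Q (W ⊔ Submodule.span F {x, y}), Q z ≠ 0 := by
    by_contra hz; push Not at hz
    have h1 := TS.le_perp hz
    rw [hQ.perp_perp] at h1
    have h2 : perp Q (W ⊔ Submodule.span F {x, y}) ≤ W := by
      intro z hz'
      obtain ⟨w, hw, _, h3, hzz⟩ := Submodule.mem_sup.1 (h1 hz')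
      obtain ⟨a, b, rfl⟩ := Submodule.mem_span_pair.1 h3
      rw [perp_sup] at hz'
      have h4 := mem_perp_span.1 hz'.2 x (by simp)
      have h5 := mem_perp_span.1 hz'.2 y (by simp)
      rw [← hzz] at h4 h5
      simp only [map_add, map_smul, B_comm Q x w, hp w hw, B_self_of_sing Q hx0, hxy,
        B_comm Q y w, hy w hw, B_self_of_sing Q hy0, B_comm Q y x, smul_eq_mul] at h4 h5
      have ha : a = 0 := by simpa using h5
      have hb : b = 0 := by simpa using h4
      rw [← hzz, ha, hb]; simpa using hw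
    have h3 := Submodule.finrank_mono h2
    have h4 := finrank_perp_ge (Q := Q) (W ⊔ Submodule.span F {x, y})
    have h5 := finrank_sup_le W (Submodule.span F {x, y})
    have h6 := finrank_span_pair_le (F := F) x y
    omega
  obtain ⟨z, hz, hz0⟩ := hz
  rw [perp_sup] at hz
  have hxz : B Q x z = 0 := mem_perp_span.1 hz.2 x (by simp)
  have hyz : B Q y z = 0 := mem_perp_span.1 hz.2 y (by simp)
  have hh : eich Q y z ∈ M := hH _ (eich_mem_EO y z) fun w hw => by
    rw [eich_apply_of_perp (by rw [B_comm]; exact hy w hw) (by rw [B_comm]; exact hz.1 w hw)]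
    exact hw
  refine EO_le_of_full_of_move hQ hd hM hx0 hxf hh ?_
  rw [eich_apply hy0 hyz]
  simp [B_self_of_sing Q hx0, hxz, hxy, B_comm Q z x, B_comm Q y x, hz0]

omit [Finite F] in
/-- Irreducibility of the orthogonal group of a non-degenerate subspace. -/
theorem NdOn.irred {W A : Submodule F V} (hW : NdOn Q W) (hA : A ≤ W) (hA0 : A ≠ ⊥)
    (hr : ∀ a ∈ W, ∀ b ∈ A, refl Q a b ∈ A)
    (hE : ∀ u ∈ W, ∀ w ∈ W, ∀ b ∈ A, eich Q u w b ∈ A) :
    A = W ∨ (finrank F W = 2 ∧ (∃ s ∈ W, s ≠ 0 ∧ Q s = 0) ∧ Nat.card F ≤ 3) := by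
  by_cases hAW : A = W
  · exact Or.inl hAW
  right
  set C := W ⊓ Orth.perp Q A with hC
  have hdC := hW.finrank_inf_perp hA
  have hAlt : finrank F A < finrank F W := Submodule.finrank_lt_finrank_of_lt (lt_of_le_of_ne hA hAW)
  have hApos : 0 < finrank F A := by
    rw [Nat.pos_iff_ne_zero]; intro h; exact hA0 (Submodule.finrank_eq_zero.1 h)
  have hsing : ∀ x ∈ W, x ∉ A → x ∉ C → Q x = 0 := by
    intro x hx hxA hxC
    by_contra hq
    apply hxC
    refine ⟨hx, fun b hb => ?_⟩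
    by_contra hne
    apply hxA
    have h1 := A.sub_mem hb (hr x hx b hb)
    rw [refl_apply, sub_sub_cancel] at h1
    have h2 := A.smul_mem ((Q x)⁻¹ * B Q x b)⁻¹ h1
    rwa [smul_smul, inv_mul_cancel₀ (mul_ne_zero (inv_ne_zero hq) (by rwa [B_comm])),
      one_smul] at h2
  obtain ⟨x, hx, hxA, hxC⟩ : ∃ x ∈ W, x ∉ A ∧ x ∉ C := by
    obtain ⟨a, ha, haA⟩ := exists_mem_notMem_of_finrank_lt hAlt
    obtain ⟨c, hc, hcC⟩ := exists_mem_notMem_of_finrank_lt (H := W) (X := C) (by rw [hC]; omega)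
    by_cases haC : a ∈ C
    · by_cases hcA : c ∈ A
      · refine ⟨a + c, W.add_mem ha hc, fun h => haA ?_, fun h => hcC ?_⟩
        · simpa using A.sub_mem h hcA
        · simpa using C.sub_mem h haC
      · exact ⟨c, hc, hcA, hcC⟩
    · exact ⟨a, ha, haA, haC⟩
  have hx0 := hsing x hx hxA hxC
  have hxne : x ≠ 0 := by rintro rfl; exact hxA A.zero_mem
  -- an invariant subspace not orthogonal to `x` has codimension at most one
  have key : ∀ D : Submodule F V, D ≤ W → (∀ w ∈ W, ∀ b ∈ D, eich Q x w b ∈ D) →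
      (∃ b ∈ D, B Q x b ≠ 0) → finrank F W ≤ finrank F D + 1 := by
    rintro D hD hDi ⟨b, hb, hne⟩
    have h1 : W ≤ D ⊔ F ∙ x := by
      have h0 : ∀ w ∈ W, B Q x w = 0 → w ∈ D ⊔ F ∙ x := by
        intro w hw hxw
        have h2 := D.sub_mem (hDi w hw b hb) hb
        rw [eich_apply hx0 hxw] at h2
        have h3 := Submodule.add_mem _ (Submodule.mem_sup_left (T := F ∙ x) h2)
          (Submodule.mem_sup_right (Submodule.smul_mem _ (B Q w b + Q w * B Q x b)
            (Submodule.mem_span_singleton_self x)))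
        have h4 := Submodule.smul_mem _ (B Q x b)⁻¹ h3
        convert h4 using 1
        rw [show b + B Q x b • w - (B Q w b + Q w * B Q x b) • x - b +
          (B Q w b + Q w * B Q x b) • x = B Q x b • w by abel, smul_smul, inv_mul_cancel₀ hne,
          one_smul]
      intro w hw
      have h5 := h0 (w - (B Q x w * (B Q x b)⁻¹) • b) (W.sub_mem hw (W.smul_mem _ (hD hb))) (by
        rw [map_sub, map_smul, smul_eq_mul]; field_simp; ring)
      have h6 := Submodule.add_mem _ h5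
        (Submodule.mem_sup_left (T := F ∙ x) (D.smul_mem (B Q x w * (B Q x b)⁻¹) hb))
      simpa using h6
    have h2 := Submodule.finrank_mono h1
    have h3 := finrank_sup_le D (F ∙ x)
    have h4 := finrank_span_singleton_le (F := F) x
    omega
  obtain ⟨b, hb, hxb⟩ : ∃ b ∈ A, B Q x b ≠ 0 := by
    by_contra h; push Not at h
    exact hxC ⟨hx, mem_perp'.2 h⟩
  have h1 := key A hA (fun w hw => hE x hx w hw) ⟨b, hb, hxb⟩
  have h2 := key C inf_le_left (fun w hw c hc => ⟨EU_mem (eich_mem_EU hx hw) hc.1,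
    perp_stable (eich_mem_O x w) (hE x hx w hw) c hc.2⟩) (hW.exists_perp_B_ne hA hx hxA)
  refine ⟨by rw [hC] at h2; omega, ⟨x, hx, hxne, hx0⟩, ?_⟩
  by_cases hfin : Finite F
  swap
  · have : Infinite F := not_finite_iff_infinite.1 hfin
    simp
  classical
  have := Fintype.ofFinite F
  by_contra hcard
  have h3 : ∀ t : F, t ≠ 0 → t ≠ -(B Q x b) * (Q b)⁻¹ → x + t • b ∈ C := by
    intro t ht ht'
    by_contra hn
    have h4 := hsing (x + t • b) (W.add_mem hx (W.smul_mem _ (hA hb)))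
      (fun h => hxA (by simpa using A.sub_mem h (A.smul_mem t hb))) hn
    rw [Q_add, Q_smul, hx0, map_smul, smul_eq_mul] at h4
    have h5 : t * Q b + B Q x b = 0 := by
      apply mul_left_cancel₀ ht; linear_combination h4
    have hQb : Q b ≠ 0 := by intro h; rw [h] at h5; exact hxb (by simpa using h5)
    apply ht'
    field_simp; linear_combination h5
  have h4 : 1 < (Finset.univ \ {0, -(B Q x b) * (Q b)⁻¹} : Finset F).card := by
    have := Finset.card_le_two (a := (0 : F)) (b := -(B Q x b) * (Q b)⁻¹)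
    rw [Finset.card_univ_diff, ← Nat.card_eq_fintype_card]
    omega
  obtain ⟨t1, ht1, t2, ht2, hne⟩ := Finset.one_lt_card.1 h4
  simp only [Finset.mem_sdiff, Finset.mem_univ, Finset.mem_insert, Finset.mem_singleton, not_or,
    true_and] at ht1 ht2
  have h5 := h3 t1 ht1.1 ht1.2
  have h6 := h3 t2 ht2.1 ht2.2
  have h7 : b ∈ C := by
    have := C.smul_mem (t1 - t2)⁻¹ (C.sub_mem h5 h6)
    rwa [add_sub_add_left_eq_sub, ← sub_smul, smul_smul, inv_mul_cancel₀ (sub_ne_zero.2 hne),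
      one_smul] at this
  exact hxC (by simpa using C.sub_mem h5 (C.smul_mem t1 h7))

end fin

/-- `U` is a block for `M`: `M ⊇ EU U`, and the Eichler elements of `M` centred in `U` are
supported on `U`. -/
structure Blk (Q : QuadraticForm F V) (M : Subgroup (V ≃ₗ[F] V)) (U : Submodule F V) : Prop where
  nd : NdOn Q U
  le : EU Q U ≤ M
  star : ∀ e ∈ U, e ≠ 0 → Q e = 0 → ∀ w, B Q e w = 0 → eich Q e w ∈ M → w ∈ U

variable {M : Subgroup (V ≃ₗ[F] V)}

lemma Blk.map (hM : M ≤ O Q) {U : Submodule F V} (hU : Blk Q M U) {g : V ≃ₗ[F] V} (hg : g ∈ M) :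
    Blk Q M (U.map (g : V →ₗ[F] V)) := by
  refine ⟨hU.nd.map (hM hg), ?_, ?_⟩
  · rw [EU_le_iff]
    rintro _ ⟨u, hu, rfl⟩ _ ⟨w, hw, rfl⟩ - -
    exact eich_conj_mem hM hg (hU.le (eich_mem_EU hu hw))
  · rintro _ ⟨e, he, rfl⟩ he0 hq w hw hE
    have h1 := eich_conj_mem hM (inv_mem hg) hE
    simp only [LinearEquiv.coe_coe, inv_apply_apply] at h1 he0 hq hw
    refine ⟨g⁻¹ w, hU.star e he (by rintro rfl; simp at he0) (by rwa [hM hg] at hq) _
      (by rwa [← O_B_inv (hM hg)]) h1, by simp⟩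

section fin
variable [Finite F] [FiniteDimensional F V]

lemma Blk.le_of_sing {U U' : Submodule F V} (hU : Blk Q M U) (hU' : Blk Q M U')
    (hd : 5 ≤ finrank F U') {e : V} (he : e ∈ U) (he' : e ∈ U') (he0 : e ≠ 0) (hq : Q e = 0) :
    U' ≤ U := by
  have h1 : ∀ e ∈ U, e ∈ U' → e ≠ 0 → Q e = 0 → ∀ w ∈ U', B Q e w = 0 → w ∈ U :=
    fun e he he' he0 hq w hw hew => hU.star e he he0 hq w hew (hU'.le (eich_mem_EU he' hw))
  have h2 := finrank_inf_perp_ge (Q := Q) U' (F ∙ e)
  have h3 := finrank_span_singleton_le (F := F) e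
  obtain ⟨e', he'1, he'0, he'n⟩ := hU'.nd.exists_sing_notMem (H := U' ⊓ perp Q (F ∙ e))
    (Y := F ∙ e) inf_le_left (by omega) (fun h => by have := Submodule.finrank_mono h; omega)
  have he'U : e' ∈ U := h1 e he he' he0 hq e' he'1.1 (mem_perp_span_singleton.1 he'1.2)
  obtain ⟨y, hy, hne⟩ := hU'.nd.exists_perp_B_ne
    ((Submodule.span_singleton_le_iff_mem _ _).2 he') he'1.1 he'n
  have hyU : y ∈ U := h1 e he he' he0 hq y hy.1 (mem_perp_span_singleton.1 hy.2)
  intro x hx
  have h4 := h1 e' he'U he'1.1 (by rintro rfl; exact he'n (Submodule.zero_mem _)) he'0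
    (x - (B Q e' x * (B Q e' y)⁻¹) • y) (U'.sub_mem hx (U'.smul_mem _ hy.1)) (by
      rw [map_sub, map_smul, smul_eq_mul]; field_simp; ring)
  simpa using U.add_mem h4 (U.smul_mem (B Q e' x * (B Q e' y)⁻¹) hyU)

/-- two blocks of dimension at least five are equal or orthogonal -/
theorem Blk.le_or_le_perp (hM : M ≤ O Q) {U U' : Submodule F V} (hU : Blk Q M U)
    (hU' : Blk Q M U') (hd : 5 ≤ finrank F U) (hd' : 5 ≤ finrank F U') :
    U' ≤ U ∨ U' ≤ perp Q U := by
  by_contra hcon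
  push Not at hcon
  obtain ⟨x, hx, hx0, hxn⟩ := hU'.nd.exists_sing_notMem (H := U') le_rfl (by omega) hcon.2
  rw [mem_perp] at hxn
  push Not at hxn
  obtain ⟨z, hz, hzx⟩ := hxn
  have h1 : U' ⊓ perp Q (F ∙ x) ≤ U ⊔ F ∙ x := by
    intro y hy
    have hxy : B Q x y = 0 := mem_perp_span_singleton.1 hy.2
    have hh : eich Q x y ∈ M := hU'.le (eich_mem_EU hx hy.1)
    have h2 := finrank_inf_perp_ge (Q := Q) U (Submodule.span F {x, y})
    have h3 := finrank_span_pair_le (F := F) x y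
    obtain ⟨e, he, he0, hq⟩ := exists_sing_of_three (Q := Q)
      (U ⊓ perp Q (Submodule.span F {x, y})) (by omega)
    have h4 := hU.le_of_sing (hU.map hM hh) (by rwa [LinearEquiv.finrank_map_eq]) he.1
      ⟨e, he.1, eich_apply_of_perp (mem_perp_span.1 he.2 x (by simp))
        (mem_perp_span.1 he.2 y (by simp))⟩ he0 hq
    have h5 := U.sub_mem (h4 ⟨z, hz, rfl⟩) hz
    simp only [LinearEquiv.coe_coe] at h5
    rw [eich_apply hx0 hxy] at h5
    have h6 := Submodule.add_mem _ (Submodule.mem_sup_left (T := F ∙ x) h5)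
      (Submodule.mem_sup_right (Submodule.smul_mem _ (B Q y z + Q y * B Q x z)
        (Submodule.mem_span_singleton_self x)))
    have h7 := Submodule.smul_mem _ (B Q x z)⁻¹ h6
    rw [B_comm] at hzx
    convert h7 using 1
    rw [show z + B Q x z • y - (B Q y z + Q y * B Q x z) • x - z +
      (B Q y z + Q y * B Q x z) • x = B Q x z • y by abel, smul_smul, inv_mul_cancel₀ hzx,
      one_smul]
  have h2 := finrank_inf_perp_ge (Q := Q) U' (F ∙ x)
  have h3 := finrank_span_singleton_le (F := F) x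
  have h4 := finrank_sup_le U (F ∙ x)
  have h5 := Submodule.finrank_sup_add_finrank_inf_eq U (U' ⊓ perp Q (F ∙ x))
  have h6 : finrank F (U ⊔ (U' ⊓ perp Q (F ∙ x)) : Submodule F V) ≤
      finrank F (U ⊔ F ∙ x : Submodule F V) := Submodule.finrank_mono (sup_le le_sup_left h1)
  obtain ⟨e, he, he0, hq⟩ := exists_sing_of_three (Q := Q) (U ⊓ (U' ⊓ perp Q (F ∙ x))) (by omega)
  exact hcon.1 (hU.le_of_sing hU' hd' he.1 he.2.1 he0 hq)

/-- The vectors `b ∈ U^⊥` with `E(e,b) ∈ M`, as a subspace. -/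
def tail (Q : QuadraticForm F V) (hM : M ≤ O Q) {U : Submodule F V} (hU : NdOn Q U)
    (hd : 5 ≤ finrank F U) (hEU : EU Q U ≤ M) {e : V} (he : e ∈ U) (he0 : e ≠ 0) (hq : Q e = 0) :
    Submodule F V where
  carrier := {b | b ∈ perp Q U ∧ eich Q e b ∈ M}
  add_mem' := fun {a b} ha hb => ⟨(perp Q U).add_mem ha.1 hb.1, by
    rw [← eich_mul hq (ha.1 e he) (hb.1 e he)]; exact mul_mem ha.2 hb.2⟩
  zero_mem' := ⟨(perp Q U).zero_mem, by rw [eich_zero]; exact one_mem _⟩
  smul_mem' := fun c b hb => ⟨(perp Q U).smul_mem c hb.1, by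
    by_cases hc : c = 0
    · rw [hc, zero_smul, eich_zero]; exact one_mem _
    obtain ⟨g, hg, hge⟩ := hU.EU_trans hd he (U.smul_mem c he) he0 (smul_ne_zero hc he0)
      (by rw [Q_smul, hq, mul_zero])
    have := eich_conj_mem hM (hEU hg) hb.2
    rwa [hge, EU_fix hg hb.1, eich_smul_left hq (hb.1 e he)] at this⟩

/-- If every non-zero `tail` is everything, then `U` is a block or `EO ≤ M`. -/
theorem blk_or_EO_le (hQ : Nd Q) (hM : M ≤ O Q) {U : Submodule F V} (hU : NdOn Q U)
    (hd : 5 ≤ finrank F U) (hEU : EU Q U ≤ M)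
    (htail : ∀ e (he : e ∈ U) (he0 : e ≠ 0) (hq : Q e = 0),
      tail Q hM hU hd hEU he he0 hq ≠ ⊥ → perp Q U ≤ tail Q hM hU hd hEU he he0 hq) :
    Blk Q M U ∨ EO Q ≤ M := by
  by_cases hE : EO Q ≤ M
  · exact Or.inr hE
  left
  refine ⟨hU, hEU, fun e he he0 hq w hw hew => ?_⟩
  obtain ⟨a, ha, b, hb, rfl⟩ := hU.exists_decomp w
  have hea : B Q e a = 0 := by simpa [hb e he] using hw
  have h1 : eich Q e b ∈ M := by
    have := mul_mem (hEU (eich_mem_EU he (U.neg_mem ha))) hew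
    rwa [eich_mul hq (by simp [hea]) hw, neg_add_cancel_left] at this
  by_cases hb0 : b = 0
  · simpa [hb0] using ha
  exfalso
  apply hE
  have h2 := htail e he he0 hq (fun h => hb0 (by
    have : b ∈ tail Q hM hU hd hEU he he0 hq := ⟨hb, h1⟩
    rwa [h] at this))
  refine EO_le_of_full_of_EU hQ hM hU hd hEU he he0 hq fun w hw => ?_
  obtain ⟨a', ha', b', hb', rfl⟩ := hU.exists_decomp w
  have hea' : B Q e a' = 0 := by simpa [hb' e he] using hw
  rw [← eich_mul hq hea' (hb' e he)]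
  exact mul_mem (hEU (eich_mem_EU he ha')) (h2 hb').2

/-- a reflection of `U^⊥` can be completed to an element of `EO` fixing `e ∈ U`. -/
lemma exists_refl_pair (hQ : Nd Q) {U : Submodule F V} (hU : NdOn Q U) (hd : 5 ≤ finrank F U)
    {e : V} (he : e ∈ U) (a : V) :
    ∃ a' ∈ U, B Q e a' = 0 ∧ refl Q a * refl Q a' ∈ EO Q := by
  have h2 := finrank_inf_perp_ge (Q := Q) U (F ∙ e)
  have h3 := finrank_span_singleton_le (F := F) e
  have h4 := Submodule.finrank_le U
  obtain ⟨a', ha', hq⟩ := hU.exists_Q_eq (H := U ⊓ perp Q (F ∙ e)) inf_le_left (by omega) (Q a)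
  exact ⟨a', ha'.1, mem_perp_span_singleton.1 ha'.2, hQ.refl_mul_refl_mem_EO (by omega) hq.symm⟩

/-- Stabilisers of non-degenerate subspaces. -/
theorem nd_max (hQ : Nd Q) {U : Submodule F V} (hU : NdOn Q U) (hd : 5 ≤ finrank F U)
    (hex : ¬ (finrank F (perp Q U) = 2 ∧ (∃ s ∈ perp Q U, s ≠ 0 ∧ Q s = 0) ∧ Nat.card F ≤ 3))
    (hni : ∀ g ∈ O Q, ¬ ∀ v ∈ U, g v ∈ perp Q U)
    (hM : M ≤ O Q) (hH : ∀ g ∈ EO Q, (∀ v ∈ U, g v ∈ U) → g ∈ M) :
    (∀ g ∈ M, ∀ v ∈ U, g v ∈ U) ∨ EO Q ≤ M := by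
  have hEU : EU Q U ≤ M := fun g hg => hH g (EU_le_EO U hg) fun v hv => EU_mem hg hv
  have htail : ∀ e (he : e ∈ U) (he0 : e ≠ 0) (hq : Q e = 0),
      tail Q hM hU hd hEU he he0 hq ≠ ⊥ → perp Q U ≤ tail Q hM hU hd hEU he he0 hq := by
    intro e he he0 hq hne
    have hP := hU.perp hQ
    have hr : ∀ a ∈ perp Q U, ∀ b ∈ tail Q hM hU hd hEU he he0 hq,
        refl Q a b ∈ tail Q hM hU hd hEU he he0 hq := by
      intro a ha b hb
      obtain ⟨a', ha', hea', hEO⟩ := exists_refl_pair hQ hU hd he a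
      refine ⟨refl_mem ha hb.1, ?_⟩
      have h1 := eich_conj_mem hM (hH _ hEO fun v hv => by
        rw [mul_app, refl_stable_of_perp ha _ (refl_mem ha' hv)]; exact refl_mem ha' hv) hb.2
      rwa [mul_app, mul_app, refl_of_perp (x := e) (by rwa [B_comm]),
        refl_stable_of_perp ha e he, refl_of_perp (hb.1 a' ha')] at h1
    have he' : ∀ u ∈ perp Q U, ∀ w ∈ perp Q U, ∀ b ∈ tail Q hM hU hd hEU he he0 hq,
        eich Q u w b ∈ tail Q hM hU hd hEU he he0 hq := by
      intro u hu w hw b hb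
      have hg : eich Q u w ∈ EU Q (perp Q U) := eich_mem_EU hu hw
      have hfix : ∀ v ∈ U, eich Q u w v = v := fun v hv => EU_fix hg (le_perp_perp U hv)
      refine ⟨EU_mem hg hb.1, ?_⟩
      have h1 := eich_conj_mem hM (hH _ (eich_mem_EO u w) fun v hv => by
        rw [hfix v hv]; exact hv) hb.2
      rwa [hfix e he] at h1
    rcases hP.irred (A := tail Q hM hU hd hEU he he0 hq) (fun b hb => hb.1) hne hr he' with h | h
    · exact h.ge
    · exact absurd h hex
  rcases blk_or_EO_le hQ hM hU hd hEU htail with hB | hE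
  · left
    intro g hg v hv
    rcases hB.le_or_le_perp hM (hB.map hM hg) hd (by rwa [LinearEquiv.finrank_map_eq]) with h | h
    · exact h ⟨v, hv, rfl⟩
    · exact absurd (fun v hv => h ⟨v, hv, rfl⟩) (hni g (hM hg))
  · exact Or.inr hE

/-- Stabiliser of a non-singular point (any characteristic). -/
theorem nonsing_max (hQ : Nd Q) (hd : 7 ≤ finrank F V) {v : V} (hv : Q v ≠ 0)
    (hM : M ≤ O Q) (hH : ∀ g ∈ EO Q, g v = v → g ∈ M) :
    (∀ g ∈ M, g v ∈ F ∙ v) ∨ EO Q ≤ M := by
  by_cases hE : EO Q ≤ M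
  · exact Or.inr hE
  left
  have h1 := finrank_span_singleton_le (F := F) v
  have hfix : ∀ g ∈ EU Q (perp Q (F ∙ v)), g v = v := fun g hg =>
    EU_fix hg (le_perp_perp _ (Submodule.mem_span_singleton_self v))
  have hEU : EU Q (perp Q (F ∙ v)) ≤ M := fun g hg => hH g (EU_le_EO _ hg) (hfix g hg)
  have hnot : ∀ e, e ≠ 0 → Q e = 0 → e ∉ F ∙ v := by
    intro e he0 hq h
    obtain ⟨c, rfl⟩ := Submodule.mem_span_singleton.1 h
    rw [Q_smul] at hq
    have : c = 0 := by simpa [hv] using hq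
    simp [this] at he0
  have star : ∀ e, B Q v e = 0 → e ≠ 0 → Q e = 0 → ∀ w, B Q e w = 0 → eich Q e w ∈ M →
      B Q v w = 0 := by
    intro e hve he0 hq w hw hew
    by_contra hvw
    apply hE
    have hfull : Full Q M e := by
      intro x hx
      by_cases hc : B Q v x = 0
      · exact hEU (eich_mem_EU (mem_perp_span_singleton.2 hve) (mem_perp_span_singleton.2 hc))
      set c := B Q v x * (B Q v w)⁻¹ with hc'
      have hc0 : c ≠ 0 := mul_ne_zero hc (inv_ne_zero hvw)
      obtain ⟨g, hg, hge⟩ := hQ.EU_trans_fix (X := F ∙ v) (by omega) (hnot e he0 hq)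
        (hnot (c • e) (smul_ne_zero hc0 he0) (by rw [Q_smul, hq, mul_zero]))
        (by rw [Q_smul, hq, mul_zero]) (fun a ha => by
          obtain ⟨t, rfl⟩ := Submodule.mem_span_singleton.1 ha
          simp [hve])
      have hgO := EU_le_O _ hg
      have h2 := eich_conj_mem hM (hEU hg) hew
      have h3 : B Q e (g w) = 0 := by
        have := O_B hgO e w
        rw [hge, hw, map_smul, LinearMap.smul_apply, smul_eq_mul] at this
        simpa [hc0] using this
      rw [hge, eich_smul_left hq h3] at h2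
      have h4 : B Q v (g w) = B Q v w := by nth_rewrite 1 [← hfix g hg]; rw [O_B hgO]
      have h5 : eich Q e (x - c • g w) ∈ M := hEU (eich_mem_EU (mem_perp_span_singleton.2 hve)
        (mem_perp_span_singleton.2 (by
          rw [map_sub, map_smul, h4, smul_eq_mul, hc']; field_simp; ring)))
      have := mul_mem h5 h2
      rwa [eich_mul hq (by simp [hx, h3]) (by simp [h3]), sub_add_cancel] at this
    obtain ⟨f, hf, hf0, hef⟩ := exists_partner (H := perp Q (F ∙ v)) (mem_perp_span_singleton.2 hve)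
      hq (hQ.exists_perp_B_ne (hnot e he0 hq))
    obtain ⟨g, hg, hge⟩ := hQ.EU_trans_fix (X := F ∙ v) (by omega) (hnot e he0 hq)
      (hnot f (by rintro rfl; simp at hef) hf0) (by rw [hq, hf0]) (fun a ha => by
        obtain ⟨t, rfl⟩ := Submodule.mem_span_singleton.1 ha
        simp [hve, mem_perp_span_singleton.1 hf])
    exact EO_le_of_full_of_move hQ (by omega) hM hq hfull (hEU hg) (by rw [hge, hef]; simp)
  intro g hg
  have hgO := hM hg
  have h2 := finrank_span_pair_le (F := F) v (g v)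
  have h3 := finrank_perp_ge (Q := Q) (Submodule.span F {v, g v})
  obtain ⟨e, he, hq, hen⟩ := hQ.ndOn_top.exists_sing_notMem
    (H := perp Q (Submodule.span F {v, g v})) (Y := Submodule.span F {v, g v}) le_top
    (by rw [finrank_top]; omega) (fun h => by have := Submodule.finrank_mono h; omega)
  have hve : B Q v e = 0 := mem_perp_span.1 he v (by simp)
  have hge : B Q (g v) e = 0 := mem_perp_span.1 he (g v) (by simp)
  have he0 : e ≠ 0 := by rintro rfl; exact hen (Submodule.zero_mem _)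
  have h4 : g v ∈ Submodule.span F {e, v} := by
    rw [← hQ.perp_perp (Submodule.span F {e, v})]
    intro w hw
    have hew : B Q e w = 0 := mem_perp_span.1 hw e (by simp)
    have hvw : B Q v w = 0 := mem_perp_span.1 hw v (by simp)
    have h5 := eich_conj_mem hM (inv_mem hg) (hEU (eich_mem_EU (mem_perp_span_singleton.2 hve)
      (mem_perp_span_singleton.2 hvw)))
    have h6 := star (g⁻¹ e) (by rw [← O_B_inv hgO, hge]) (by simpa using he0)
      (by rw [hM (inv_mem hg), hq]) (g⁻¹ w) (by rw [O_B (inv_mem hgO), hew]) h5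
    rw [B_comm, O_B_inv hgO, h6]
  obtain ⟨a, b, hab⟩ := Submodule.mem_span_pair.1 h4
  by_cases ha : a = 0
  · rw [← hab, ha, zero_smul, zero_add]
    exact Submodule.smul_mem _ _ (Submodule.mem_span_singleton_self v)
  · exfalso
    apply hen
    refine Submodule.mem_span_pair.2 ⟨-(a⁻¹ * b), a⁻¹, ?_⟩
    rw [← hab, smul_add, smul_smul, smul_smul, inv_mul_cancel₀ ha, one_smul]
    module

end fin

end Cfsg.Agent.Orth
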