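import Cfsg.Agent.Orth.C1Fin

/-! The stabiliser of a pair of complementary totally singular subspaces (`GL_m(q).2`). -/

set_option autoImplicit false

namespace Cfsg.Agent.Orth

open Module Cfsg.Geo

section abstr
variable {F V : Type*} [Field F] [AddCommGroup V] [Module F V] {Q : QuadraticForm F V}
  {M : Subgroup (V ≃ₗ[F] V)}

lemma eich_sub_mem {u w w' : V} (hw : B Q u w = 0) (hw' : B Q u w' = 0)
    (h : eich Q u w ∈ M) (h' : eich Q u w' ∈ M) : eich Q u (w - w') ∈ M := by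
  by_cases hu : Q u = 0
  · rw [sub_eq_add_neg, ← eich_mul hu hw (by simp [hw']), ← eich_inv hu hw']
    exact mul_mem h (inv_mem h')
  · rw [eich_of_not (fun h => hu h.1)]; exact one_mem _

lemma eich_add_mem {u w w' : V} (hw : B Q u w = 0) (hw' : B Q u w' = 0)
    (h : eich Q u w ∈ M) (h' : eich Q u w' ∈ M) : eich Q u (w + w') ∈ M := by
  by_cases hu : Q u = 0
  · rw [← eich_mul hu hw hw']; exact mul_mem h h'
  · rw [eich_of_not (fun h => hu h.1)]; exact one_mem _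

lemma eich_neg_mem {u w : V} (hw : B Q u w = 0) (h : eich Q u w ∈ M) : eich Q u (-w) ∈ M := by
  have := eich_sub_mem (M := M) (w := 0) (by simp) hw (by rw [eich_zero]; exact one_mem _) h
  simpa using this

lemma eich_swap_mem {u w : V} (hu : Q u = 0) (hw : Q w = 0) (hb : B Q u w = 0)
    (h : eich Q u w ∈ M) : eich Q w u ∈ M := by
  rw [eich_swap hu hw hb]; exact eich_neg_mem hb h

/-- if `h ∈ M` fixes `u` then `h w - w` stays in `A_u` -/
lemma eich_move_mem (hM : M ≤ O Q) {h : V ≃ₗ[F] V} (hh : h ∈ M) {u w : V} (hu : h u = u)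
    (hw : B Q u w = 0) (he : eich Q u w ∈ M) : eich Q u (h w - w) ∈ M := by
  have h1 := eich_conj_mem hM hh he
  rw [hu] at h1
  refine eich_sub_mem ?_ hw h1 he
  rw [← hu, O_B (hM hh), hw]

variable [FiniteDimensional F V]

/-- an additive set containing `U \ X` contains `U` -/
lemma forall_of_notMem {U X : Submodule F V} (hX : finrank F X < finrank F U) {P : V → Prop}
    (hsub : ∀ a ∈ U, ∀ b ∈ U, P a → P b → P (a - b)) (h : ∀ v ∈ U, v ∉ X → P v) :
    ∀ v ∈ U, P v := by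
  intro v hv
  by_cases hvX : v ∈ X
  · obtain ⟨z, hz, hzX⟩ := exists_mem_notMem_of_finrank_lt hX
    have := hsub _ (U.add_mem hv hz) z hz (h _ (U.add_mem hv hz)
      fun h' => hzX (by simpa using X.sub_mem h' hvX)) (h z hz hzX)
    simpa using this
  · exact h v hv hvX

lemma pair_decomp {U1 U2 : Submodule F V} (hs : U1 ⊔ U2 = ⊤) (x : V) :
    ∃ a ∈ U1, ∃ b ∈ U2, x = a + b := by
  have : x ∈ U1 ⊔ U2 := by rw [hs]; trivial
  obtain ⟨a, ha, b, hb, h⟩ := Submodule.mem_sup.1 this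
  exact ⟨a, ha, b, hb, h.symm⟩

lemma pair_exists (hQ : Nd Q) {U1 U2 X : Submodule F V} (h1 : TS Q U1) (hs : U1 ⊔ U2 = ⊤)
    (hX : X ≤ U1) {a : V} (ha : a ∈ U1) (haX : a ∉ X) :
    ∃ w ∈ U2, (∀ x ∈ X, B Q x w = 0) ∧ B Q a w ≠ 0 := by
  obtain ⟨w, hw, hne⟩ := hQ.exists_perp_B_ne haX
  obtain ⟨w1, hw1, w2, hw2, rfl⟩ := pair_decomp hs w
  refine ⟨w2, hw2, fun x hx => ?_, ?_⟩
  · simpa [h1.B_eq_zero (hX hx) hw1] using hw x hx
  · simpa [h1.B_eq_zero ha hw1] using hne

lemma pair_full (hQ : Nd Q) {U1 U2 : Submodule F V} (h1 : TS Q U1) (h2 : TS Q U2)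
    (hs : U1 ⊔ U2 = ⊤) (hd : 3 ≤ finrank F U1) (hM : M ≤ O Q)
    (hH : ∀ u ∈ U1, ∀ w ∈ U2, B Q u w = 0 → eich Q u w ∈ M) {u w : V} (hu : u ∈ U1)
    (hw : w ∈ U1) (hwu : w ∉ F ∙ u) (he : eich Q u w ∈ M) : Full Q M u := by
  have key : ∀ v ∈ U1, eich Q u v ∈ M := by
    refine forall_of_notMem (X := Submodule.span F {u, w})
      (lt_of_le_of_lt (finrank_span_pair_le u w) (by omega))
      (fun a ha b hb => eich_sub_mem (h1.B_eq_zero hu ha) (h1.B_eq_zero hu hb)) fun v hv hvX => ?_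
    have hw' : w ∉ Submodule.span F {u, v} := by
      intro h
      obtain ⟨a, b, hab⟩ := Submodule.mem_span_pair.1 h
      by_cases hb : b = 0
      · exact hwu (Submodule.mem_span_singleton.2 ⟨a, by simpa [hb] using hab⟩)
      · refine hvX (Submodule.mem_span_pair.2 ⟨-(b⁻¹ * a), b⁻¹, ?_⟩)
        rw [← hab, smul_add, smul_smul, smul_smul, inv_mul_cancel₀ hb]; simp
    obtain ⟨w', hw'2, hp, hne⟩ := pair_exists hQ h1 hs
      (by rw [Submodule.span_le]; rintro _ (rfl | rfl) <;> assumption) hw hw'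
    have hu' := hp u (Submodule.subset_span (by simp))
    have hv' := hp v (Submodule.subset_span (by simp))
    set c := -(B Q w w')⁻¹ with hc
    have hh := hH v hv (c • w') (U2.smul_mem c hw'2) (by simp [hv'])
    have := eich_move_mem hM hh (u := u) (w := w) (eich_apply_of_perp (h1.B_eq_zero hv hu)
      (by rw [B_comm]; simp [hu'])) (h1.B_eq_zero hu hw) he
    rw [eich_apply_of_perp_left (h1 v hv) (by simp [hv']) (h1.B_eq_zero hv hw), B_comm,
      map_smul, smul_eq_mul, hc] at this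
    convert this using 2
    rw [neg_mul, inv_mul_cancel₀ hne]; simp
  intro x hx
  obtain ⟨a, ha, b, hb, rfl⟩ := pair_decomp hs x
  have hb' : B Q u b = 0 := by simpa [h1.B_eq_zero hu ha] using hx
  exact eich_add_mem (h1.B_eq_zero hu ha) hb' (key a ha) (hH u hu b hb hb')

lemma pair_star [Finite F] (hQ : Nd Q) {U1 U2 : Submodule F V} (h1 : TS Q U1) (h2 : TS Q U2)
    (hs : U1 ⊔ U2 = ⊤) (hd : 3 ≤ finrank F U1) (hd5 : 5 ≤ finrank F V) (hM : M ≤ O Q)
    (hH : ∀ u ∈ U1, ∀ w ∈ U2, B Q u w = 0 → eich Q u w ∈ M)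
    {s : V ≃ₗ[F] V} (hsM : s ∈ M) (hs12 : ∀ v ∈ U1, s v ∈ U2) (hE : ¬ EO Q ≤ M) :
    ∀ u ∈ U1, u ≠ 0 → ∀ w ∈ U1, eich Q u w ∈ M → w ∈ F ∙ u := by
  intro u hu hu0 w hw he
  by_contra hwu
  apply hE
  have hf := pair_full hQ h1 h2 hs hd hM hH hu hw hwu he
  have hall : ∀ v ∈ U1, Full Q M v := by
    intro v hv
    by_cases hvu : v ∈ F ∙ u
    · obtain ⟨c, rfl⟩ := Submodule.mem_span_singleton.1 hvu
      exact hf.smul (h1 u hu) c
    · refine pair_full hQ h1 h2 hs hd hM hH hv hu (fun h => hvu ?_)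
        (eich_swap_mem (h1 u hu) (h1 v hv) (h1.B_eq_zero hu hv) (hf v (h1.B_eq_zero hu hv)))
      obtain ⟨c, rfl⟩ := Submodule.mem_span_singleton.1 h
      have hc : c ≠ 0 := by rintro rfl; simp at hu0
      exact Submodule.mem_span_singleton.2 ⟨c⁻¹, by rw [smul_smul, inv_mul_cancel₀ hc, one_smul]⟩
  obtain ⟨v, hv, -, hne⟩ := pair_exists hQ h2 (by rw [sup_comm, hs]) (X := ⊥) bot_le
    (hs12 u hu) (by simpa using hu0)
  exact EO_le_of_full hQ hd5 hM (h2 _ (hs12 u hu)) (h1 v hv) (hf.apply hM hsM) (hall v hv) hne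

lemma pair_comp (hQ : Nd Q) {U1 U2 : Submodule F V} (h1 : TS Q U1) (h2 : TS Q U2)
    (hs : U1 ⊔ U2 = ⊤) (hd : 5 ≤ finrank F U1) (hM : M ≤ O Q)
    (hH : ∀ u ∈ U1, ∀ w ∈ U2, B Q u w = 0 → eich Q u w ∈ M)
    (star : ∀ u ∈ U1, u ≠ 0 → ∀ w ∈ U1, eich Q u w ∈ M → w ∈ F ∙ u)
    {x1 x2 w1 w2 : V} (hx1 : x1 ∈ U1) (hx2 : x2 ∈ U2) (hw1 : w1 ∈ U1) (hw2 : w2 ∈ U2)
    (hx0 : x1 ≠ 0) (hq : Q (x1 + x2) = 0) (hb : B Q (x1 + x2) (w1 + w2) = 0)
    (he : eich Q (x1 + x2) (w1 + w2) ∈ M) : w1 ∈ F ∙ x1 := by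
  by_contra hw
  obtain ⟨w', hw', hp, hne⟩ := pair_exists hQ h1 hs (X := F ∙ x1) (by simpa using hx1) hw1 hw
  have hx' := hp x1 (Submodule.mem_span_singleton_self _)
  have d1 := finrank_inf_perp_ge (Q := Q) U1 (Submodule.span F {x2, w', w2})
  have d2 := finrank_span_triple_le (F := F) x2 w' w2
  have d3 := finrank_span_singleton_le (F := F) x1
  obtain ⟨u, hu, hux⟩ := exists_mem_notMem_of_finrank_lt
    (H := U1 ⊓ perp Q (Submodule.span F {x2, w', w2})) (X := F ∙ x1) (by omega)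
  have p1 : B Q u x2 = 0 := by rw [B_comm]; exact mem_perp_span.1 hu.2 x2 (by simp)
  have p2 : B Q u w' = 0 := by rw [B_comm]; exact mem_perp_span.1 hu.2 w' (by simp)
  have p3 : B Q u w2 = 0 := by rw [B_comm]; exact mem_perp_span.1 hu.2 w2 (by simp)
  have hux' : B Q u (x1 + x2) = 0 := by simp [p1, h1.B_eq_zero hu.1 hx1]
  have := eich_move_mem hM (hH u hu.1 w' hw' p2) (eich_apply_of_perp hux' (by
    rw [map_add, B_comm, hx', h2.B_eq_zero hw' hx2, add_zero])) hb he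
  rw [eich_apply_of_perp_left (h1 u hu.1) p2 (by simp [p3, h1.B_eq_zero hu.1 hw1]), map_add,
    h2.B_eq_zero hw' hw2, add_zero, B_comm, sub_sub_cancel_left, ← neg_smul] at this
  set c := -B Q w1 w' with hc
  have hc0 : c ≠ 0 := by simpa [hc] using hne
  have hcu : c • u ∈ U1 := U1.smul_mem c hu.1
  have h3 := eich_swap_mem hq (h1 _ hcu) (by rw [B_comm]; simp [hux']) this
  have h4 := eich_sub_mem (by simp [hux']) (by simp [p1]) h3 (hH _ hcu x2 hx2 (by simp [p1]))
  rw [add_sub_cancel_right] at h4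
  obtain ⟨d, hd⟩ := Submodule.mem_span_singleton.1
    (star _ hcu (smul_ne_zero hc0 (by rintro rfl; simp at hux)) x1 hx1 h4)
  have hd0 : d ≠ 0 := by rintro rfl; simp at hd; exact hx0 hd.symm
  exact hux (Submodule.mem_span_singleton.2 ⟨(d * c)⁻¹, by
    rw [← hd, smul_smul, smul_smul, mul_assoc, inv_mul_cancel₀ (mul_ne_zero hd0 hc0), one_smul]⟩)

omit [FiniteDimensional F V] in
lemma le_or_le_of_forall {U U1 U2 : Submodule F V} (h : ∀ v ∈ U, v ∈ U1 ∨ v ∈ U2) :
    U ≤ U1 ∨ U ≤ U2 := by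
  by_contra hc
  push Not at hc
  obtain ⟨a, ha, ha1⟩ := SetLike.not_le_iff_exists.1 hc.1
  obtain ⟨b, hb, hb2⟩ := SetLike.not_le_iff_exists.1 hc.2
  have ha2 := (h a ha).resolve_left ha1
  have hb1 := (h b hb).resolve_right hb2
  rcases h _ (U.add_mem ha hb) with h' | h'
  · exact ha1 (by simpa using U1.sub_mem h' hb1)
  · exact hb2 (by simpa using U2.sub_mem h' ha2)

theorem pair_max [Finite F] (hQ : Nd Q) {U1 U2 : Submodule F V} (h1 : TS Q U1) (h2 : TS Q U2)
    (hs : U1 ⊔ U2 = ⊤) (hd1 : 5 ≤ finrank F U1) (hd2 : 5 ≤ finrank F U2) (hM : M ≤ O Q)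
    (hH : ∀ u ∈ U1, ∀ w ∈ U2, B Q u w = 0 → eich Q u w ∈ M)
    {s : V ≃ₗ[F] V} (hsM : s ∈ M) (hs12 : ∀ v ∈ U1, s v ∈ U2) (hs21 : ∀ v ∈ U2, s v ∈ U1) :
    (∀ g ∈ M, ∀ U, (U = U1 ∨ U = U2) →
      U.map (g : V →ₗ[F] V) ≤ U1 ∨ U.map (g : V →ₗ[F] V) ≤ U2) ∨ EO Q ≤ M := by
  by_cases hE : EO Q ≤ M
  · exact Or.inr hE
  left
  have hd5 : 5 ≤ finrank F V := hd1.trans (Submodule.finrank_le _)
  have hs' : U2 ⊔ U1 = ⊤ := by rw [sup_comm, hs]
  have hH' : ∀ u ∈ U2, ∀ w ∈ U1, B Q u w = 0 → eich Q u w ∈ M := fun u hu w hw hb =>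
    eich_swap_mem (h1 w hw) (h2 u hu) (by rwa [B_comm]) (hH w hw u hu (by rwa [B_comm]))
  have star1 := pair_star hQ h1 h2 hs (by omega) hd5 hM hH hsM hs12 hE
  have star2 := pair_star hQ h2 h1 hs' (by omega) hd5 hM hH' hsM hs21 hE
  have key : ∀ (x : V) (A : Submodule F V), Q x = 0 → 3 ≤ finrank F A →
      (∀ a ∈ A, B Q x a = 0 ∧ eich Q x a ∈ M) → x ∈ U1 ∨ x ∈ U2 := by
    intro x A hq hA h
    obtain ⟨x1, hx1, x2, hx2, rfl⟩ := pair_decomp hs x
    by_cases h01 : x1 = 0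
    · right; simpa [h01] using hx2
    by_cases h02 : x2 = 0
    · left; simpa [h02] using hx1
    exfalso
    have : A ≤ Submodule.span F {x1, x2} := by
      intro a ha
      obtain ⟨w1, hw1, w2, hw2, rfl⟩ := pair_decomp hs a
      have e1 := pair_comp hQ h1 h2 hs hd1 hM hH star1 hx1 hx2 hw1 hw2 h01 hq (h _ ha).1 (h _ ha).2
      have e2 := pair_comp hQ h2 h1 hs' hd2 hM hH' star2 hx2 hx1 hw2 hw1 h02 (by rwa [add_comm])
        (by rw [add_comm x2, add_comm w2]; exact (h _ ha).1)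
        (by rw [add_comm x2, add_comm w2]; exact (h _ ha).2)
      exact add_mem (Submodule.span_mono (by simp) e1) (Submodule.span_mono (by simp) e2)
    have d1 := Submodule.finrank_mono this
    have d2 := finrank_span_pair_le (F := F) x1 x2
    omega
  have key2 : ∀ g ∈ M, ∀ U U' : Submodule F V, TS Q U → 5 ≤ finrank F U' →
      (∀ u ∈ U, ∀ w ∈ U', B Q u w = 0 → eich Q u w ∈ M) →
      U.map (g : V →ₗ[F] V) ≤ U1 ∨ U.map (g : V →ₗ[F] V) ≤ U2 := by
    intro g hg U U' hU hU' h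
    refine le_or_le_of_forall ?_
    rintro _ ⟨u, hu, rfl⟩
    have d1 := finrank_inf_perp_ge (Q := Q) U' (F ∙ u)
    have d2 := finrank_span_singleton_le (F := F) u
    refine key _ ((U' ⊓ perp Q (F ∙ u)).map (g : V →ₗ[F] V)) (by simpa [hM hg u] using hU u hu)
      (by rw [LinearEquiv.finrank_map_eq]; omega) ?_
    rintro _ ⟨w, hw, rfl⟩
    have hb := mem_perp_span_singleton.1 hw.2
    exact ⟨by simpa [O_B (hM hg)] using hb, eich_conj_mem hM hg (h u hu w hw.1 hb)⟩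
  rintro g hg U (rfl | rfl)
  · exact key2 g hg _ _ h1 hd2 hH
  · exact key2 g hg _ _ h2 hd1 hH'

/-- an isometry interchanging two dual totally singular subspaces, as a product of `d`
reflections in vectors of norm `-1` -/
theorem exists_swap [Finite F] (hQ : Nd Q) (hd5 : 5 ≤ finrank F V) (d : ℕ) :
    ∀ U1 U2 : Submodule F V, TS Q U1 → TS Q U2 → finrank F U1 = d → finrank F U2 = d →
      (∀ u ∈ U1, (∀ w ∈ U2, B Q u w = 0) → u = 0) →
      ∃ g ∈ O Q, (∀ v ∈ U1, g v ∈ U2) ∧ (∀ v ∈ U2, g v ∈ U1) ∧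
        (∀ v ∈ perp Q U1 ⊓ perp Q U2, g v = v) ∧ ∀ a, Q a = -1 → g * refl Q a ^ d ∈ EO Q := by
  induction d with
  | zero =>
    intro U1 U2 _ _ d1 d2 _
    rw [Submodule.finrank_eq_zero] at d1 d2
    subst d1 d2
    exact ⟨1, one_mem _, fun v hv => hv, fun v hv => hv, fun _ _ => rfl, fun _ _ => by simp⟩
  | succ d ih =>
    intro U1 U2 h1 h2 d1 d2 hp
    obtain ⟨e, he, he0⟩ := Submodule.exists_mem_ne_zero_of_ne_bot (p := U1)
      (by rintro rfl; simp at d1)
    obtain ⟨f', hf', hne⟩ : ∃ w ∈ U2, B Q e w ≠ 0 := by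
      by_contra h; push Not at h; exact he0 (hp e he h)
    obtain ⟨f, hf, hef⟩ : ∃ f ∈ U2, B Q e f = 1 :=
      ⟨(B Q e f')⁻¹ • f', U2.smul_mem _ hf', by simp [hne]⟩
    have hfe : B Q f e = 1 := by rwa [B_comm]
    have dim : ∀ (U : Submodule F V) (x y : V), x ∈ U → B Q y x = 1 →
        finrank F (U ⊓ perp Q (F ∙ y) : Submodule F V) + 1 = finrank F U := by
      intro U x y hx hyx
      have e1 := finrank_inf_perp_ge (Q := Q) U (F ∙ y)
      have e2 := finrank_span_singleton_le (F := F) y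
      have e3 : finrank F (U ⊓ perp Q (F ∙ y) : Submodule F V) < finrank F U :=
        Submodule.finrank_lt_finrank_of_lt (lt_of_le_of_ne inf_le_left fun h => by
          rw [← h] at hx
          have := mem_perp_span_singleton.1 hx.2
          simp [hyx] at this)
      omega
    have d1' := dim U1 e f he hfe
    have d2' := dim U2 f e hf hef
    obtain ⟨g, hg, g12, g21, gfix, gE⟩ := ih (U1 ⊓ perp Q (F ∙ f)) (U2 ⊓ perp Q (F ∙ e))
      (fun v hv => h1 v hv.1) (fun v hv => h2 v hv.1) (by omega) (by omega) (fun u hu h => by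
        refine hp u hu.1 fun w hw => ?_
        have h3 := h (w - B Q e w • f) ⟨U2.sub_mem hw (U2.smul_mem _ hf),
          mem_perp_span_singleton.2 (by simp [hef])⟩
        have h4 : B Q u f = 0 := by rw [B_comm]; exact mem_perp_span_singleton.1 hu.2
        simpa [h4] using h3)
    have hq : Q (f - e) = -1 := by rw [Q_sub, h1 e he, h2 f hf, hfe]; ring
    have re : refl Q (f - e) e = f := refl_sub_apply (by rw [h1 e he, h2 f hf]) (by simp [hq])
    have rf : refl Q (f - e) f = e := by nth_rewrite 2 [← re]; rw [refl_refl]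
    have ge : g e = e := gfix e ⟨fun u hu => h1.B_eq_zero hu.1 he,
      fun u hu => by rw [B_comm]; exact mem_perp_span_singleton.1 hu.2⟩
    have gf : g f = f := gfix f ⟨fun u hu => by rw [B_comm]; exact mem_perp_span_singleton.1 hu.2,
      fun u hu => h2.B_eq_zero hu.1 hf⟩
    refine ⟨g * refl Q (f - e), mul_mem hg (refl_mem_O Q _), fun v hv => ?_, fun v hv => ?_,
      fun v hv => ?_, fun a ha => ?_⟩
    · have hv' : v - B Q f v • e ∈ U1 ⊓ perp Q (F ∙ f) := ⟨U1.sub_mem hv (U1.smul_mem _ he),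
        mem_perp_span_singleton.2 (by simp [hfe])⟩
      have : v = (v - B Q f v • e) + B Q f v • e := by abel
      rw [this, mul_app, map_add, map_smul, re, refl_of_perp (by
        rw [map_sub (B Q), LinearMap.sub_apply, mem_perp_span_singleton.1 hv'.2,
          h1.B_eq_zero he hv'.1, sub_zero]), map_add, map_smul, gf]
      exact U2.add_mem (g12 _ hv').1 (U2.smul_mem _ hf)
    · have hv' : v - B Q e v • f ∈ U2 ⊓ perp Q (F ∙ e) := ⟨U2.sub_mem hv (U2.smul_mem _ hf),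
        mem_perp_span_singleton.2 (by simp [hef])⟩
      have : v = (v - B Q e v • f) + B Q e v • f := by abel
      rw [this, mul_app, map_add, map_smul, rf, refl_of_perp (by
        rw [map_sub (B Q), LinearMap.sub_apply, mem_perp_span_singleton.1 hv'.2,
          h2.B_eq_zero hf hv'.1, sub_zero]), map_add, map_smul, ge]
      exact U1.add_mem (g21 _ hv').1 (U1.smul_mem _ he)
    · rw [mul_app, refl_of_perp (by
        rw [map_sub (B Q), LinearMap.sub_apply, hv.1 e he, hv.2 f hf, sub_zero])]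
      exact gfix v ⟨perp_anti inf_le_left hv.1, perp_anti inf_le_left hv.2⟩
    · have h3 := conj_mem_EO hg (hQ.refl_mul_refl_mem_EO hd5 (a := f - e) (b := a) (by rw [hq, ha]))
      have := mul_mem h3 (gE a ha)
      convert this using 1
      rw [pow_succ']; group

end abstr

variable {ι : Type} [Fintype ι] [DecidableEq ι] {F : Type*} [Field F] [Fintype F]
  {Q : (ι → F) → F} (hQ : IsNondegenerateQuadraticForm Q)

omit [Fintype F] [Fintype ι] [DecidableEq ι] in
lemma sup_eq_top_of_two {k : ℕ} {D : Fin 2 → Submodule F (ι → F)} (hD : IsMDecomposition k D) :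
    D 0 ⊔ D 1 = ⊤ := by
  rw [← hD.iSup_eq_top]
  apply le_antisymm (sup_le (le_iSup D 0) (le_iSup D 1))
  exact iSup_le (Fin.forall_fin_two.2 ⟨le_sup_left, le_sup_right⟩)

omit [Fintype F] in
lemma mem_decompositionStabilizer_two {k : ℕ} {D : Fin 2 → Submodule F (ι → F)}
    (hD : IsMDecomposition k D) {g : GL ι F} :
    g ∈ decompositionStabilizer D ↔ ∀ U, (U = D 0 ∨ U = D 1) →
      U.map (phi g : (ι → F) →ₗ[F] (ι → F)) ≤ D 0 ∨
        U.map (phi g : (ι → F) →ₗ[F] (ι → F)) ≤ D 1 := by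
  rw [mem_decompositionStabilizer]
  constructor
  · rintro ⟨σ, hσ⟩ U hU
    obtain ⟨i, rfl⟩ : ∃ i, U = D i := by rcases hU with h | h <;> exact ⟨_, h⟩
    rw [hσ i]
    rcases Fin.exists_fin_two.1 ⟨σ i, rfl⟩ with h | h <;> rw [h] <;> simp
  · intro h
    have heq : ∀ i j, (D i).map (phi g : (ι → F) →ₗ[F] (ι → F)) ≤ D j →
        (D i).map (phi g : (ι → F) →ₗ[F] (ι → F)) = D j := fun i j hij =>
      Submodule.eq_of_le_of_finrank_eq hij (by
        rw [LinearEquiv.finrank_map_eq, hD.finrank_eq, hD.finrank_eq])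
    have hne : ∀ j, (D 0).map (phi g : (ι → F) →ₗ[F] (ι → F)) = D j →
        (D 1).map (phi g : (ι → F) →ₗ[F] (ι → F)) = D j → False := by
      intro j a b
      have h01 : D 0 = D 1 := Submodule.map_injective_of_injective (phi g).injective (a.trans b.symm)
      have hdis := hD.indep.pairwiseDisjoint (show (0 : Fin 2) ≠ 1 by decide)
      simp only [Function.onFun, h01, disjoint_self] at hdis
      have h1 := hD.finrank_eq 1
      have h2 := hD.pos
      rw [hdis] at h1; simp at h1; omega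
    rcases h _ (Or.inl rfl) with a | a <;> rcases h _ (Or.inr rfl) with b | b
    · exact (hne 0 (heq _ _ a) (heq _ _ b)).elim
    · exact ⟨1, Fin.forall_fin_two.2 ⟨heq _ _ a, heq _ _ b⟩⟩
    · exact ⟨Equiv.swap 0 1, Fin.forall_fin_two.2 ⟨by simpa using heq _ _ a, by simpa using heq _ _ b⟩⟩
    · exact (hne 1 (heq _ _ a) (heq _ _ b)).elim

include hQ in
theorem max_pair {k : ℕ} (hk5 : 5 ≤ k) (hke : Even k) {D : Fin 2 → Submodule F (ι → F)}
    (hD : IsMDecomposition k D) (hts : ∀ i, IsTotallySingularQuad Q (D i)) :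
    IsMaximalIn (omegaGL Q) (decompositionStabilizer D ⊓ omegaGL Q) := by
  have hN := nd_toQF hQ
  have hs := sup_eq_top_of_two hD
  have d0 := hD.finrank_eq 0
  have d1 := hD.finrank_eq 1
  have h0 : TS (toQF hQ) (D 0) := hts 0
  have h1 : TS (toQF hQ) (D 1) := hts 1
  have hd5 : 5 ≤ finrank F (ι → F) := by have := Submodule.finrank_le (D 0); omega
  obtain ⟨s, hsO, s01, s10, -, sE⟩ := exists_swap hN hd5 k _ _ h0 h1 d0 d1 (fun u hu h => by
    by_contra hu0
    obtain ⟨w, hw, -, hne⟩ := pair_exists hN h0 hs (X := ⊥) bot_le hu (by simpa using hu0)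
    exact hne (h w hw))
  obtain ⟨a, -, ha⟩ := hN.ndOn_top.exists_Q_eq (H := ⊤) le_rfl (by rw [finrank_top]; omega) (-1)
  have hsE : s ∈ EO (toQF hQ) := by
    obtain ⟨j, rfl⟩ := hke
    have := sE a ha
    rwa [← two_mul, pow_mul, sq, refl_mul_self, one_pow, mul_one] at this
  refine isMaximalIn_of hQ (by simpa using hd5) _ (fun g => ∀ U, (U = D 0 ∨ U = D 1) →
      U.map (g : (ι → F) →ₗ[F] (ι → F)) ≤ D 0 ∨ U.map (g : (ι → F) →ₗ[F] (ι → F)) ≤ D 1)
    (fun g _ => mem_decompositionStabilizer_two hD) ?_ fun M hM hH => ?_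
  · obtain ⟨u, hu, hu0⟩ := Submodule.exists_mem_ne_zero_of_ne_bot (p := D 0)
      (by intro h; rw [h] at d0; simp at d0; omega)
    obtain ⟨w, hw, hwu⟩ := exists_mem_notMem_of_finrank_lt (H := D 0) (X := F ∙ u)
      (by have := finrank_span_singleton_le (F := F) u; omega)
    obtain ⟨y, hy, hp, hne⟩ := pair_exists hN h0 hs (X := F ∙ u) (by simpa using hu) hw hwu
    have huy := hp u (Submodule.mem_span_singleton_self _)
    have hdis : ∀ v ∈ D 0, v ∈ D 1 → v = 0 := by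
      have := hD.indep.pairwiseDisjoint (show (0 : Fin 2) ≠ 1 by decide)
      exact Submodule.disjoint_def.1 this
    refine ⟨eich (toQF hQ) u w, eich_mem_EO _ _, fun h => ?_⟩
    have e1 : eich (toQF hQ) u w y = y - B (toQF hQ) w y • u :=
      eich_apply_of_perp_left (h0 u hu) (h0.B_eq_zero hu hw) huy
    rcases h _ (Or.inr rfl) with h | h
    · have h3 := h ⟨y, hy, rfl⟩
      simp only [LinearEquiv.coe_coe, e1] at h3
      have : y = 0 := hdis y (by simpa using (D 0).add_mem h3 ((D 0).smul_mem (B (toQF hQ) w y) hu)) hy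
      simp [this] at hne
    · have h3 := h ⟨y, hy, rfl⟩
      simp only [LinearEquiv.coe_coe, e1] at h3
      have := hdis _ ((D 0).smul_mem (B (toQF hQ) w y) hu) (by simpa using (D 1).sub_mem hy h3)
      simp [hne, hu0] at this
  · refine pair_max hN h0 h1 hs (by omega) (by omega) (hM.trans EO_le_O) (fun u hu w hw hb => ?_)
      (hH s hsE ?_) s01 s10
    · refine hH _ (eich_mem_EO _ _) ?_
      rintro U (rfl | rfl)
      · left
        rintro _ ⟨v, hv, rfl⟩
        simp only [LinearEquiv.coe_coe]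
        rw [eich_apply_of_perp_left (h0 u hu) hb (h0.B_eq_zero hu hv)]
        exact (D 0).sub_mem hv ((D 0).smul_mem _ hu)
      · right
        rintro _ ⟨v, hv, rfl⟩
        simp only [LinearEquiv.coe_coe]
        rw [eich_apply (h0 u hu) hb, h1 w hw, h1.B_eq_zero hw hv]
        simpa using (D 1).add_mem hv ((D 1).smul_mem _ hw)
    · rintro U (rfl | rfl)
      · right; rintro _ ⟨v, hv, rfl⟩; exact s01 v hv
      · left; rintro _ ⟨v, hv, rfl⟩; exact s10 v hv

end Cfsg.Agent.Orth
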