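import Cfsg.Agent.Orth.FieldBridge

/-! Extension field subgroups `Ω_m(q^r).r` of `Ω_{mr}(q)`, part 1. -/

set_option autoImplicit false
set_option linter.unusedSectionVars false

namespace Cfsg.Agent.Orth

open Module

section gen
variable {F V : Type*} [Field F] [AddCommGroup V] [Module F V] {Q : QuadraticForm F V}
  [Finite F] [FiniteDimensional F V]

theorem Nd.sq_mem_EO (hQ : Nd Q) (hd : 5 ≤ finrank F V) {g : V ≃ₗ[F] V} (hg : g ∈ O Q) :
    g * g ∈ EO Q := by
  let Z : Subgroup (V ≃ₗ[F] V) :=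
    { carrier := {g | g ∈ O Q ∧ g * g ∈ EO Q}
      mul_mem' := fun {a b} ha hb => ⟨mul_mem ha.1 hb.1, by
        have := mul_mem (mul_mem ha.2 (hQ.commutator_mem_EO hd (inv_mem ha.1) hb.1)) hb.2
        convert this using 1; group⟩
      one_mem' := ⟨one_mem _, by simp⟩
      inv_mem' := fun {a} ha => ⟨inv_mem ha.1, by
        have := inv_mem ha.2
        rwa [mul_inv_rev] at this⟩ }
  have : O Q ≤ Z := O_le_of_gen hQ (fun g hg => ⟨EO_le_O hg, mul_mem hg hg⟩)
    fun a => ⟨refl_mem_O Q a, by rw [refl_mul_self]; exact one_mem _⟩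
  exact (this hg).2

omit [Finite F] in
lemma sub_mem_of_fix_perp (hQ : Nd Q) {L : Submodule F V} {z : V ≃ₗ[F] V} (hz : z ∈ O Q)
    (h : ∀ x ∈ perp Q L, z x = x) (x : V) : z x - x ∈ L := by
  rw [← hQ.perp_perp L]
  intro y hy
  rw [map_sub]
  nth_rewrite 1 [← h y hy]
  rw [O_B hz, sub_self]

omit [Finite F] in
/-- the isometries acting trivially on `L^⊥` (`L` totally singular) are products of long root
elements -/
theorem mem_of_fix_perp (hQ : Nd Q) {L : Submodule F V} (hL : TS Q L) {M : Subgroup (V ≃ₗ[F] V)}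
    (hE : ∀ l ∈ L, ∀ l' ∈ L, eich Q l l' ∈ M) {z : V ≃ₗ[F] V} (hz : z ∈ O Q)
    (h : ∀ x ∈ perp Q L, z x = x) : z ∈ M := by
  let fix : (V ≃ₗ[F] V) → Submodule F V := fun g => LinearMap.ker ((g : V →ₗ[F] V) - LinearMap.id)
  have mem_fix : ∀ g x, x ∈ fix g ↔ g x = x := fun g x => by
    simp [fix, sub_eq_zero]
  suffices H : ∀ n (z : V ≃ₗ[F] V), z ∈ O Q → (∀ x ∈ perp Q L, z x = x) →
      finrank F V - finrank F (fix z) = n → z ∈ M from H _ z hz h rfl
  intro n
  induction n using Nat.strong_induction_on with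
  | _ n ih =>
  intro z hz h hn
  by_cases h1 : ∀ x, z x = x
  · have : z = 1 := LinearEquiv.ext h1
    rw [this]; exact one_mem _
  push Not at h1
  obtain ⟨x, hx⟩ := h1
  have hm := sub_mem_of_fix_perp hQ hz h
  have alt : ∀ v, B Q (z v - v) v = 0 := fun v => by
    have := hz v
    rw [show z v = v + (z v - v) by abel, Q_add, hL _ (hm v), B_comm] at this
    linear_combination this
  have skew : ∀ v w, B Q (z v - v) w = -B Q (z w - w) v := fun v w => by
    have := alt (v + w)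
    rw [map_add z, show z v + z w - (v + w) = (z v - v) + (z w - w) by abel, map_add, map_add,
      LinearMap.add_apply, LinearMap.add_apply, alt, alt] at this
    linear_combination this
  obtain ⟨y', hy'⟩ := hQ.exists_B_ne (sub_ne_zero.2 hx)
  obtain ⟨y, hy⟩ : ∃ y, B Q (z x - x) y = 1 := 
    ⟨(B Q (z x - x) y')⁻¹ • y', by rw [map_smul, smul_eq_mul, inv_mul_cancel₀ hy']⟩
  set l := z x - x with hl
  set l' := z y - y with hl'
  have hll' : B Q l l' = 0 := hL.B_eq_zero (hm x) (hm y)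
  have hE' := hE l (hm x) l' (hm y)
  have e1 : ∀ v, z v = v → eich Q l l' v = v := fun v hv =>
    eich_apply_of_perp (by rw [hl, skew, hv]; simp) (by rw [hl', skew, hv]; simp)
  have e2 : eich Q l l' x = z x := by
    rw [eich_apply_of_perp_left (hL _ (hm x)) hll' (alt x), hl', skew, hy]; simp [hl]
  have hlt : fix z < fix ((eich Q l l')⁻¹ * z) := by
    refine lt_of_le_of_ne (fun v hv => ?_) fun he => hx ((mem_fix _ _).1 ?_)
    · rw [mem_fix] at hv ⊢
      rw [mul_app, hv]; nth_rewrite 1 [← e1 v hv]; simp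
    · rw [he, mem_fix, mul_app, ← e2]; simp
  have d1 := Submodule.finrank_lt_finrank_of_lt hlt
  have d2 := Submodule.finrank_le (fix ((eich Q l l')⁻¹ * z))
  have := ih _ (by omega) ((eich Q l l')⁻¹ * z) (mul_mem (inv_mem (eich_mem_O _ _)) hz)
    (fun v hv => (mem_fix _ _).1 (hlt.le ((mem_fix _ _).2 (h v hv)))) rfl
  simpa using mul_mem hE' this

omit [Finite F] in
/-- if `M` induces every `x ↦ x - B(w,x) l` on `L^⊥` then it contains the `E(l,w)` -/
theorem eich_mem_of_induced (hQ : Nd Q) {L : Submodule F V} (hL : TS Q L)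
    {M : Subgroup (V ≃ₗ[F] V)} (hM : M ≤ O Q) (hex : ∃ w ∈ perp Q L, ∃ w' ∈ perp Q L, B Q w w' ≠ 0)
    (hN : ∀ l ∈ L, ∀ w ∈ perp Q L, ∃ ρ ∈ M, ∀ x ∈ perp Q L, ρ x = x - B Q w x • l) :
    ∀ l ∈ L, ∀ w ∈ perp Q L, eich Q l w ∈ M := by
  have hz : ∀ l ∈ L, ∀ w ∈ perp Q L, ∃ z ∈ O Q, (∀ x ∈ perp Q L, z x = x) ∧
      eich Q l w * z ∈ M := by
    intro l hl w hw
    obtain ⟨ρ, hρ, h⟩ := hN l hl w hw
    refine ⟨(eich Q l w)⁻¹ * ρ, mul_mem (inv_mem (eich_mem_O _ _)) (hM hρ), fun x hx => ?_,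
      by simpa using hρ⟩
    rw [mul_app, h x hx, ← eich_apply_of_perp_left (hL l hl) (hw l hl) (hx l hl)]; simp
  have comm : ∀ z ∈ O Q, (∀ x ∈ perp Q L, z x = x) → ∀ g : V ≃ₗ[F] V, (∀ l ∈ L, g l = l) →
      (∀ x, g x - x ∈ perp Q L) → Commute z g := by
    intro z hz h g h1 h2
    ext x
    have a1 := h _ (h2 x)
    have a2 := h1 _ (sub_mem_of_fix_perp hQ hz h x)
    rw [map_sub] at a1 a2
    rw [mul_app, mul_app]
    linear_combination (norm := abel) a1 - a2
  have ce : ∀ z ∈ O Q, (∀ x ∈ perp Q L, z x = x) → ∀ l ∈ L, ∀ w ∈ perp Q L,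
      Commute z (eich Q l w) := by
    intro z hz h l hl w hw
    refine comm z hz h _ (fun l' hl' => eich_apply_of_perp (hL.B_eq_zero hl hl')
      (by rw [B_comm]; exact hw l' hl')) fun x => ?_
    rw [eich_apply (hL l hl) (hw l hl)]
    have := sub_mem (Submodule.smul_mem _ (B Q l x) hw)
      (Submodule.smul_mem _ (B Q w x + Q w * B Q l x) (hL.le_perp hl))
    convert this using 1; abel
  have hE : ∀ l ∈ L, ∀ l' ∈ L, eich Q l l' ∈ M := by
    intro l' hl' l hl
    obtain ⟨w, hw, w'', hw'', hne⟩ := hex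
    obtain ⟨w', hw', hb⟩ : ∃ w' ∈ perp Q L, B Q w w' = -1 :=
      ⟨-(B Q w w'')⁻¹ • w'', Submodule.smul_mem _ _ hw'', by simp [hne]⟩
    obtain ⟨z, hzO, hz1, hz2⟩ := hz l hl w hw
    obtain ⟨z', hzO', hz1', hz2'⟩ := hz l' hl' w' hw'
    have c1 := ce z hzO hz1 l' hl' w' hw'
    have c2 := ce z' hzO' hz1' l hl w hw
    have c3 : Commute z z' := comm z hzO hz1 z' (fun l hl => hz1' l (hL.le_perp hl))
      fun x => hL.le_perp (sub_mem_of_fix_perp hQ hzO' hz1' x)
    have e : eich Q l w * eich Q l' w' * (eich Q l w)⁻¹ = eich Q l' l * eich Q l' w' := by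
      rw [conj_eich (eich_mem_O _ _), eich_apply_of_perp (hL.B_eq_zero hl hl')
        (by rw [B_comm]; exact hw l' hl'), eich_apply_of_perp_left (hL l hl) (hw l hl) (hw' l hl),
        hb, eich_mul (hL l' hl') (hL.B_eq_zero hl' hl) (hw' l' hl')]
      congr 1; simp [add_comm]
    have := mul_mem (mul_mem (mul_mem hz2 hz2') (inv_mem hz2)) (inv_mem hz2')
    convert this using 1
    have e2 : eich Q l w * z * (eich Q l' w' * z') * (eich Q l w * z)⁻¹ =
        eich Q l w * eich Q l' w' * (eich Q l w)⁻¹ * z' := by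
      rw [mul_assoc (eich Q l w) z, (c1.mul_right c3).eq, mul_inv_rev]
      simp only [mul_assoc, mul_inv_cancel_left]
      rw [c2.inv_right.eq]
    rw [e2, e]; group
  intro l hl w hw
  obtain ⟨z, hzO, hz1, hz2⟩ := hz l hl w hw
  simpa using mul_mem hz2 (inv_mem (mem_of_fix_perp hQ hL hE hzO hz1))

end gen

section fld
variable {F K : Type*} [Field F] [Field K] [Algebra F K]

lemma tau_nondeg {τ : K →ₗ[F] F} (hτ : ∃ c, τ c ≠ 0) {c : K} (h : ∀ k, τ (k * c) = 0) : c = 0 := by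
  by_contra hc
  obtain ⟨e, he⟩ := hτ
  exact he (by simpa [hc] using h (e / c))

lemma exists_tau_mul [FiniteDimensional F K] {τ : K →ₗ[F] F} (hτ : ∃ c, τ c ≠ 0)
    (φ : K →ₗ[F] F) : ∃ e, ∀ k, φ k = τ (e * k) := by
  let j : K →ₗ[F] Module.Dual F K := (LinearMap.mul F K).compr₂ τ
  have hj : Function.Injective j := by
    rw [← LinearMap.ker_eq_bot, eq_bot_iff]
    intro c hc
    exact tau_nondeg hτ fun k => by
      have := LinearMap.congr_fun (LinearMap.mem_ker.1 hc) k
      simpa [j, mul_comm] using this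
  obtain ⟨e, he⟩ := (LinearMap.injective_iff_surjective_of_finrank_eq_finrank
    (Subspace.dual_finrank_eq).symm).1 hj φ
  exact ⟨e, fun k => by rw [← he]; rfl⟩

lemma subalgebra_eq_top (hp : (finrank F K).Prime) (S : Subalgebra F K) {k : K} (hk : k ∈ S)
    (hkF : ∀ α, k ≠ algebraMap F K α) : ∀ a, a ∈ S := by
  rcases (Subalgebra.isSimpleOrder_of_finrank_prime F K hp).eq_bot_or_eq_top S with h | h
  · rw [h, Algebra.mem_bot] at hk
    obtain ⟨α, hα⟩ := hk
    exact absurd hα.symm (hkF α)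
  · intro a; rw [h]; trivial

/-- a subring of `End_F K` containing `K` properly contains a rank one map -/
theorem exists_rank_one [FiniteDimensional F K] (hp : (finrank F K).Prime)
    (A : Subring (Module.End F K)) (hA : ∀ c, LinearMap.mul F K c ∈ A)
    {ψ : Module.End F K} (hψ : ψ ∈ A) (hne : ∀ b, ψ ≠ LinearMap.mul F K b) :
    ∃ φ : K →ₗ[F] F, φ ≠ 0 ∧ ∀ c, φ.smulRight c ∈ A := by
  have key : ∀ y₁ y₂ : K, y₁ ≠ 0 → y₂ ∉ F ∙ y₁ → ∃ α ∈ A, α y₁ = 0 ∧ α y₂ ≠ 0 := by
    intro y₁ y₂ h1 h2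
    by_contra hc
    push Not at hc
    have h3 : ∀ α ∈ A, α y₂ = y₂ / y₁ * α y₁ := by
      intro α hα
      have := hc _ (A.sub_mem hα (hA (α y₁ / y₁))) (by simp [h1])
      simp only [LinearMap.sub_apply, LinearMap.mul_apply'] at this
      field_simp at this ⊢
      linear_combination this
    let S : Subalgebra F K :=
      { carrier := {k | ∀ x, ψ (k * x) = k * ψ x}
        mul_mem' := fun {a b} ha hb x => by rw [mul_assoc, ha, hb, mul_assoc]
        add_mem' := fun {a b} ha hb x => by rw [add_mul, map_add, ha, hb, add_mul]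
        algebraMap_mem' := fun c x => by
          rw [← Algebra.smul_def, ← Algebra.smul_def, map_smul] }
    have hk : y₂ / y₁ ∈ S := by
      intro x
      have := h3 _ (A.mul_mem hψ (hA (x / y₁)))
      simp only [Module.End.mul_apply, LinearMap.mul_apply'] at this
      rw [div_mul_cancel₀ _ h1] at this
      rw [← this]; congr 1; field_simp
    refine hne (ψ 1) (LinearMap.ext fun x => ?_)
    have := subalgebra_eq_top hp S hk (fun α h => h2 (Submodule.mem_span_singleton.2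
      ⟨α, by rw [Algebra.smul_def, ← h]; field_simp⟩)) x 1
    simpa [mul_comm] using this
  have ex : ∃ n, ∃ π ∈ A, π ≠ 0 ∧ finrank F (LinearMap.range π) = n :=
    ⟨_, 1, A.one_mem, one_ne_zero, rfl⟩
  classical
  obtain ⟨π, hπ, hπ0, hn⟩ := Nat.find_spec ex
  obtain ⟨x₁, hx₁⟩ : ∃ x, π x ≠ 0 := by
    by_contra h; push Not at h; exact hπ0 (LinearMap.ext h)
  have hall : ∀ x, π x ∈ F ∙ π x₁ := by
    intro x
    by_contra hx
    obtain ⟨α, hα, a1, a2⟩ := key _ _ hx₁ hx
    refine Nat.find_min ex (m := finrank F (LinearMap.range (α * π))) ?_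
      ⟨α * π, A.mul_mem hα hπ, fun h => a2 (by simpa using LinearMap.congr_fun h x), rfl⟩
    rw [← hn]
    have d1 := LinearMap.finrank_range_add_finrank_ker (α * π)
    have d2 := LinearMap.finrank_range_add_finrank_ker π
    have d3 : finrank F (LinearMap.ker π) < finrank F (LinearMap.ker (α * π)) :=
      Submodule.finrank_lt_finrank_of_lt (lt_of_le_of_ne
        (fun v hv => by simp [LinearMap.mem_ker.1 hv]) fun h => hx₁ (by
          have : x₁ ∈ LinearMap.ker (α * π) := by simpa using a1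
          rwa [← h] at this))
    omega
  obtain ⟨θ, hθ⟩ : ∃ θ : K →ₗ[F] F, θ (π x₁) = 1 := Module.Projective.exists_dual_eq_one F hx₁
  refine ⟨θ ∘ₗ π, fun h => by simpa [hθ] using LinearMap.congr_fun h x₁, fun c => ?_⟩
  convert A.mul_mem (hA (c / π x₁)) hπ using 1
  ext x
  obtain ⟨t, ht⟩ := Submodule.mem_span_singleton.1 (hall x)
  simp only [LinearMap.smulRight_apply, LinearMap.comp_apply, Module.End.mul_apply,
    LinearMap.mul_apply', ← ht, map_smul, hθ, smul_eq_mul, mul_one, mul_smul_comm]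
  rw [div_mul_cancel₀ _ hx₁]

end fld

end Cfsg.Agent.Orth
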