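import Cfsg.Agent.Orth.GLPair

/-! Subfields of the matrix algebra as module structures. -/

set_option autoImplicit false

namespace Cfsg.Agent.Orth

open Module Cfsg.Geo
open scoped Matrix

section abstr
variable {F V : Type*} [Field F] [AddCommGroup V] [Module F V]

/-- `A_u`: the additive group of the `w` with `E(u,w) ∈ M`. -/
def AU (Q : QuadraticForm F V) (M : Subgroup (V ≃ₗ[F] V)) (u : V) : AddSubgroup V where
  carrier := {w | B Q u w = 0 ∧ eich Q u w ∈ M}
  add_mem' {a b} ha hb := ⟨by simp [ha.1, hb.1], eich_add_mem ha.1 hb.1 ha.2 hb.2⟩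
  zero_mem' := ⟨by simp, by rw [eich_zero]; exact one_mem _⟩
  neg_mem' {a} ha := ⟨by simp [ha.1], eich_neg_mem ha.1 ha.2⟩

variable {Q : QuadraticForm F V} {M : Subgroup (V ≃ₗ[F] V)}

lemma mem_AU {u w : V} : w ∈ AU Q M u ↔ B Q u w = 0 ∧ eich Q u w ∈ M := Iff.rfl

lemma AU_map (hM : M ≤ O Q) {g : V ≃ₗ[F] V} (hg : g ∈ M) {u w : V} (h : w ∈ AU Q M u) :
    g w ∈ AU Q M (g u) := ⟨by rw [O_B (hM hg), h.1], eich_conj_mem hM hg h.2⟩

lemma AU_fix (hM : M ≤ O Q) {g : V ≃ₗ[F] V} (hg : g ∈ M) {u w : V} (hu : g u = u)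
    (h : w ∈ AU Q M u) : g w ∈ AU Q M u := by
  have := AU_map hM hg h
  rwa [hu] at this

lemma AU_swap {u w : V} (hu : Q u = 0) (hw : Q w = 0) (h : w ∈ AU Q M u) : u ∈ AU Q M w :=
  ⟨by rw [B_comm, h.1], eich_swap_mem hu hw h.1 h.2⟩

lemma smul_self_mem_AU {u : V} (hu : Q u = 0) (c : F) : c • u ∈ AU Q M u :=
  ⟨by simp [B_self_of_sing Q hu], by rw [eich_smul_self hu]; exact one_mem _⟩

lemma AU_smul {u w : V} (hu : Q u = 0) {c : F} (hc : c ≠ 0) :
    w ∈ AU Q M (c • u) ↔ c • w ∈ AU Q M u := by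
  constructor
  · rintro ⟨h1, h2⟩
    have : B Q u w = 0 := by simpa [hc] using h1
    exact ⟨by simp [this], by rwa [← eich_smul_left hu this]⟩
  · rintro ⟨h1, h2⟩
    have : B Q u w = 0 := by simpa [hc] using h1
    exact ⟨by simp [this], by rwa [eich_smul_left hu this]⟩

variable (F) (K : Type*) [Field K] [Algebra F K] [Module K V] [IsScalarTower F K V]

/-- the `K`-line through `y`, as an `F`-subspace -/
def KL (y : V) : Submodule F V := (K ∙ y).restrictScalars F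

variable {F K}

lemma mem_KL {x y : V} : x ∈ KL F K y ↔ ∃ a : K, a • y = x := Submodule.mem_span_singleton

lemma smul_mem_KL (a : K) (y : V) : a • y ∈ KL F K y := mem_KL.2 ⟨a, rfl⟩

lemma self_mem_KL (y : V) : y ∈ KL F K y := mem_KL.2 ⟨1, one_smul _ _⟩

lemma KL_smul_mem {x y : V} (h : x ∈ KL F K y) (a : K) : a • x ∈ KL F K y := by
  obtain ⟨b, rfl⟩ := mem_KL.1 h
  rw [smul_smul]; exact smul_mem_KL _ _

lemma mem_KL_of_smul {x y : V} {a : K} (ha : a ≠ 0) (h : a • x ∈ KL F K y) : x ∈ KL F K y := by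
  have := KL_smul_mem h a⁻¹
  rwa [smul_smul, inv_mul_cancel₀ ha, one_smul] at this

lemma mem_KL_comm {x y : V} (hx : x ≠ 0) (h : x ∈ KL F K y) : y ∈ KL F K x := by
  obtain ⟨a, rfl⟩ := mem_KL.1 h
  have ha : a ≠ 0 := by rintro rfl; simp at hx
  exact mem_KL_of_smul ha (self_mem_KL _)

lemma KL_eq_range (y : V) :
    KL F K y = LinearMap.range ((LinearMap.toSpanSingleton K V y).restrictScalars F) := by
  ext x; simp [mem_KL]

lemma finrank_KL_le [FiniteDimensional F K] (y : V) : finrank F (KL F K y) ≤ finrank F K := by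
  rw [KL_eq_range]; exact LinearMap.finrank_range_le _

lemma finrank_KL {y : V} (hy : y ≠ 0) : finrank F (KL F K y) = finrank F K := by
  rw [KL_eq_range]
  apply LinearMap.finrank_range_of_inj
  intro a b h
  exact smul_left_injective K hy h

lemma mem_perp_KL {x y : V} : x ∈ perp Q (KL F K y) ↔ ∀ a : K, B Q (a • y) x = 0 := by
  constructor
  · intro h a; exact h _ (smul_mem_KL a y)
  · intro h u hu; obtain ⟨a, rfl⟩ := mem_KL.1 hu; exact h a

/-- `g` normalises `K` -/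
def SemiK (K : Type*) [Field K] [Module K V] (g : V ≃ₗ[F] V) : Prop :=
  ∀ a : K, ∃ b : K, ∀ x, g (a • x) = b • g x

end abstr

universe u
variable {ι : Type} [Fintype ι] [DecidableEq ι] {F : Type u} [Field F] [Fintype F]

theorem field_bridge [Nonempty ι] {r : ℕ} {K : Subalgebra F (Matrix ι ι F)}
    (hK : IsFieldSubalgebra r K) {C : Prop}
    (h : ∀ (L : Type u) [Field L] [Algebra F L] [Module L (ι → F)] [IsScalarTower F L (ι → F)]
      [Finite L], finrank F L = r → (∀ a : L, ∃ k ∈ K, ∀ v, a • v = k *ᵥ v) →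
      (∀ k ∈ K, ∃ a : L, ∀ v, a • v = k *ᵥ v) →
      (∀ g : GL ι F, g ∈ subalgebraNormalizer K ↔ SemiK L (phi g)) → C) : C := by
  have hF : IsField K :=
    { exists_pair_ne := exists_pair_ne K
      mul_comm := fun x y => Subtype.ext (hK.comm x x.2 y y.2)
      mul_inv_cancel := fun {a} ha => by
        obtain ⟨y, hy, h⟩ := hK.inv a a.2 (fun h => ha (Subtype.ext h))
        exact ⟨⟨y, hy⟩, Subtype.ext h⟩ }
  letI := hF.toField
  let ψ : K →+* Module.End F (ι → F) :=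
    (Matrix.toLinAlgEquiv' : Matrix ι ι F ≃ₐ[F] _).toRingEquiv.toRingHom.comp K.val.toRingHom
  letI : Module K (ι → F) := Module.compHom (ι → F) ψ
  have hs : ∀ (a : K) (v : ι → F), a • v = (a : Matrix ι ι F) *ᵥ v := fun a v => rfl
  have hT : ∀ (c : F) (a : K) (v : ι → F), (c • a) • v = c • a • v := fun c a v => by
    rw [hs, hs, Subalgebra.coe_smul, Matrix.smul_mulVec]
  have hext : ∀ A C : Matrix ι ι F, (∀ v, A *ᵥ v = C *ᵥ v) → A = C := fun A C h =>
    Matrix.toLin'.injective (LinearMap.ext h)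
  refine @h K hF.toField K.algebra _ ⟨hT⟩ inferInstance hK.finrank_eq (fun a => ⟨a, a.2, hs a⟩) (fun k hk => ⟨⟨k, hk⟩, hs _⟩) fun g => ?_
  have hg1 : ((g⁻¹ : GL ι F) : Matrix ι ι F) * (g : Matrix ι ι F) = 1 := by simp
  have hg2 : (g : Matrix ι ι F) * ((g⁻¹ : GL ι F) : Matrix ι ι F) = 1 := by simp
  constructor
  · intro hg a
    refine ⟨⟨_, (hg a).1 a.2⟩, fun x => ?_⟩
    change (g : Matrix ι ι F) *ᵥ ((a : Matrix ι ι F) *ᵥ x) =
      ((g : Matrix ι ι F) * (a : Matrix ι ι F) * ((g⁻¹ : GL ι F) : Matrix ι ι F)) *ᵥ ((g : Matrix ι ι F) *ᵥ x)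
    rw [Matrix.mulVec_mulVec, Matrix.mulVec_mulVec, mul_assoc, hg1, mul_one]
  · intro hg
    have h1 : ∀ k ∈ K, (g : Matrix ι ι F) * k * ((g⁻¹ : GL ι F) : Matrix ι ι F) ∈ K := by
      intro k hk
      obtain ⟨b, hb⟩ := hg ⟨k, hk⟩
      have hb' : (g : Matrix ι ι F) * k = (b : Matrix ι ι F) * (g : Matrix ι ι F) := hext _ _ fun v => by
        rw [← Matrix.mulVec_mulVec, ← Matrix.mulVec_mulVec]; exact hb v
      rw [hb', mul_assoc, hg2, mul_one]; exact b.2
    intro k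
    refine ⟨h1 k, fun hk => ?_⟩
    let c : K → K := fun a => ⟨_, h1 a a.2⟩
    have hcan : ∀ A C : Matrix ι ι F, (g : Matrix ι ι F) * A * ((g⁻¹ : GL ι F) : Matrix ι ι F) =
        (g : Matrix ι ι F) * C * ((g⁻¹ : GL ι F) : Matrix ι ι F) → A = C := by
      intro A C h
      have := congrArg (fun X => ((g⁻¹ : GL ι F) : Matrix ι ι F) * X * (g : Matrix ι ι F)) h
      simpa only [← mul_assoc, hg1, one_mul, mul_assoc _ _ (g : Matrix ι ι F), mul_one] using this
    have hc : Function.Injective c := fun a b hab => Subtype.ext (hcan _ _ (congrArg Subtype.val hab))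
    obtain ⟨a, ha⟩ := (Finite.injective_iff_surjective.1 hc) ⟨_, hk⟩
    rw [← hcan _ _ (congrArg Subtype.val ha)]; exact a.2

end Cfsg.Agent.Orth
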