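import Cfsg.Agent.Orth.OO7

/-! `O ⊗ O` in `Ω`, part 8: the end of the proof. -/

set_option autoImplicit false
set_option linter.unusedSimpArgs false
set_option linter.unusedSectionVars false

namespace Cfsg.Agent.Orth.OO

open Module Cfsg.Agent.H6
open Cfsg.Agent.H9.Sp (exists_ne_ne)

attribute [-simp] LinearEquiv.coe_inv Submodule.mem_map_equiv

variable {F : Type*} [Field F] [Finite F] {U : Type*} [AddCommGroup U] [Module F U]
  {W : Type*} [AddCommGroup W] [Module F W] [FiniteDimensional F U] [FiniteDimensional F W]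
  {Q₁ : QuadraticForm F U} {Q₂ : QuadraticForm F W} {Q : QuadraticForm F (W →ₗ[F] U)}
  {M : Subgroup ((W →ₗ[F] U) ≃ₗ[F] (W →ₗ[F] U))}

theorem Ctx.cent_sU (hC : Ctx Q₁ Q₂ Q M) {u : U} (hu : Q₁ u ≠ 0)
    {c : (W →ₗ[F] U) ≃ₗ[F] (W →ₗ[F] U)} (hc : c ∈ M) (h : c * sU W Q₁ u = sU W Q₁ u * c) :
    Kron c := by
  have hT := hC.T
  have hu0 : u ≠ 0 := by rintro rfl; simp at hu
  have h1 : ∀ v ∈ TT W (F ∙ u), c v ∈ TT W (F ∙ u) := fun v hv => by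
    rw [← Eg_refl_neg hT.h2 hu, ← Eg_kr, mem_Eg2] at hv ⊢
    have := LinearEquiv.congr_fun h v
    rw [mul_app, mul_app, sU, hv, map_neg] at this
    exact this.symm
  have h2 := fun z => hT.eq_pt_of_TT (h1 _ (St.pt_mem_TT (Q₂ := Q₂) z
    (Submodule.mem_span_singleton_self u)))
  choose D hD using h2
  have h3 : ∀ x y, B Q₂ (D x) (D y) = B Q₂ x y := fun x y => by
    have := O_B (hC.le_O hc) (pt Q₂ y u) (pt Q₂ x u)
    simpa [hD, hT.hB, B_self, hu, hT.h2] using this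
  have h4 : ∀ x, Q₂ (D x) = Q₂ x := fun x => mul_left_cancel₀ hT.h2 (by rw [← B_self, h3, B_self])
  obtain ⟨w, y, hw, hw0, hy, hy0⟩ := hT.exists_rho
  have h5 := hC.FX_le_KG ((ndOn_one hT.h2 hu).perp hT.n1) (by
    rw [hT.n1.perp_perp]; simpa using hu0)
  rw [hT.n1.perp_perp] at h5
  have h6 := h5 (x := (rho U Q₂ (D w) (D y))⁻¹ * (c * rho U Q₂ w y * c⁻¹))
    ⟨mul_mem (inv_mem (hC.rho_mem _ _)) (mul_mem (mul_mem hc (hC.rho_mem _ _)) (inv_mem hc)),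
      fun v hv => by
        obtain ⟨z, hz⟩ := hT.eq_pt_of_TT (inv_mem_of_stab h1 v hv)
        obtain rfl : v = c (pt Q₂ z u) := by rw [← hz, apply_inv_apply]
        apply (rho U Q₂ (D w) (D y)).injective
        rw [mul_app, apply_inv_apply, mul_app, mul_app, inv_apply_apply, rho_apply hw hy,
          rho_apply (by rw [h4, hw]) (by rw [h3, hy])]
        simp [hD, h3, h4]⟩
  refine hC.R_rho hw hw0 hy hy0 hc ?_
  simpa [mem_KG] using (KG F U W).mul_mem (rho_kron (Q₂ := Q₂) (D w) (D y)) h6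

theorem St.comm_rho (hT : St Q₁ Q₂ Q) {k : (W →ₗ[F] U) ≃ₗ[F] (W →ₗ[F] U)} (hk : k ∈ O Q)
    (hk' : Kron k) (h1 : k * k = 1)
    (h : 5 ≤ finrank F W ∨ 2 * finrank F U < finrank F (Eg k 1)) :
    ∃ w y, Q₂ w = 0 ∧ w ≠ 0 ∧ B Q₂ w y = 0 ∧ Q₂ y ≠ 0 ∧
      k * rho U Q₂ w y = rho U Q₂ w y * k := by
  obtain ⟨A, hA, C, hC, rfl⟩ := hT.kron_norm hk hk'
  rw [kr_mul] at h1
  obtain ⟨h3, h4⟩ := (hT.kr_eq_one (mul_mem hC hC) h1).resolve_right fun h =>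
    sq_ne_neg hT.n1 hT.h2 hT.odd hA fun x => LinearEquiv.congr_fun h.1 x
  have i1 := isCompl_Eg hT.h2 h4
  have key : ∀ (c : F) (K : Submodule F W), c * c = 1 → IsCompl (Eg C c) K →
      (∀ x ∈ Eg C c, ∀ y ∈ K, B Q₂ y x = 0) → 3 ≤ finrank F (Eg C c) →
      ∃ w y, Q₂ w = 0 ∧ w ≠ 0 ∧ B Q₂ w y = 0 ∧ Q₂ y ≠ 0 ∧
        kr A C * rho U Q₂ w y = rho U Q₂ w y * kr A C := by
    intro c K hc hK hp h3
    have n1 : NdOn Q₂ (Eg C c) := fun v hv h => hT.n2 v fun x => by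
      obtain ⟨a, ha, b, hb, rfl⟩ := Submodule.mem_sup.1 (hK.sup_eq_top ▸ Submodule.mem_top (x := x))
      simp [h a ha, hp v hv b hb]
    obtain ⟨w, hw, hw0, hw1⟩ := exists_sing_of_three (Q := Q₂) _ h3
    obtain ⟨w', h5, h6, h7⟩ := exists_partner hw hw1 (n1.exists_B_ne hw hw0)
    have := finrank_inf_perp_ge (Q := Q₂) (Eg C c) (Submodule.span F {w, w'})
    have := Orth.finrank_span_pair_le (F := F) w w'
    obtain ⟨y, ⟨h8, h9⟩, hy⟩ := (n1.inf_perp (ndOn_hyp hw1 h6 (by simp [h7]))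
      (Submodule.span_le.2 (by rintro _ (rfl | rfl) <;> assumption))).exists_nonsing le_rfl
      (by omega)
    have b1 : B Q₂ w y = 0 := mem_perp_span.1 h9 _ (by simp)
    refine ⟨w, y, hw1, hw0, b1, hy, ?_⟩
    have := conj_eich hC w y
    rw [mem_Eg.1 hw, mem_Eg.1 h8, eich_smul_left hw1 (by simp [b1]), smul_smul, hc, one_smul,
      mul_inv_eq_iff_eq_mul] at this
    rw [rho, kr_mul, kr_mul, this, mul_one, one_mul]
  by_cases h5 : 3 ≤ finrank F (Eg C 1)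
  · exact key 1 _ (one_mul _) i1 (fun x hx y hy => by
      rw [B_comm]; exact Eg_perp hT.h2 hC (mem_Eg1.1 hx) (mem_Eg2.1 hy)) h5
  by_cases h6 : 3 ≤ finrank F (Eg C (-1))
  · exact key (-1) _ (by ring) i1.symm
      (fun x hx y hy => Eg_perp hT.h2 hC (mem_Eg1.1 hy) (mem_Eg2.1 hx)) h6
  exfalso
  have f1 := Submodule.finrank_add_eq_of_isCompl i1
  have f2 := Submodule.finrank_add_eq_of_isCompl (isCompl_Eg hT.h2 h3)
  have f3 := fix_le_invol hT.h2 A h4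
  rcases h with h | h
  · omega
  · nlinarith

theorem St.sU_mem_O (hT : St Q₁ Q₂ Q) (u : U) : sU W Q₁ u ∈ O Q :=
  hT.kr_mem_O (refl_mem_O _ _) (one_mem _)

theorem Ctx.R_of_cent (hC : Ctx Q₁ Q₂ Q M) {s : (W →ₗ[F] U) ≃ₗ[F] (W →ₗ[F] U)} (hs : s ∈ O Q)
    (h1 : s * s = 1) (h : 5 ≤ finrank F W ∨ 2 * finrank F U < finrank F (Eg s 1))
    (h2 : ∀ c ∈ M, c * s = s * c → Kron c) {c : (W →ₗ[F] U) ≃ₗ[F] (W →ₗ[F] U)} (hc : c ∈ M)
    (hk : Kron (c * s * c⁻¹)) : Kron c := by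
  have hO := hC.le_O hc
  obtain ⟨w, y, hw, hw0, hy, hy0, h3⟩ := hC.T.comm_rho (mul_mem (mul_mem hO hs) (inv_mem hO)) hk
    (by rw [conj_mul, h1, mul_one, mul_inv_cancel]) (by rwa [finrank_Eg_conj])
  refine (KG F U W).inv_mem_iff.1 (hC.R_rho hw hw0 hy hy0 (inv_mem hc) (h2 _
    (mul_mem (mul_mem (inv_mem hc) (hC.rho_mem _ _)) (inv_mem (inv_mem hc))) ?_))
  calc _ = c⁻¹ * (rho U Q₂ w y * (c * s * c⁻¹)) * c := by group
    _ = _ := by rw [← h3]; group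

theorem Ctx.R_sU (hC : Ctx Q₁ Q₂ Q M) {u : U} (hu : Q₁ u ≠ 0) :
    ∀ c ∈ M, Kron (c * sU W Q₁ u * c⁻¹) → Kron c := fun c hc hk => by
  refine hC.R_of_cent (hC.T.sU_mem_O u) (sU_mul_self u) (Or.inr ?_)
    (fun c hc h => hC.cent_sU hu hc h) hc hk
  have := hC.T.finrank_sU_one hu
  nlinarith [hC.T.ha, hC.T.hb]

theorem Ctx.kron_even (hC : Ctx Q₁ Q₂ Q M) (hb : Even (finrank F W)) : M ≤ KG F U W := by
  intro g hg
  by_contra hg'
  have hT := hC.T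
  obtain ⟨ν, hν⟩ := exists_nonsq hT.h2
  obtain ⟨u, hu⟩ := hT.exists_Q 1
  obtain ⟨u', hu'⟩ := hT.exists_Q ν
  have n1 : Q₁ u ≠ 0 := by simp [hu]
  have n2 : Q₁ u' ≠ 0 := by rintro h; exact hν (by rw [← hu', h]; exact IsSquare.zero)
  have m1 : sU W Q₁ u ∈ M := hC.hH _ (hT.good_all hb u n1) (kr_kron _ _)
  have m2 : sU W Q₁ u' ∈ M := hC.hH _ (hT.good_all hb u' n2) (kr_kron _ _)
  obtain ⟨-, t, a1, -, -, a4⟩ := swap_of_odd m1 (mul_mem (mul_mem hg m2) (inv_mem hg))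
    (sU_mul_self _) (by rw [conj_mul, sU_mul_self, mul_one, mul_inv_cancel])
    (hC.odd_order le_rfl n1 n2 m1 m2 (hC.R_sU n1) (hC.R_sU n2) hg hg')
  have h1 : g⁻¹ * t * sU W Q₁ u * (g⁻¹ * t)⁻¹ = sU W Q₁ u' := by
    calc _ = g⁻¹ * (t * sU W Q₁ u * t⁻¹) * g := by group
      _ = _ := by rw [a4]; group
  have hm := mul_mem (inv_mem hg) a1
  obtain ⟨A, hA, C, -, h2⟩ := hT.kron_norm (hC.le_O hm) (hC.R_sU n1 _ hm (h1 ▸ sU_kron _))
  rw [h2, kr_conj_sU hA] at h1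
  obtain ⟨c, hc⟩ := eq_smul_of_refl hT.h2 (by rwa [hA]) n2 (hT.kr_inj h1)
  exact hν ⟨c, by rw [← hu', ← hc, Q_smul, hA, hu, mul_one]⟩

variable (U Q₂) in
/-- `1 ⊗ r_x` -/
def sW (x : W) : (W →ₗ[F] U) ≃ₗ[F] (W →ₗ[F] U) := kr 1 (refl Q₂ x)

theorem sW_kron (x : W) : sW U Q₂ x ∈ KG F U W := kr_kron _ _

theorem sW_mul_self (x : W) : sW U Q₂ x * sW U Q₂ x = 1 := by
  rw [sW, kr_mul, refl_mul_self, mul_one, kr_one]

theorem kr_conj_sW (A : U ≃ₗ[F] U) {C : W ≃ₗ[F] W} (hC : C ∈ O Q₂) (x : W) :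
    kr A C * sW U Q₂ x * (kr A C)⁻¹ = sW U Q₂ (C⁻¹ x) := by
  rw [sW, sW, kr_inv, kr_mul, kr_mul, ← conj_refl (inv_mem hC)]; simp [mul_assoc]

theorem St.Eg_sW (hT : St Q₁ Q₂ Q) {x : W} (hx : Q₂ x ≠ 0) :
    Eg (sW U Q₂ x) (-1) = TL U (B Q₂ x) := by
  ext v
  rw [mem_Eg2]
  constructor
  · intro h
    refine mem_TL_of (B_ne_zero hT.n2 (by rintro rfl; simp at hx)) fun z hz => ?_
    have := LinearMap.congr_fun h z
    simp only [sW, kr_apply, one_app, refl_of_perp hz, LinearMap.neg_apply] at this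
    exact smul_right_injective U hT.h2 (by linear_combination (norm := module) this)
  · rintro ⟨u, rfl⟩
    rw [← pt_eq, sW, St.kr_pt (refl_mem_O _ _), refl_inv, refl_self hx]; simp

theorem rr_fix {u v x : U} (hu : Q₁ u ≠ 0) (hv : Q₁ v ≠ 0) (h : ∀ c : F, c • u ≠ v)
    (hx : x ∈ Eg (refl Q₁ v * refl Q₁ u) 1) : x ∈ perp Q₁ (Submodule.span F {u, v}) := by
  have h1 : refl Q₁ u x = refl Q₁ v x := by
    rw [← refl_refl Q₁ v (refl Q₁ u x)]; exact congrArg _ (mem_Eg1.1 hx)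
  rw [refl_apply, refl_apply, sub_right_inj] at h1
  have h2 : B Q₁ v x = 0 := by
    by_contra h0
    refine h (((Q₁ v)⁻¹ * B Q₁ v x)⁻¹ * ((Q₁ u)⁻¹ * B Q₁ u x)) ?_
    rw [mul_smul, h1, smul_smul, inv_mul_cancel₀ (mul_ne_zero (inv_ne_zero hv) h0), one_smul]
  have h3 : u ≠ 0 := by rintro rfl; simp at hu
  simp [h2, hu, h3] at h1
  exact mem_perp_span.2 (by rintro _ (rfl | rfl) <;> assumption)

theorem finrank_rr_one (hQ : Nd Q₁) {u v : U} (hu : Q₁ u ≠ 0) (hv : Q₁ v ≠ 0)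
    (h : ∀ c : F, c • u ≠ v) : finrank F (Eg (refl Q₁ v * refl Q₁ u) 1) + 2 ≤ finrank F U := by
  have f1 := hQ.finrank_perp (Submodule.span F {u, v})
  rw [finrank_pair (by rintro rfl; simp at hu) h] at f1
  have := Submodule.finrank_mono fun x hx => rr_fix hu hv h (x := x) hx
  omega

theorem finrank_rr_neg (h2 : (2 : F) ≠ 0) (u v : U) :
    finrank F (Eg (refl Q₁ v * refl Q₁ u) (-1)) ≤ 2 := by
  refine (Submodule.finrank_mono fun x hx => ?_).trans (Orth.finrank_span_pair_le u v)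
  have h1 : refl Q₁ u x = -refl Q₁ v x := by
    rw [← refl_refl Q₁ v (refl Q₁ u x), ← map_neg]; exact congrArg _ (mem_Eg2.1 hx)
  rw [refl_apply, refl_apply] at h1
  refine Submodule.mem_span_pair.2 ⟨(2 : F)⁻¹ * ((Q₁ u)⁻¹ * B Q₁ u x),
    (2 : F)⁻¹ * ((Q₁ v)⁻¹ * B Q₁ v x), smul_right_injective U h2 ?_⟩
  simp only [smul_add, smul_smul, ← mul_assoc, mul_inv_cancel₀ h2]
  linear_combination (norm := module) -h1

theorem rr_perp (h2 : (2 : F) ≠ 0) {u v x : U} (hu : Q₁ u ≠ 0) (hv : Q₁ v ≠ 0) (hx0 : x ≠ 0)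
    (hx : refl Q₁ v (refl Q₁ u x) = -x) : B Q₁ u v = 0 := by
  have h1 : refl Q₁ u x = -refl Q₁ v x := by rw [← refl_refl Q₁ v (refl Q₁ u x), hx, map_neg]
  rw [refl_apply, refl_apply] at h1
  by_contra h0
  have a1 := congrArg (B Q₁ u) h1
  have a2 := congrArg (B Q₁ v) h1
  simp only [map_sub, map_neg, map_smul, B_self, smul_eq_mul, B_comm Q₁ v u] at a1 a2
  have b1 : B Q₁ v x = 0 := by
    have : (Q₁ v)⁻¹ * B Q₁ u v * B Q₁ v x = 0 := by field_simp at a1 ⊢; linear_combination -a1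
    simpa [hv, h0] using this
  have b2 : B Q₁ u x = 0 := by
    have : (Q₁ u)⁻¹ * B Q₁ u v * B Q₁ u x = 0 := by field_simp at a2 ⊢; linear_combination -a2
    simpa [hu, h0] using this
  simp only [b1, b2, mul_zero, zero_smul, sub_zero] at h1
  exact hx0 (smul_right_injective U h2 (by linear_combination (norm := module) h1))

theorem rr_sq {u v : U} (h : B Q₁ u v = 0) :
    refl Q₁ u * refl Q₁ v * (refl Q₁ u * refl Q₁ v) = 1 := by
  have := conj_refl (refl_mem_O Q₁ u) v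
  rw [refl_of_perp h, refl_inv] at this
  rw [← mul_assoc, this, refl_mul_self]

theorem finrank_rr_neg' (h2 : (2 : F) ≠ 0) {u v : U} (hu : Q₁ u ≠ 0) (hv : Q₁ v ≠ 0)
    (h : B Q₁ u v = 0) : finrank F (Eg (refl Q₁ u * refl Q₁ v) (-1)) = 2 := by
  refine le_antisymm (finrank_rr_neg h2 v u) ?_
  rw [← finrank_pair (F := F) (u := u) (v := v) (by rintro rfl; simp at hu) (by
    rintro c rfl
    simp [B_self, h2, hu] at h
    simp [h] at hv)]
  refine Submodule.finrank_mono (Submodule.span_le.2 ?_)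
  rintro _ (rfl | rfl)
  · exact mem_Eg2.2 (by rw [mul_app, refl_of_perp (a := v) (by rw [B_comm, h]), refl_self hu])
  · exact mem_Eg2.2 (by rw [mul_app, refl_self hv, map_neg, refl_of_perp h])

theorem Ctx.cent_sW (hC : Ctx Q₁ Q₂ Q M) {x : W} (hx : Q₂ x ≠ 0) :
    ∀ c ∈ M, c * sW U Q₂ x = sW U Q₂ x * c → Kron c := by
  intro c hc h
  by_contra hc'
  have hT := hC.T
  have h2 := hT.h2
  have hx0 : x ≠ 0 := by rintro rfl; simp at hx
  have h1 : ∀ v ∈ TL U (B Q₂ x), c v ∈ TL U (B Q₂ x) := fun v hv => by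
    rw [← hT.Eg_sW hx, mem_Eg2] at hv ⊢
    have := LinearEquiv.congr_fun h v
    rw [mul_app, mul_app, hv, map_neg] at this
    exact this.symm
  have h3 : ∀ u, ∃ u', c (pt Q₂ x u) = pt Q₂ x u' := fun u =>
    (h1 _ (rk_mem_TL _ u)).imp fun _ h => h.symm
  choose D hD using h3
  have h3 : ∀ u v, B Q₁ (D u) (D v) = B Q₁ u v := fun u v => by
    have := O_B (hC.le_O hc) (pt Q₂ x u) (pt Q₂ x v)
    simpa [hD, hT.hB, B_self, hx, hT.h2] using this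
  have h4 : ∀ u, Q₁ (D u) = Q₁ u := fun u => mul_left_cancel₀ hT.h2 (by rw [← B_self, h3, B_self])
  obtain ⟨e, he, h5⟩ := hC.good
  have key : ∀ u, Q₁ u = e → ∃ t ∈ M, ∃ γ ∈ M, t = γ * sU W Q₁ (D u) * γ⁻¹ ∧ t * t = 1 ∧
      c⁻¹ * t ∈ KG F U W ∧ ∀ v, t (pt Q₂ x v) = pt Q₂ x (refl Q₁ (D u) v) := by
    intro u hu
    have n1 : Q₁ u ≠ 0 := hu ▸ he
    have n2 : Q₁ (D u) ≠ 0 := by rwa [h4]
    have m1 : sU W Q₁ u ∈ M := h5 _ hu
    have m2 : sU W Q₁ (D u) ∈ M := h5 _ (by rw [h4, hu])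
    have m3 := mul_mem (mul_mem hc m1) (inv_mem hc)
    obtain ⟨j, t, a1, a2, a3, a4⟩ := swap_of_odd m2 m3
      (sU_mul_self _) (by rw [conj_mul, sU_mul_self, mul_one, mul_inv_cancel])
      (hC.odd_order le_rfl n2 n1 m2 m1 (hC.R_sU n2) (hC.R_sU n1) hc hc')
    have e1 : ∀ u v, sU W Q₁ u (pt Q₂ x v) = pt Q₂ x (refl Q₁ u v) := fun u v => by
      ext; simp [sU]
    have e2 : ∀ (j : ℕ) v, ((sU W Q₁ (D u) * (c * sU W Q₁ u * c⁻¹)) ^ j) (pt Q₂ x v) = pt Q₂ x v :=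
      fun j v => pow_fix (g := sU W Q₁ (D u) * (c * sU W Q₁ u * c⁻¹)) (x := pt Q₂ x v) (by
        obtain ⟨v', hv'⟩ := inv_mem_of_stab h1 _ (rk_mem_TL _ v)
        have : pt Q₂ x v = pt Q₂ x (D v') := by rw [← hD, pt_eq, pt_eq, hv', apply_inv_apply]
        change sU W Q₁ (D u) (c (sU W Q₁ u (c⁻¹ (pt Q₂ x v)))) = _
        rw [this, ← hD, inv_apply_apply, e1, refl_apply, map_sub, map_smul, map_sub, map_smul, hD,
          hD, ← map_smul, ← map_sub, ← h3, ← h4, ← refl_apply, e1, refl_refl]) j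
    refine ⟨t, a1, _, pow_mem (mul_mem m2 m3) j, a2, a3, hC.R_sU n2 _ (mul_mem (inv_mem hc) a1) ?_,
      fun v => ?_⟩
    · have : c⁻¹ * t * sU W Q₁ (D u) * (c⁻¹ * t)⁻¹ = sU W Q₁ u := by
        calc _ = c⁻¹ * (t * sU W Q₁ (D u) * t⁻¹) * c := by group
          _ = _ := by rw [a4]; group
      exact this ▸ sU_kron u
    · rw [a2, mul_app, mul_app, ← e2 j v, inv_apply_apply, e1, e2]
  obtain ⟨u₁, q1⟩ := hT.exists_Q e
  obtain ⟨u₂, b2, q2⟩ := hT.exists_perp (q1 ▸ he) e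
  obtain ⟨t₁, a1, γ₁, a2, a3, a4, a5, a6⟩ := key u₁ q1
  obtain ⟨t₂, c1, γ₂, c2, c3, c4, c5, c6⟩ := key u₂ q2
  have n1 : Q₁ (D u₁) ≠ 0 := by rw [h4, q1]; exact he
  have n2 : Q₁ (D u₂) ≠ 0 := by rw [h4, q2]; exact he
  have b3 : B Q₁ (D u₁) (D u₂) = 0 := by rw [h3, b2]
  have k1 : ¬ Kron t₁ := fun h => hc' (by
    simpa [mem_KG] using (KG F U W).mul_mem h ((KG F U W).inv_mem a5))
  have i1 : t₁⁻¹ = t₁ := inv_eq_of_mul_eq_one_right a4
  have d1 : Kron (t₁ * t₂) := by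
    simpa [mem_KG, i1, mul_assoc] using (KG F U W).mul_mem ((KG F U W).inv_mem a5) c5
  have d2 : ∀ v, (t₁ * t₂) (pt Q₂ x v) = pt Q₂ x ((refl Q₁ (D u₁) * refl Q₁ (D u₂)) v) :=
    fun v => by rw [mul_app, c6, a6, mul_app]
  have d3 : (t₁ * t₂) (pt Q₂ x (D u₁)) = -pt Q₂ x (D u₁) := by
    rw [d2, mul_app, refl_of_perp (a := D u₂) (by rw [B_comm, b3]), refl_self n1, map_neg]
  have d4 : pt Q₂ x (D u₁) ≠ 0 := fun h0 => n1 (by
    rw [hT.pt_inj hx0 (h0.trans (map_zero _).symm), map_zero])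
  have hg := mul_mem (inv_mem a2) c2
  have e3 : t₁ * t₂ = γ₁ * (sU W Q₁ (D u₁) * (γ₁⁻¹ * γ₂ * sU W Q₁ (D u₂) * (γ₁⁻¹ * γ₂)⁻¹)) * γ₁⁻¹ := by
    rw [a3, c3]; group
  have d5 : Kron (γ₁⁻¹ * γ₂) := by
    by_contra h0
    obtain ⟨k, hk⟩ := hC.odd_order le_rfl n1 n2 (h5 _ (by rw [h4, q1])) (h5 _ (by rw [h4, q2]))
      (hC.R_sU n1) (hC.R_sU n2) hg h0
    have e4 : (t₁ * t₂) ^ (2 * k + 1) = 1 := by
      rw [e3, conj_pow, ← hk, pow_orderOf_eq_one, mul_one, mul_inv_cancel]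
    have e5 := pow_fix (g := (t₁ * t₂) ^ 2) (x := pt Q₂ x (D u₁)) (by
      change ((t₁ * t₂) ^ 2) _ = _
      rw [pow_two, mul_app, d3, map_neg, d3, neg_neg]) k
    have e6 := LinearEquiv.congr_fun e4 (pt Q₂ x (D u₁))
    rw [pow_succ', mul_app, pow_mul, show (((t₁ * t₂) ^ 2) ^ k) _ = _ from e5, d3, one_app] at e6
    exact d4 (smul_right_injective _ h2 (by linear_combination (norm := module) -e6))
  obtain ⟨A, hA, C, -, d6⟩ := hT.kron_norm (hC.le_O hg) d5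
  rw [d6, kr_conj_sU hA, sU, sU, kr_mul, mul_one] at e3
  have n3 : Q₁ (A (D u₂)) ≠ 0 := by rwa [hA]
  have d7 : B Q₁ (D u₁) (A (D u₂)) = 0 := by
    obtain ⟨z, hz⟩ : ∃ z, γ₁⁻¹ (pt Q₂ x (D u₁)) z ≠ 0 := by
      by_contra! h0
      exact d4 ((γ₁⁻¹).map_eq_zero_iff.1 (LinearMap.ext h0))
    rw [B_comm]
    refine rr_perp h2 n3 n1 hz ?_
    have := congrArg (fun v => γ₁⁻¹ v z) d3
    simpa [e3, mul_app] using this
  have d8 : t₁ * t₂ * (t₁ * t₂) = 1 := by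
    rw [e3, conj_mul, kr_mul, rr_sq d7, mul_one, kr_one, mul_one, mul_inv_cancel]
  have f1 : finrank F (Eg (t₁ * t₂) (-1)) = finrank F W * 2 := by
    rw [e3, finrank_Eg_conj, Eg_kr, finrank_TT, finrank_rr_neg' h2 n1 n3 d7]
  obtain ⟨C, d9⟩ : ∃ C, t₁ * t₂ = kr (refl Q₁ (D u₁) * refl Q₁ (D u₂)) C ∧ C * C = 1 ∧ C x = x := by
    obtain ⟨A, C, d9⟩ := Kron.eq d1
    have e4 : ∀ v z, B Q₂ x (C z) • A v = B Q₂ x z • (refl Q₁ (D u₁) * refl Q₁ (D u₂)) v :=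
      fun v z => by simpa [d9] using LinearMap.congr_fun (d2 v) z
    obtain ⟨z, hz⟩ := exists_apply_eq_one (B_ne_zero hT.n2 hx0)
    have hκ : B Q₂ x (C z) ≠ 0 := fun h0 => by
      have := e4 (D u₁) z
      rw [h0, hz, zero_smul, one_smul, eq_comm, LinearEquiv.map_eq_zero_iff] at this
      exact n1 (by rw [this, map_zero])
    let C' := C * LinearEquiv.smulOfNeZero F W _ (inv_ne_zero hκ)
    have e5 : t₁ * t₂ = kr (refl Q₁ (D u₁) * refl Q₁ (D u₂)) C' := by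
      ext v y
      rw [d9, kr_apply, kr_apply, ← one_smul F ((refl Q₁ (D u₁) * refl Q₁ (D u₂)) _), ← hz, ← e4]
      simp [C', mul_app, smul_smul, hκ]
    have e6 : C' ∈ O Q₂ := by
      obtain ⟨A', hA', C'', hC'', e6⟩ := hT.kron_norm (hC.le_O (mul_mem a1 c1)) d1
      have e7 : kr ((refl Q₁ (D u₁) * refl Q₁ (D u₂))⁻¹ * A') (C'' * C'⁻¹) = 1 := by
        rw [← kr_mul, ← kr_inv, ← e5, ← e6, inv_mul_cancel]
      haveI := hT.ntW
      obtain ⟨κ, e8, e9⟩ := kr_fix (r := D u₁) (by rintro h0; simp [h0] at n1) fun φ => by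
        rw [e7]; rfl
      have e10 := mul_mem (inv_mem (mul_mem (refl_mem_O Q₁ (D u₁)) (refl_mem_O Q₁ (D u₂)))) hA'
        (D u₁)
      rw [e8, Q_smul] at e10
      intro y
      rw [← e9 (C' y), Q_smul, mul_app, inv_apply_apply, hC'',
        mul_right_cancel₀ n1 (e10.trans (one_mul _).symm), one_mul]
    refine ⟨C', e5, ?_, ?_⟩
    · rw [e5, kr_mul, rr_sq b3] at d8
      rcases hT.kr_eq_one (mul_mem e6 e6) d8 with h | h
      · exact h.2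
      · exact absurd (fun x => LinearEquiv.congr_fun h.1 x) (sq_ne_neg hT.n1 h2 hT.odd (one_mem _))
    · have := d2 (D u₁)
      rw [e5, St.kr_pt e6] at this
      have := hT.pt_inj' (by simpa using (by rintro h0; simp [h0] at n1 : D u₁ ≠ 0)) this
      nth_rewrite 1 [← this]; simp
  obtain ⟨d9, d10, -⟩ := d9
  have f2 := Submodule.finrank_add_eq_of_isCompl (isCompl_Eg h2 d8)
  have f3 := fix_le_invol h2 (refl Q₁ (D u₁) * refl Q₁ (D u₂)) d10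
  have f4 := fix_le_invol h2 (ng F U * (refl Q₁ (D u₁) * refl Q₁ (D u₂))) d10
  have f5 := finrank_rr_neg' h2 n1 n2 b3
  have f6 := Submodule.finrank_add_eq_of_isCompl (isCompl_Eg h2 (rr_sq b3))
  have f7 := Submodule.finrank_add_eq_of_isCompl (isCompl_Eg h2 d10)
  have g1 : ∀ (A : U ≃ₗ[F] U), Eg (ng F U * A) 1 = Eg A (-1) := fun A => by
    ext; simp [mem_Eg, mul_app, neg_eq_iff_eq_neg]
  have g2 : ∀ (A : U ≃ₗ[F] U), Eg (ng F U * A) (-1) = Eg A 1 := fun A => by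
    ext; simp [mem_Eg, mul_app]
  have g3 : Eg (kr (ng F U * (refl Q₁ (D u₁) * refl Q₁ (D u₂))) C) 1 = Eg (t₁ * t₂) (-1) := by
    ext; simp [d9, mem_Eg, LinearMap.ext_iff, mul_app, neg_eq_iff_eq_neg]
  rw [g1, g2, g3, f1, f5] at f4
  rw [← d9, f5] at f3
  rw [finrank_linearMap, f1] at f2
  obtain ⟨k, hk⟩ := hT.odd
  have f8 : finrank F (Eg C (-1)) = 0 := by
    have := hT.ha
    rw [f5] at f6
    generalize finrank F (Eg (refl Q₁ (D u₁) * refl Q₁ (D u₂)) 1) = e at *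
    generalize finrank F (Eg C (-1)) = m at *
    by_contra h0
    rcases le_or_gt k 1 with h | h
    · obtain rfl : e = 1 := by omega
      omega
    · rw [← f6, ← f7] at f2
      have : 3 ≤ e := by omega
      have : 1 ≤ m := by omega
      nlinarith
  obtain rfl : C = 1 := LinearEquiv.ext fun y => mem_Eg1.1 (by
    rw [Submodule.eq_top_of_finrank_eq (S := Eg C 1) (by omega)]; trivial)
  have f9 := hT.finrank_sU_one n1
  have f10 := hT.finrank_sU_one n2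
  rw [← finrank_Eg_conj γ₁, ← a3] at f9
  rw [← finrank_Eg_conj γ₂, ← c3] at f10
  have f11 := finrank_inf_ge (Eg t₁ 1) (Eg t₂ 1)
  rw [finrank_linearMap] at f11
  have h6 : Eg t₁ 1 ⊓ Eg t₂ 1 = Eg (t₁ * t₂) 1 := Submodule.eq_of_le_of_finrank_le
    (fun v hv => by rw [mem_Eg1, mul_app, mem_Eg1.1 hv.2, mem_Eg1.1 hv.1]) (by omega)
  refine k1 (hC.base (ndOn_two h2 n1 n2 b3) (Orth.finrank_span_pair_le _ _) ⟨a1, fun v hv =>
    mem_Eg1.1 (h6.ge ?_).1⟩)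
  rw [d9, mem_Eg1]
  ext z
  rw [kr_apply, mul_app, refl_of_perp (mem_perp_span.1 (hv _) _ (by simp)),
    refl_of_perp (mem_perp_span.1 (hv _) _ (by simp)), one_app]

theorem finrank_kr_rr (x y : W) : finrank F W * finrank F U ≤
    finrank F (Eg (kr (1 : U ≃ₗ[F] U) (refl Q₂ x * refl Q₂ y)) 1) + 2 * finrank F U := by
  rw [← finrank_linearMap F F W U, ← LinearMap.finrank_range_add_finrank_ker
    ((LinearMap.applyₗ (R := F) (M₂ := U) x).prod (LinearMap.applyₗ y)), add_comm]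
  refine add_le_add (Submodule.finrank_mono fun v hv => mem_Eg1.2 ?_)
    ((Submodule.finrank_le _).trans (by simp [two_mul]))
  have a1 : v x = 0 := congrArg Prod.fst hv
  have a2 : v y = 0 := congrArg Prod.snd hv
  ext z
  simp [mul_app, refl_apply, a1, a2]

theorem Ctx.kron_odd (hC : Ctx Q₁ Q₂ Q M) (hb : Odd (finrank F W)) : M ≤ KG F U W := by
  intro g hg
  by_contra hg'
  have hT := hC.T
  have h2 := hT.h2
  haveI := finite_equiv (F := F) (U := W →ₗ[F] U)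
  have hab := hT.hab.resolve_right (Nat.not_even_iff_odd.2 hb)
  have hb5 : 5 ≤ finrank F W := by have := hT.hb; obtain ⟨k, hk⟩ := hb; omega
  have RW : ∀ x, Q₂ x ≠ 0 → ∀ c ∈ M, Kron (c * sW U Q₂ x * c⁻¹) → Kron c := fun x hx c hc hk =>
    hC.R_of_cent (hT.kr_mem_O (one_mem _) (refl_mem_O _ _)) (sW_mul_self x) (Or.inl hb5)
      (hC.cent_sW hx) hc hk
  obtain ⟨e, he, h3⟩ := hC.good
  obtain ⟨u, hu⟩ := hT.exists_Q e
  have n1 : Q₁ u ≠ 0 := hu ▸ he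
  have m1 : sU W Q₁ u ∈ M := h3 _ hu
  obtain ⟨c, hc, h4⟩ := hT.good2 hb
  replace h4 : ∀ x, Q₂ x = c → sW U Q₂ x ∈ M := fun x hx => hC.hH _ (h4 x hx) (kr_kron _ _)
  set t := g * sU W Q₁ u * g⁻¹ with ht0
  have ht : t ∈ M := mul_mem (mul_mem hg m1) (inv_mem hg)
  have ht2 : t * t = 1 := by rw [ht0, conj_mul, sU_mul_self, mul_one, mul_inv_cancel]
  have key : ∀ x, Q₂ x = c → ∃ u' x', Q₁ u' ≠ 0 ∧
      g⁻¹ * (sU W Q₁ u' * sW U Q₂ x) * g = sW U Q₂ x' * sU W Q₁ u := by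
    intro x hx
    have n2 : Q₂ x ≠ 0 := hx ▸ hc
    have m2 := h4 x hx
    rcases Nat.even_or_odd (orderOf (sW U Q₂ x * t)) with h | h
    swap
    · obtain ⟨-, r, -, -, -, a4⟩ := swap_of_odd m2 ht (sW_mul_self x) ht2 h
      have := finrank_Eg_conj r (sW U Q₂ x) (-1)
      rw [a4, ht0, finrank_Eg_conj, hT.finrank_sU_neg n1, hT.Eg_sW n2,
        finrank_TL (B_ne_zero hT.n2 (by rintro rfl; simp at n2))] at this
      omega
    obtain ⟨m, j, h1, h5, h6, h7⟩ := dih_even' (s := sW U Q₂ x) (sW_mul_self x) ht2 h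
    have hY := fun n : ℕ => pow_mem (mul_mem m2 ht) n
    set z := (sW U Q₂ x * t) ^ m
    have k1 : z * sW U Q₂ x ∈ KG F U W := mul_mem (hC.cent_sW n2 z (hY m) h5) (sW_kron x)
    have k2 : g⁻¹ * z * g * sU W Q₁ u ∈ KG F U W := mul_mem (hC.cent_sU n1
      (mul_mem (mul_mem (inv_mem hg) (hY m)) hg) (by
        calc _ = g⁻¹ * (z * t) * g := by rw [ht0]; group
          _ = _ := by rw [h6, ht0]; group)) (sU_kron u)
    rcases h7 with ⟨h7, h8⟩ | ⟨h7, h8⟩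
    · exfalso
      obtain ⟨A, -, C, hC', e1⟩ := hT.kron_norm (hC.le_O (hY j)) (RW x n2 _ (hY j) (h7 ▸ k1))
      rw [e1, kr_conj_sW A hC', ← eq_mul_inv_iff_mul_eq, inv_eq_of_mul_eq_one_right
        (sW_mul_self x), sW, sW, kr_mul, mul_one] at h7
      have e2 : g⁻¹ * z * g * sU W Q₁ u = (g⁻¹ * (sW U Q₂ x * t) ^ j * g) * sU W Q₁ u *
          (g⁻¹ * (sW U Q₂ x * t) ^ j * g)⁻¹ := by
        calc _ = g⁻¹ * (z * t) * g := by rw [ht0]; group
          _ = _ := by rw [h8]; nth_rewrite 2 [ht0]; group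
      have hm := mul_mem (mul_mem (inv_mem hg) (hY j)) hg
      obtain ⟨A', hA', C', -, e3⟩ := hT.kron_norm (hC.le_O hm) (hC.R_sU n1 _ hm (e2 ▸ k2))
      rw [e3, kr_conj_sU hA', ← eq_mul_inv_iff_mul_eq, inv_eq_of_mul_eq_one_right
        (sU_mul_self u), sU, sU, kr_mul, mul_one] at e2
      have f1 := finrank_kr_rr (U := U) (Q₂ := Q₂) x (C⁻¹ x)
      have f2 := finrank_Eg_conj g⁻¹ z 1
      rw [inv_inv, e2, Eg_kr, finrank_TT, h7] at f2
      have f3 := finrank_rr_one hT.n1 n1 (v := A' u) (by rwa [hA']) fun d hd => h1 (by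
        rw [← hd, refl_smul (by rintro rfl; exact n1 (by rw [← hA', ← hd]; simp)), refl_mul_self,
          kr_one] at e2
        calc z = g * (g⁻¹ * z * g) * g⁻¹ := by group
          _ = 1 := by rw [e2]; group)
      nlinarith
    · have e1 : z * sW U Q₂ x = ((sW U Q₂ x * t) ^ (j + 1) * g) * sU W Q₁ u *
          ((sW U Q₂ x * t) ^ (j + 1) * g)⁻¹ := by rw [h7]; nth_rewrite 2 [ht0]; group
      have hm := mul_mem (hY (j + 1)) hg
      obtain ⟨A, hA, C, -, e2⟩ := hT.kron_norm (hC.le_O hm) (hC.R_sU n1 _ hm (e1 ▸ k1))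
      rw [e2, kr_conj_sU hA, ← eq_mul_inv_iff_mul_eq, inv_eq_of_mul_eq_one_right
        (sW_mul_self x)] at e1
      have e3 : g⁻¹ * z * g * sU W Q₁ u = (g⁻¹ * (sW U Q₂ x * t) ^ j) * sW U Q₂ x *
          (g⁻¹ * (sW U Q₂ x * t) ^ j)⁻¹ := by
        calc _ = g⁻¹ * (z * t) * g := by rw [ht0]; group
          _ = _ := by rw [h8]; group
      have hm' := mul_mem (inv_mem hg) (hY j)
      obtain ⟨A', -, C', hC', e4⟩ := hT.kron_norm (hC.le_O hm') (RW x n2 _ hm' (e3 ▸ k2))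
      rw [e4, kr_conj_sW A' hC', ← eq_mul_inv_iff_mul_eq, inv_eq_of_mul_eq_one_right
        (sU_mul_self u)] at e3
      exact ⟨A u, _, by rwa [hA], by rw [← e1, e3]⟩
  have key2 : ∀ x y, Q₂ x = c → Q₂ y = c → B Q₂ y x = 0 →
      g⁻¹ * (sW U Q₂ x * sW U Q₂ y) * g ∈ KG F U W := by
    intro x y hx hy hxy
    obtain ⟨u₁, x', a1, a2⟩ := key x hx
    obtain ⟨u₂, y', c1, c2⟩ := key y hy
    have e1 : g⁻¹ * kr (refl Q₁ u₁ * refl Q₁ u₂) (refl Q₂ y * refl Q₂ x) * g =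
        kr 1 (refl Q₂ y' * refl Q₂ x') := by
      calc _ = (g⁻¹ * (sU W Q₁ u₁ * sW U Q₂ x) * g) * (g⁻¹ * (sU W Q₁ u₂ * sW U Q₂ y) * g) := by
            simp only [sU, sW, kr_mul, mul_one, one_mul]
            rw [← kr_mul]; group
        _ = _ := by rw [a2, c2]; simp [sU, sW, kr_mul, refl_mul_self]
    by_cases h : ∀ d : F, d • u₂ ≠ u₁
    · exfalso
      have f1 := finrank_kr_rr (U := U) (Q₂ := Q₂) y' x'
      have f2 := finrank_Eg_conj g⁻¹ (kr (refl Q₁ u₁ * refl Q₁ u₂) (refl Q₂ y * refl Q₂ x)) 1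
      rw [inv_inv, e1] at f2
      have f3 := fix_le_invol h2 (refl Q₁ u₁ * refl Q₁ u₂) (rr_sq hxy)
      have f4 := finrank_rr_one hT.n1 c1 a1 h
      have f5 := finrank_rr_neg (Q₁ := Q₁) h2 u₂ u₁
      have f6 := finrank_rr_neg' h2 (hy ▸ hc) (hx ▸ hc) hxy
      have f7 := Submodule.finrank_add_eq_of_isCompl (isCompl_Eg h2 (rr_sq hxy))
      rw [f6] at f3 f7
      nlinarith
    · push Not at h
      obtain ⟨d, rfl⟩ := h
      rw [refl_smul (by rintro rfl; simp at a1), refl_mul_self] at e1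
      rw [sW, sW, kr_mul, mul_one, e1]
      exact kr_kron _ _
  obtain ⟨w, hw, hw0⟩ := hT.exists_sing
  obtain ⟨w', h5, h6⟩ := hT.partner hw hw0
  have n0 := (ndOn_hyp hw h5 (by simp [h6])).perp hT.n2
  have e0 := finrank_perp_ge (Q := Q₂) (Submodule.span F {w, w'})
  have e1 := Orth.finrank_span_pair_le (F := F) w w'
  obtain ⟨y, h7, h8⟩ := n0.exists_Q_eq le_rfl (by omega) c
  have e2 := finrank_inf_perp_ge (Q := Q₂) (perp Q₂ (Submodule.span F {w, w'})) (F ∙ y)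
  have e3 := finrank_span_singleton_le (F := F) y
  obtain ⟨x, ⟨h9, h10⟩, h11⟩ := (n0.inf_perp (ndOn_one h2 (h8 ▸ hc))
    ((Submodule.span_singleton_le_iff_mem _ _).2 h7)).exists_Q_eq le_rfl (by omega) c
  have b1 : B Q₂ w y = 0 := mem_perp_span.1 h7 _ (by simp)
  have b2 : B Q₂ w x = 0 := mem_perp_span.1 h9 _ (by simp)
  have b3 : B Q₂ y x = 0 := mem_perp_span_singleton.1 h10
  have q1 : Q₂ (y + w) = c := by simp [Q_add, h8, hw, B_comm Q₂ y w, b1]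
  have e4 : rho U Q₂ w (c⁻¹ • y) = sW U Q₂ (y + w) * sW U Q₂ y := by
    rw [rho, sW, sW, kr_mul, mul_one]
    congr 1
    ext z
    simp only [eich_apply hw (show B Q₂ w (c⁻¹ • y) = 0 by simp [b1]), mul_app, refl_apply, q1, h8,
      Q_smul, map_sub, map_add, map_smul, LinearMap.add_apply, LinearMap.smul_apply, B_self,
      B_comm Q₂ y w, b1, smul_eq_mul]
    match_scalars <;> field_simp <;> ring
  refine hg' ((KG F U W).inv_mem_iff.1 (hC.R_rho (y := c⁻¹ • y) hw hw0 (by simp [b1])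
    (by simp [Q_smul, h8, hc]) (inv_mem hg) ?_))
  have := mul_mem (key2 (y + w) x q1 h11 (by simp [B_comm Q₂ x, b2, b3])) (key2 x y h11 h8 b3)
  rw [← mem_KG]
  convert this using 1
  rw [e4, inv_inv]
  calc _ = g⁻¹ * (sW U Q₂ (y + w) * (sW U Q₂ x * sW U Q₂ x) * sW U Q₂ y) * g := by
        rw [sW_mul_self, mul_one]
    _ = _ := by group

theorem St.core (hT : St Q₁ Q₂ Q) (hM : M ≤ EO Q) (hH : ∀ g ∈ EO Q, Kron g → g ∈ M)
    (h : ∃ g ∈ M, ¬ Kron g) : EO Q ≤ M := by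
  by_cases h1 : EO Q ≤ PM M
  · refine EO_le_iff.2 fun u w hu hw => ?_
    have := sq_mem_of_PM (h1 (eich_mem_EO u ((2 : F)⁻¹ • w)))
    rwa [eich_mul hu (by simp [hw]) (by simp [hw]), ← two_smul F, smul_smul,
      mul_inv_cancel₀ hT.h2, one_smul] at this
  have hC : Ctx Q₁ Q₂ Q (PM M) := ⟨hT, PM_le (hM.trans (le_PM _)) (ng_mem_PM _), by
    rintro g (hg | hg) hk
    · exact Or.inl (hH g hg hk)
    · exact Or.inr (hH _ hg ((KG F U W).mul_mem (by rw [ng_eq_kr]; exact kr_kron _ _) hk)), h1⟩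
  obtain ⟨g, hg, hg'⟩ := h
  rcases Nat.even_or_odd (finrank F W) with hb | hb
  · exact absurd (hC.kron_even hb (le_PM _ hg)) hg'
  · exact absurd (hC.kron_odd hb (le_PM _ hg)) hg'

theorem St.proper (hT : St Q₁ Q₂ Q) : ∃ g ∈ EO Q, ¬ Kron g := by
  obtain ⟨u, hu⟩ := hT.exists_Q 1
  obtain ⟨x, h1, hx⟩ := hT.exists_perp (u := u) (by simp [hu]) 1
  obtain ⟨w, hw, hw0⟩ := hT.exists_sing
  obtain ⟨z, hz, h3⟩ := hT.partner hw hw0
  have hu0 : u ≠ 0 := by rintro rfl; simp at hu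
  have hx0 : x ≠ 0 := by rintro rfl; simp at hx
  obtain ⟨g, hg, h5⟩ := hT.nd.EO_trans hT.dim (x := pt Q₂ w u) (y := pt Q₂ w u + pt Q₂ z x)
    (rk_ne_zero (B_ne_zero hT.n2 hw0) hu0)
    (fun h0 => by simpa [h3, B_self, hw, B_comm Q₂ z w, hx0] using LinearMap.congr_fun h0 w)
    (by simp [Q_add, hT.Q_pt, hT.hB, hw, hz, h1])
  refine ⟨g, hg, not_kron_of (fun c hc => ?_) (B_ne_zero hT.n2 hw0) (fun c hc => ?_) hu0 h5⟩
  · simpa [h3, B_self, hw, B_comm Q₂ z w] using LinearMap.congr_fun hc w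
  · simp [hc, B_self, hu, hT.h2] at h1
    simp [hc, h1] at hx0

end Cfsg.Agent.Orth.OO
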