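import Cfsg.Agent.Orth.SS3
import Cfsg.Agent.Orth.Bridge

/-! `Sp ⊗ Sp` in `Ω`, part 4: the matrix statement. -/

set_option autoImplicit false
set_option linter.unusedSimpArgs false
set_option linter.unusedSectionVars false

namespace Cfsg.Agent.Orth

open Module Cfsg.Agent.H6

theorem EO_transport {F V V' : Type*} [Field F] [AddCommGroup V] [Module F V] [AddCommGroup V']
    [Module F V'] (e : V ≃ₗ[F] V') {Q : QuadraticForm F V} {Q' : QuadraticForm F V'}
    (h : ∀ v, Q' (e v) = Q v) {g : V ≃ₗ[F] V} (hg : g ∈ EO Q) {g' : V' ≃ₗ[F] V'}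
    (hg' : ∀ v, g' (e v) = e (g v)) : g' ∈ EO Q' := by
  have hB : ∀ x y, B Q' (e x) (e y) = B Q x y := fun x y => by
    have := h (x + y)
    rw [map_add, Q_add, Q_add, h, h] at this
    linear_combination this
  let N : Subgroup (V ≃ₗ[F] V) :=
    { carrier := {g | ∃ g' ∈ EO Q', ∀ v, g' (e v) = e (g v)}
      mul_mem' := by
        rintro a b ⟨a', ha, h1⟩ ⟨b', hb, h2⟩
        exact ⟨a' * b', mul_mem ha hb, fun v => by rw [mul_app, h2, h1, mul_app]⟩
      one_mem' := ⟨1, one_mem _, fun _ => rfl⟩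
      inv_mem' := by
        rintro a ⟨a', ha, h1⟩
        exact ⟨a'⁻¹, inv_mem ha, fun v => a'.injective (by rw [h1]; simp)⟩ }
  have hN : EO Q ≤ N := EO_le_iff.2 fun u w hu hw => ⟨eich Q' (e u) (e w), eich_mem_EO _ _,
    fun v => by
      rw [eich_apply (by rw [h, hu]) (by rw [hB, hw]), eich_apply hu hw, hB, hB, h]
      simp⟩
  obtain ⟨k, hk, h1⟩ := hN hg
  have : g' = k := LinearEquiv.ext fun v => by
    obtain ⟨v, rfl⟩ := e.surjective v
    rw [hg', h1]
  exact this ▸ hk

theorem mem_omegaGL_equiv {ι : Type} [Fintype ι] [DecidableEq ι] {F : Type*} [Field F] [Finite F]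
    {Q : (ι → F) → F} (hQ : Geo.IsNondegenerateQuadraticForm Q) (hd : 5 ≤ Fintype.card ι)
    {V : Type*} [AddCommGroup V] [Module F V] (E : (ι → F) ≃ₗ[F] V) (g : GL ι F) :
    g ∈ Geo.omegaGL Q ↔ glEquiv E g ∈ EO ((toQF hQ).comp (E.symm : V →ₗ[F] (ι → F))) := by
  rw [mem_omegaGL hQ hd]
  constructor
  · intro h
    exact EO_transport E (fun v => by simp) h fun v => by simp [glEquiv_apply, phi_apply]
  · intro h
    exact EO_transport E.symm (fun v => by simp) h fun v => by simp [glEquiv_apply, phi_apply]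

theorem B_comp {F V V' : Type*} [Field F] [AddCommGroup V] [Module F V] [AddCommGroup V']
    [Module F V'] (Q : QuadraticForm F V) (e : V' →ₗ[F] V) (x y : V') :
    B (Q.comp e) x y = B Q (e x) (e y) := by
  simp [B_eq_polar, QuadraticMap.polar]

theorem nd_comp {F V V' : Type*} [Field F] [AddCommGroup V] [Module F V] [AddCommGroup V']
    [Module F V'] {Q : QuadraticForm F V} (hQ : Nd Q) (e : V ≃ₗ[F] V') :
    Nd (Q.comp (e.symm : V' →ₗ[F] V)) := fun v h => by
  have := hQ (e.symm v) fun x => by simpa [B_comp] using h (e x)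
  simpa using this

namespace SS

open Cfsg.Agent.H9.Sp (Symp Sp kron_mul kron_inv bil bil_eq isMaximalIn_transport)
open Matrix Kronecker

variable {F : Type*} [Field F]

theorem symp_bil {κ : Type} [Fintype κ] [DecidableEq κ] {f : (κ → F) → (κ → F) → F}
    (hf : Geo.IsSymplecticForm f) : Symp (bil hf.bilinear) :=
  ⟨hf.alternating, fun z hz => by
    by_contra h
    obtain ⟨x, hx⟩ := (hf.nondegenerate z h).1
    exact hx (hz x)⟩

theorem even_of_symp {U : Type*} [AddCommGroup U] [Module F U] [FiniteDimensional F U]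
    {f : U →ₗ[F] U →ₗ[F] F} (hf : Symp f) : Even (finrank F U) := by
  suffices H : ∀ n, ∀ K : Submodule F U, H9.Sp.NdOn f K → finrank F K = n → Even n from
    H _ ⊤ (fun w _ hw => by obtain ⟨x, hx⟩ := hf.exists_ne hw; exact ⟨x, trivial, hx⟩)
      (finrank_top F U)
  intro n
  induction n using Nat.strong_induction_on with
  | _ n ih =>
    intro K hK hn
    rcases Nat.eq_zero_or_pos n with rfl | h0
    · simp
    obtain ⟨x, hx, hx0⟩ := exists_ne_zero_of_finrank (K := K) (by omega)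
    obtain ⟨y, hy, hxy⟩ := hK x hx hx0
    let φ : K →ₗ[F] F × F := (f x ∘ₗ K.subtype).prod (f y ∘ₗ K.subtype)
    have hφ : LinearMap.range φ = ⊤ := by
      rw [eq_top_iff]
      rintro ⟨a, b⟩ -
      refine ⟨⟨(a / f x y) • y - (b / f x y) • x,
        K.sub_mem (K.smul_mem _ hy) (K.smul_mem _ hx)⟩, ?_⟩
      simp [φ, hf.alt, hf.skew y x, hxy]
    have h1 := LinearMap.finrank_range_add_finrank_ker φ
    rw [hφ, finrank_top, finrank_prod, finrank_self] at h1
    have h2 := ih (n - 2) (by omega) ((LinearMap.ker φ).map K.subtype) (by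
      rintro _ ⟨w, hw, rfl⟩ hw0
      obtain ⟨v, hv, hwv⟩ := hK w w.2 hw0
      have a1 : f x w = 0 := congrArg Prod.fst hw
      have a2 : f y w = 0 := congrArg Prod.snd hw
      refine ⟨v - (f x v / f x y) • y + (f y v / f x y) • x,
        ⟨⟨_, K.add_mem (K.sub_mem hv (K.smul_mem _ hy)) (K.smul_mem _ hx)⟩, ?_, rfl⟩, ?_⟩
      · simp [φ, hf.alt, hf.skew y x, hxy]
      · simpa [hf.comm.1 a1, hf.comm.1 a2] using hwv)
      (by rw [Submodule.finrank_map_subtype_eq]; omega)
    obtain ⟨k, hk⟩ := h2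
    exact ⟨k + 1, by omega⟩

theorem tensor_maximal [Fintype F] {ι : Type} [Fintype ι] [DecidableEq ι] {a b : ℕ}
    {Q : (ι → F) → F} (hQ : Geo.IsNondegenerateQuadraticForm Q) (ha : 1 ≤ a) (hab : a < b)
    (hb : 5 ≤ b) (hex : ¬ (Fintype.card F = 2 ∧ a = 2)) (e : ι ≃ Fin a × Fin b) (P : GL ι F)
    (f₁ : (Fin a → F) → (Fin a → F) → F) (f₂ : (Fin b → F) → (Fin b → F) → F)
    (hf₁ : Geo.IsSymplecticForm f₁) (hf₂ : Geo.IsSymplecticForm f₂)
    (hT : Geo.IsTensorFormStructure id (QuadraticMap.polar Q) f₁ f₂ e P)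
    (hpure : ∀ (x₁ : Fin a → F) (x₂ : Fin b → F),
      Q ((P : Matrix ι ι F) *ᵥ ((fun p : Fin a × Fin b => x₁ p.1 * x₂ p.2) ∘ e)) = 0) :
    Geo.IsMaximalIn (Geo.omegaGL Q) (Geo.tensorProductSubgroup a b e P ⊓ Geo.omegaGL Q) := by
  obtain ⟨c, hc, hT⟩ := hT
  have hs₁ := symp_bil hf₁
  have hs := symp_bil hf₂
  have ea := even_of_symp hs₁
  have eb := even_of_symp hs
  simp only [finrank_fin_fun, Nat.even_iff] at ea eb
  let G : (Fin b → F) ≃ₗ[F] (Fin b → F) := LinearEquiv.ofInjectiveEndo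
    (LinearMap.pi fun i => bil hf₂.bilinear (Pi.single i 1)) (by
      rw [injective_iff_map_eq_zero]
      intro z hz
      refine hs.nd z fun x => ?_
      rw [pi_eq_sum_univ' x]
      simp only [map_sum, map_smul, LinearMap.sum_apply, LinearMap.smul_apply]
      exact Finset.sum_eq_zero fun i _ => by
        rw [show bil hf₂.bilinear _ z = 0 from congrFun hz i]; simp)
  have hG : ∀ y i, G y i = ∑ j, Geo.gramMatrix f₂ i j * y j := fun y i => by
    change bil hf₂.bilinear (Pi.single i 1) y = _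
    simp [bil_eq, Pi.single_apply]
  let E₀ := (pairEquiv F a b).trans (kr (1 : (Fin a → F) ≃ₗ[F] (Fin a → F)) G)
  let E := (frameEq e P).trans E₀
  have hE : ∀ z, E.symm (E₀ z) = (P : Matrix _ _ F) *ᵥ (z ∘ e) := fun z => by
    simp only [E, LinearEquiv.symm_trans_apply, LinearEquiv.symm_apply_apply]
    rfl
  have hE₀ : ∀ z y i, E₀ z y i = ∑ j, z (i, j) * G y j := fun _ _ _ => rfl
  have h1 : ∀ w x, rk (bil hf₂.bilinear w) x = E₀ fun p => x p.1 * w p.2 := fun w x => by
    refine LinearMap.ext fun y => funext fun i => ?_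
    simp only [rk_apply, hE₀, hG, bil_eq, Pi.smul_apply, smul_eq_mul, Finset.sum_mul,
      Finset.mul_sum]
    exact Finset.sum_congr rfl fun j _ => Finset.sum_congr rfl fun j' _ => by ring
  have hSt : St ((-c) • bil hf₁.bilinear) (bil hf₂.bilinear)
      ((toQF hQ).comp (E.symm : ((Fin b → F) →ₗ[F] (Fin a → F)) →ₗ[F] (ι → F))) := by
    refine ⟨⟨fun v => by simp [hs₁.alt], fun z hz => hs₁.nd z fun x => by simpa [hc] using hz x⟩,
      hs, nd_comp (nd_toQF hQ) E, fun w x v => ?_, fun w x => ?_⟩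
    · obtain ⟨z, rfl⟩ := E₀.surjective v
      have h3 : ∀ i i', Geo.gramMatrix f₂ i i' = -Geo.gramMatrix f₂ i' i :=
        fun i i' => hf₂.skew _ _
      rw [h1, B_comp, LinearEquiv.coe_coe, hE, hE, B_toQF, hT]
      simp only [Geo.formOfGram, LinearMap.smul_apply, bil_eq, hE₀, hG, Fintype.sum_prod_type,
        kroneckerMap_apply, id, smul_eq_mul, Finset.mul_sum]
      refine Finset.sum_congr rfl fun i _ => ?_
      rw [Finset.sum_comm]
      refine Finset.sum_congr rfl fun i' _ => ?_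
      rw [Finset.sum_comm]
      refine Finset.sum_congr rfl fun j' _ => Finset.sum_congr rfl fun j _ => ?_
      rw [h3 j' j]; ring
    · rw [h1, QuadraticMap.comp_apply, LinearEquiv.coe_coe, hE, toQF_apply, hpure]
  have hd : 5 ≤ Fintype.card ι := by
    rw [Fintype.card_congr e]; simp; nlinarith
  refine isMaximalIn_transport (glEquiv E) _ _ _ Kron (mem_omegaGL_equiv hQ hd E) (fun g _ => ?_)
    (hSt.proper (by simpa) (by simpa)) fun M hM hH h =>
      core ⟨hSt, hM.trans EO_le_O, fun A hA C hC => hH _ (hSt.kr_mem_EO hA hC) (kr_kron _ _),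
        by simp; omega⟩ (by simpa) ?_ (by simp; omega) h
  · refine mem_frame_iff e P E₀ _ Kron (fun k => ?_) g
    have : glEquiv E₀ k = kr 1 G * glEquiv (pairEquiv F a b) k * (kr 1 G)⁻¹ := rfl
    rw [mem_kronecker_iff, this]
    refine ⟨fun h => kron_mul (kron_mul (kr_kron _ _) h) (kron_inv (kr_kron _ _)), fun h => ?_⟩
    simpa [mul_assoc] using kron_mul (kron_mul (kron_inv (kr_kron 1 G)) h) (kr_kron 1 G)
  · have := Fintype.one_lt_card (α := F)
    by_cases h3 : 3 ≤ Fintype.card F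
    · exact Or.inr (exists_ne_zero_one h3)
    · left
      simp only [finrank_fin_fun]
      omega

end SS

end Cfsg.Agent.Orth
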