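import Cfsg.Agent.Orth.OO8
import Cfsg.Agent.Orth.SS4

/-! `O ⊗ O` in `Ω`, part 9: the matrix statement. -/

set_option autoImplicit false
set_option linter.unusedSimpArgs false
set_option linter.unusedSectionVars false

namespace Cfsg.Agent.Orth.OO

open Module Cfsg.Agent.H6
open Cfsg.Agent.H9.Sp (bil bil_eq isMaximalIn_transport kron_mul kron_inv)
open Matrix Kronecker

variable {F : Type*} [Field F]

theorem B_toQuad {V : Type*} [AddCommGroup V] [Module F V] (h2 : (2 : F) ≠ 0)
    (f : V →ₗ[F] V →ₗ[F] F) (hf : ∀ x y, f x y = f y x) (c : F) (x y : V) :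
    B (LinearMap.BilinMap.toQuadraticMap ((c / 2) • f)) x y = c * f x y := by
  rw [B_eq_polar, LinearMap.BilinMap.polar_toQuadraticMap]
  simp [hf y x]; field_simp; ring

theorem tensor_maximal [Fintype F] {ι : Type} [Fintype ι] [DecidableEq ι] {a b : ℕ}
    {Q : (ι → F) → F} (hQ : Geo.IsNondegenerateQuadraticForm Q) (hodd : Odd (Fintype.card F))
    (ha : 3 ≤ a) (hao : Odd a) (hb : 4 ≤ b) (hab : a < b ∨ Even b)
    (hex : ¬ (Fintype.card F = 3 ∧ a = 3)) (e : ι ≃ Fin a × Fin b) (P : GL ι F)
    (f₁ : (Fin a → F) → (Fin a → F) → F) (f₂ : (Fin b → F) → (Fin b → F) → F)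
    (hf₁ : Geo.IsSymmetricForm f₁) (hf₂ : Geo.IsSymmetricForm f₂)
    (hm : ¬ Geo.IsPlusTypeOn (fun v : Fin b → F => f₂ v v) ⊤)
    (hT : Geo.IsTensorFormStructure id (QuadraticMap.polar Q) f₁ f₂ e P) :
    Geo.IsMaximalIn (Geo.omegaGL Q) (Geo.tensorProductSubgroup a b e P ⊓ Geo.omegaGL Q) := by
  obtain ⟨c, hc, hT⟩ := hT
  have h2 : (2 : F) ≠ 0 := fun h => by
    have := FiniteField.even_card_of_char_two (F := F) (by
      haveI : Fact (Nat.Prime 2) := ⟨Nat.prime_two⟩
      exact CharP.ringChar_of_prime_eq_zero Nat.prime_two (by exact_mod_cast h))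
    obtain ⟨k, hk⟩ := hodd
    omega
  have nd : ∀ {k : ℕ} {f : (Fin k → F) → (Fin k → F) → F} (hf : Geo.IsSymmetricForm f) (z),
      (∀ x, bil hf.bilinear x z = 0) → z = 0 := fun hf z hz => by
    by_contra h
    obtain ⟨x, hx⟩ := (hf.nondegenerate z h).1
    exact hx (hz x)
  let G : (Fin b → F) ≃ₗ[F] (Fin b → F) := LinearEquiv.ofInjectiveEndo
    (LinearMap.pi fun i => bil hf₂.bilinear (Pi.single i 1)) (by
      rw [injective_iff_map_eq_zero]
      intro z hz
      refine nd hf₂ z fun x => ?_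
      rw [pi_eq_sum_univ' x]
      simp only [map_sum, map_smul, LinearMap.sum_apply, LinearMap.smul_apply]
      exact Finset.sum_eq_zero fun i _ => by
        rw [show bil hf₂.bilinear _ z = 0 from congrFun hz i]; simp)
  have hG : ∀ y i, G y i = ∑ j, Geo.gramMatrix f₂ i j * y j := fun y i => by
    change bil hf₂.bilinear (Pi.single i 1) y = _
    simp [bil_eq, Pi.single_apply]
  let E₀ := (pairEquiv F a b).trans (kr (1 : (Fin a → F) ≃ₗ[F] (Fin a → F)) G)
  let E := (frameEq e P).trans E₀
  have hE : ∀ z, E.symm (E₀ z) = (P : Matrix _ _ F) *ᵥ (z ∘ e) := fun z => by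
    simp only [E, LinearEquiv.symm_trans_apply, LinearEquiv.symm_apply_apply]
    rfl
  have hE₀ : ∀ z y i, E₀ z y i = ∑ j, z (i, j) * G y j := fun _ _ _ => rfl
  have h1 : ∀ w x, rk (bil hf₂.bilinear w) x = E₀ fun p => x p.1 * w p.2 := fun w x => by
    refine LinearMap.ext fun y => funext fun i => ?_
    simp only [rk_apply, hE₀, hG, bil_eq, Pi.smul_apply, smul_eq_mul, Finset.sum_mul,
      Finset.mul_sum]
    exact Finset.sum_congr rfl fun j _ => Finset.sum_congr rfl fun j' _ => by ring
  have b1 := B_toQuad h2 (bil hf₁.bilinear) hf₁.symm c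
  have b2 := B_toQuad h2 (bil hf₂.bilinear) hf₂.symm 1
  have hSt : St (LinearMap.BilinMap.toQuadraticMap ((c / 2) • bil hf₁.bilinear))
      (LinearMap.BilinMap.toQuadraticMap (((1 : F) / 2) • bil hf₂.bilinear))
      ((toQF hQ).comp (E.symm : ((Fin b → F) →ₗ[F] (Fin a → F)) →ₗ[F] (ι → F))) := by
    refine ⟨h2, fun z hz => nd hf₁ z fun x => by have := hz x; rw [b1] at this; simpa [hc] using this,
      fun z hz => nd hf₂ z fun x => by have := hz x; rwa [b2, one_mul] at this, nd_comp (nd_toQF hQ) E,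
      fun w x v => ?_, by simpa, by simpa, ?_, by simpa, fun T hT h => hm ⟨T, le_top,
        fun v hv => (by simpa [h2] using hT v hv : bil hf₂.bilinear v v = 0), by simpa using h⟩, by simpa⟩
    · obtain ⟨z, rfl⟩ := E₀.surjective v
      have h3 : ∀ i i', Geo.gramMatrix f₂ i i' = Geo.gramMatrix f₂ i' i :=
        fun i i' => hf₂.symm _ _
      rw [pt_eq, show B _ w = bil hf₂.bilinear w from LinearMap.ext fun y => by rw [b2, one_mul],
        h1, B_comp, LinearEquiv.coe_coe, hE, hE, B_toQF, hT, b1]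
      simp only [Geo.formOfGram, LinearMap.smul_apply, bil_eq, hE₀, hG, Fintype.sum_prod_type,
        kroneckerMap_apply, id, smul_eq_mul, Finset.mul_sum]
      refine Finset.sum_congr rfl fun i _ => ?_
      rw [Finset.sum_comm]
      refine Finset.sum_congr rfl fun i' _ => ?_
      rw [Finset.sum_comm]
      refine Finset.sum_congr rfl fun j' _ => Finset.sum_congr rfl fun j _ => ?_
      rw [h3 j' j]; ring
    · by_cases h3 : Fintype.card F = 3
      · left
        obtain ⟨k, hk⟩ := hao
        simp only [finrank_fin_fun]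
        omega
      · right
        classical
        by_contra! h
        have h4 : (Finset.univ : Finset F) ⊆ {0, 1, -1} := fun t _ => by
          by_cases h0 : t = 0
          · simp [h0]
          · rcases mul_self_eq_one_iff.1 (h t h0) with h | h <;> simp [h]
        have h5 := (Finset.card_le_card h4).trans Finset.card_le_three
        rw [Finset.card_univ] at h5
        have := Fintype.one_lt_card (α := F)
        obtain ⟨k, hk⟩ := hodd
        omega
  have hd : 5 ≤ Fintype.card ι := by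
    rw [Fintype.card_congr e]; simp; nlinarith
  refine isMaximalIn_transport (glEquiv E) _ _ _ Kron (mem_omegaGL_equiv hQ hd E) (fun g _ => ?_)
    hSt.proper fun M hM hH h => hSt.core hM hH h
  refine mem_frame_iff e P E₀ _ Kron (fun k => ?_) g
  have : glEquiv E₀ k = kr 1 G * glEquiv (pairEquiv F a b) k * (kr 1 G)⁻¹ := rfl
  rw [mem_kronecker_iff, this]
  refine ⟨fun h => kron_mul (kron_mul (kr_kron _ _) h) (kron_inv (kr_kron _ _)), fun h => ?_⟩
  simpa [mul_assoc] using kron_mul (kron_mul (kron_inv (kr_kron 1 G)) h) (kr_kron 1 G)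

end Cfsg.Agent.Orth.OO
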