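import Cfsg.Agent.Orth.C1
import Cfsg.Agent.Orth.Bridge

/-! Matrix-level maximality of the reducible (class C1) subgroups of `Ω`. -/

set_option autoImplicit false

namespace Cfsg.Agent.Orth

open Module Cfsg.Geo
open scoped Matrix

section abstr
variable {F V : Type*} [Field F] [AddCommGroup V] [Module F V] {Q : QuadraticForm F V}
  [Finite F] [FiniteDimensional F V]

omit [Finite F] [FiniteDimensional F V] in
lemma finrank_map_of_inj {V' : Type*} [AddCommGroup V'] [Module F V'] {W : Submodule F V}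
    {f : V →ₗ[F] V'} (h : ∀ w ∈ W, f w = 0 → w = 0) : finrank F (W.map f) = finrank F W := by
  rw [← LinearMap.range_domRestrict]
  apply LinearMap.finrank_range_of_inj
  rw [← LinearMap.ker_eq_bot, eq_bot_iff]
  intro w hw
  exact Subtype.ext (h w w.2 hw)

omit [Finite F] [FiniteDimensional F V] in
lemma NdOn.span_singleton (h2 : (2 : F) ≠ 0) {a : V} (ha : Q a ≠ 0) : NdOn Q (F ∙ a) := by
  intro v hv h
  obtain ⟨c, rfl⟩ := Submodule.mem_span_singleton.1 hv
  have := h a (Submodule.mem_span_singleton_self a)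
  rw [map_smul, B_self, smul_eq_mul] at this
  have : c = 0 := by simpa [h2, ha] using this
  simp [this]

lemma exists_sq_add_sq (a c : F) (ha : a ≠ 0) (h2 : (2 : F) ≠ 0) :
    ∃ s t : F, a * (s * s + t * t) = c := by
  classical
  have := Fintype.ofFinite F
  have hodd : Fintype.card F % 2 = 1 := FiniteField.odd_card_of_char_ne_two (by
    intro h
    apply h2
    have := (ringChar.spec F 2).2 (by rw [h])
    exact_mod_cast this)
  obtain ⟨s, t, h⟩ := FiniteField.exists_root_sum_quadratic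
    (f := Polynomial.X ^ 2) (g := Polynomial.X ^ 2 - Polynomial.C (c / a))
    (Polynomial.degree_X_pow 2) (Polynomial.degree_X_pow_sub_C (by norm_num) _) hodd
  refine ⟨s, t, ?_⟩
  simp only [Polynomial.eval_pow, Polynomial.eval_X, Polynomial.eval_sub, Polynomial.eval_C] at h
  field_simp at h
  linear_combination h

/-- Two orthogonal isometric non-degenerate subspaces of even dimension `k` span a space with a
totally singular `k`-space. -/
theorem exists_ts_of_isometric {g : V ≃ₗ[F] V} (hg : g ∈ O Q) (j : ℕ) :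
    ∀ W : Submodule F V, NdOn Q W → finrank F W = 2 * j → (∀ v ∈ W, g v ∈ perp Q W) →
      ∃ T, TS Q T ∧ finrank F T = 2 * j ∧ T ≤ W ⊔ W.map (g : V →ₗ[F] V) := by
  by_cases h2 : (2 : F) = 0
  · intro W hW hd hp
    refine ⟨W.map (LinearMap.id + (g : V →ₗ[F] V)), ?_, ?_, ?_⟩
    · rintro _ ⟨w, hw, rfl⟩
      simp only [LinearMap.add_apply, LinearMap.id_apply, LinearEquiv.coe_coe]
      rw [Q_add, hg, hp w hw w hw]
      linear_combination Q w * h2
    · rw [← hd]
      refine finrank_map_of_inj fun w hw h => hW w hw fun x hx => ?_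
      simp only [LinearMap.add_apply, LinearMap.id_apply, LinearEquiv.coe_coe] at h
      have := congrArg (B Q x) h
      rwa [map_add, hp w hw x hx, add_zero, map_zero] at this
    · rintro _ ⟨w, hw, rfl⟩
      exact Submodule.add_mem_sup hw ⟨w, hw, rfl⟩
  induction j with
  | zero => intro W _ _ _; exact ⟨⊥, by simp [TS], by simp, bot_le⟩
  | succ j ih =>
    intro W hW hd hp
    obtain ⟨v1, hv1, hq1⟩ := hW.exists_nonsing le_rfl (by omega)
    have hs1 : F ∙ v1 ≤ W := by simpa using hv1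
    have hW1 := hW.inf_perp (NdOn.span_singleton h2 hq1) hs1
    have hd1 := hW.finrank_inf_perp hs1
    rw [finrank_span_singleton (by rintro rfl; simp at hq1)] at hd1
    obtain ⟨v2, hv2, hq2⟩ := hW1.exists_nonsing le_rfl (by omega)
    have hs2 : F ∙ v2 ≤ W ⊓ perp Q (F ∙ v1) := by
      rw [Submodule.span_singleton_le_iff_mem]; exact hv2
    have hW2 := hW1.inf_perp (NdOn.span_singleton h2 hq2) hs2
    have hd2 := hW1.finrank_inf_perp hs2
    rw [finrank_span_singleton (by rintro rfl; simp at hq2)] at hd2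
    obtain ⟨T, hT, hTd, hTle⟩ := ih _ hW2 (by omega)
      (fun v hv => perp_anti (inf_le_left.trans inf_le_left) (hp v hv.1.1))
    obtain ⟨s, t, hst⟩ := exists_sq_add_sq (Q v1) (-Q v2) hq1 h2
    have h12 : B Q v1 v2 = 0 := mem_perp_span_singleton.1 hv2.2
    have h21 : B Q v2 v1 = 0 := by rw [B_comm, h12]
    have hc : ∀ x ∈ W, ∀ y ∈ W, B Q x (g y) = 0 := fun x hx y hy => hp y hy x hx
    have hc' : ∀ x ∈ W, ∀ y ∈ W, B Q (g x) y = 0 := fun x hx y hy => by
      rw [B_comm]; exact hc y hy x hx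
    have hTp : ∀ x ∈ T, B Q v1 x = 0 ∧ B Q v2 x = 0 ∧ B Q (g v1) x = 0 ∧ B Q (g v2) x = 0 := by
      intro x hx
      obtain ⟨a, ha, _, ⟨b, hb, rfl⟩, rfl⟩ := Submodule.mem_sup.1 (hTle hx)
      have ha1 := mem_perp_span_singleton.1 ha.1.2
      have ha2 := mem_perp_span_singleton.1 ha.2
      have hb1 := mem_perp_span_singleton.1 hb.1.2
      have hb2 := mem_perp_span_singleton.1 hb.2
      simp only [LinearEquiv.coe_coe, map_add, O_B hg, ha1, ha2, hb1, hb2,
        hc _ hv1 _ hb.1.1, hc _ hv2.1 _ hb.1.1, hc' _ hv1 _ ha.1.1, hc' _ hv2.1 _ ha.1.1]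
      simp
    set x1 := s • v1 + t • g v1 + v2 with hx1
    set x2 := (-t) • v1 + s • g v1 + g v2 with hx2
    have hB : ∀ x y, B Q (g x) (g y) = B Q x y := O_B hg
    have e11 := hc _ hv1 _ hv1
    have e12 := hc _ hv1 _ hv2.1
    have e21 := hc _ hv2.1 _ hv1
    have e22 := hc _ hv2.1 _ hv2.1
    have f11 := hc' _ hv1 _ hv1
    have f12 := hc' _ hv1 _ hv2.1
    have f21 := hc' _ hv2.1 _ hv1
    have f22 := hc' _ hv2.1 _ hv2.1
    have hq1' : Q x1 = 0 := by
      simp only [hx1, Q_add, Q_smul, O_Q hg, map_add, map_smul, LinearMap.add_apply,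
        LinearMap.smul_apply, smul_eq_mul, e11, f12, h12]
      linear_combination hst
    have hq2' : Q x2 = 0 := by
      simp only [hx2, Q_add, Q_smul, O_Q hg, map_add, map_smul, LinearMap.add_apply,
        LinearMap.smul_apply, smul_eq_mul, e11, e12, hB, h12]
      linear_combination hst
    have hb12 : B Q x1 x2 = 0 := by
      simp only [hx1, hx2, map_add, map_smul, LinearMap.add_apply,
        LinearMap.smul_apply, smul_eq_mul, e11, e12, e21, e22, f11, hB, h12, h21, B_self]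
      ring
    have hT1 : ∀ x ∈ T, B Q x1 x = 0 := fun x hx => by
      obtain ⟨a, b, c, d⟩ := hTp x hx
      simp [hx1, a, b, c]
    have hT2 : ∀ x ∈ T, B Q x2 x = 0 := fun x hx => by
      obtain ⟨a, b, c, d⟩ := hTp x hx
      simp [hx2, a, c, d]
    have n2 : x2 ∉ T := fun h => by
      have := (hTp _ h).2.2.2
      simp only [hx2, map_add, map_smul, smul_eq_mul, f21, hB, h21, B_self] at this
      simp [h2, hq2] at this
    have n1 : x1 ∉ T ⊔ F ∙ x2 := fun h => by
      obtain ⟨a, ha, _, hb, he⟩ := Submodule.mem_sup.1 h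
      obtain ⟨c, rfl⟩ := Submodule.mem_span_singleton.1 hb
      have := congrArg (B Q v2) he
      simp only [hx1, hx2, map_add, map_smul, smul_eq_mul, (hTp _ ha).2.1, e21, e22, h21,
        B_self] at this
      simp [h2, hq2] at this
    refine ⟨(T ⊔ F ∙ x2) ⊔ F ∙ x1, ?_, ?_, ?_⟩
    · intro x hx
      obtain ⟨_, ha', _, hb, rfl⟩ := Submodule.mem_sup.1 hx
      obtain ⟨a, ha, _, hc, rfl⟩ := Submodule.mem_sup.1 ha'
      obtain ⟨b, rfl⟩ := Submodule.mem_span_singleton.1 hb
      obtain ⟨c, rfl⟩ := Submodule.mem_span_singleton.1 hc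
      have h1 := hT1 a ha
      have h3 := hT2 a ha
      rw [B_comm] at h1 h3 hb12
      simp [Q_add, Q_smul, hT a ha, hq1', hq2', h1, h3, hb12]
    · rw [Submodule.finrank_sup_span_singleton n1, Submodule.finrank_sup_span_singleton n2, hTd]
      ring
    · have m1 : v1 ∈ W ⊔ W.map (g : V →ₗ[F] V) := Submodule.mem_sup_left hv1
      have m2 : v2 ∈ W ⊔ W.map (g : V →ₗ[F] V) := Submodule.mem_sup_left hv2.1
      have m3 : g v1 ∈ W ⊔ W.map (g : V →ₗ[F] V) := Submodule.mem_sup_right ⟨v1, hv1, rfl⟩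
      have m4 : g v2 ∈ W ⊔ W.map (g : V →ₗ[F] V) := Submodule.mem_sup_right ⟨v2, hv2.1, rfl⟩
      refine sup_le (sup_le (hTle.trans (sup_le_sup (inf_le_left.trans inf_le_left)
        (Submodule.map_mono (inf_le_left.trans inf_le_left)))) ?_) ?_
      · rw [Submodule.span_singleton_le_iff_mem]
        exact add_mem (add_mem (Submodule.smul_mem _ _ m1) (Submodule.smul_mem _ _ m3)) m4
      · rw [Submodule.span_singleton_le_iff_mem]
        exact add_mem (add_mem (Submodule.smul_mem _ _ m1) (Submodule.smul_mem _ _ m3)) m2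

end abstr

variable {ι : Type} [Fintype ι] [DecidableEq ι] {F : Type*} [Field F] [Fintype F]
  {Q : (ι → F) → F} (hQ : IsNondegenerateQuadraticForm Q)
include hQ

/-- parabolic subgroups -/
theorem max_ts (hd : 5 ≤ Fintype.card ι) {W : Submodule F (ι → F)} (hW0 : W ≠ ⊥)
    (hW : IsTotallySingularQuad Q W)
    (hex : 2 * (finrank F W + 1) ≠ Fintype.card ι ∨ ¬ IsPlusTypeOn Q ⊤) :
    IsMaximalIn (omegaGL Q) (subspaceStabilizer W ⊓ omegaGL Q) := by
  have hN := nd_toQF hQ
  have hd' : 5 ≤ finrank F (ι → F) := by simpa using hd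
  have hW' : TS (toQF hQ) W := hW
  have h1 := hN.ndOn_top.ts_finrank_le le_top hW'.le_perp
  rw [finrank_top] at h1
  refine isMaximalIn_of hQ hd _ (fun g => ∀ v ∈ W, g v ∈ W) (fun g _ => mem_subspaceStabilizer')
    (exists_EO_not_stab hN hd' hW0 (by rintro rfl; rw [finrank_top] at h1; omega))
    fun M hM hH => ts_max hN hd' hW' (fun x hx hxW hq => ?_) (hM.trans EO_le_O) hH
  have hT : TS (toQF hQ) (W ⊔ F ∙ x) := by
    intro y hy
    obtain ⟨a, ha, _, hb, rfl⟩ := Submodule.mem_sup.1 hy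
    obtain ⟨c, rfl⟩ := Submodule.mem_span_singleton.1 hb
    rw [Q_add, Q_smul, hq, hW' a ha, map_smul, hx a ha]; simp
  have h2 := hN.ndOn_top.ts_finrank_le le_top hT.le_perp
  have h3 := Submodule.finrank_sup_span_singleton hxW
  rw [finrank_top] at h2
  rcases hex with h | h
  · simp only [finrank_fintype_fun_eq_card] at h2 ⊢; omega
  · by_contra hc
    exact h ⟨_, le_top, hT, by rw [finrank_top]; omega⟩

omit [DecidableEq ι] in
lemma plus_of_sing {U : Submodule F (ι → F)} (hd : finrank F U = 2) {s : ι → F} (hs : s ∈ U)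
    (hs0 : s ≠ 0) (hq : Q s = 0) : IsPlusTypeOn Q U := by
  refine ⟨F ∙ s, by simpa using hs, fun w hw => ?_, by rw [finrank_span_singleton hs0, hd]⟩
  obtain ⟨c, rfl⟩ := Submodule.mem_span_singleton.1 hw
  rw [hQ.smul, hq, mul_zero]

omit [DecidableEq ι] [Fintype F] in
lemma isometric_of_map {W W' : Submodule F (ι → F)} {g : (ι → F) ≃ₗ[F] (ι → F)}
    (hg : g ∈ O (toQF hQ)) (h : W.map (g : (ι → F) →ₗ[F] (ι → F)) = W') :
    AreIsometricFor Q W W' := by
  subst h
  exact ⟨g.submoduleMap W, fun w => hg w⟩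

/-- stabilisers of non-degenerate subspaces; `U` is the larger of `W`, `W^⊥`. -/
theorem max_nd_aux (hd : 5 ≤ Fintype.card ι) {W U : Submodule F (ι → F)} (hW0 : W ≠ ⊥)
    (hW1 : W ≠ ⊤) (hU : NdOn (toQF hQ) U) (hWU : U = W ∨ perp (toQF hQ) U = W)
    (hdU : 5 ≤ finrank F U)
    (hex : ¬ (finrank F (perp (toQF hQ) U) = 2 ∧ IsPlusTypeOn Q (perp (toQF hQ) U) ∧
      Fintype.card F ≤ 3))
    (hni : ∀ g ∈ O (toQF hQ), ¬ ∀ v ∈ U, g v ∈ perp (toQF hQ) U) :
    IsMaximalIn (omegaGL Q) (subspaceStabilizer W ⊓ omegaGL Q) := by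
  have hN := nd_toQF hQ
  have hd' : 5 ≤ finrank F (ι → F) := by simpa using hd
  have hiff : ∀ g ∈ O (toQF hQ), (∀ v ∈ W, g v ∈ W) ↔ ∀ v ∈ U, g v ∈ U := by
    intro g hg
    rcases hWU with rfl | rfl
    · rfl
    · refine ⟨fun h => ?_, perp_stable hg⟩
      have := perp_stable hg h
      rwa [hN.perp_perp] at this
  refine isMaximalIn_of hQ hd _ (fun g => ∀ v ∈ W, g v ∈ W) (fun g _ => mem_subspaceStabilizer')
    (exists_EO_not_stab hN hd' hW0 hW1) fun M hM hH => ?_
  rcases nd_max hN hU hdU (fun ⟨h1, ⟨s, hs, hs0, hq⟩, h3⟩ =>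
      hex ⟨h1, plus_of_sing hQ h1 hs hs0 hq, by rwa [← Nat.card_eq_fintype_card]⟩) hni
    (hM.trans EO_le_O) (fun g hg h => hH g hg ((hiff g (EO_le_O hg)).2 h)) with h | h
  · exact Or.inl fun g hg => (hiff g (EO_le_O (hM hg))).2 (h g hg)
  · exact Or.inr h

/-- stabilisers of non-degenerate subspaces, `n ≥ 9` (or one of the parts of dimension `≥ 5`). -/
theorem max_nd {W : Submodule F (ι → F)} (hW0 : W ≠ ⊥)
    (hW1 : W ≠ ⊤) (hW : IsNondegenerateOn (QuadraticMap.polar Q) W)
    (hd : (5 ≤ finrank F W ∧ Fintype.card ι ≤ 2 * finrank F W) ∨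
      (finrank F W + 5 ≤ Fintype.card ι ∧ 2 * finrank F W ≤ Fintype.card ι))
    (hex : ¬ (Fintype.card F ≤ 3 ∧ ∃ U : Submodule F (ι → F), finrank F U = 2 ∧
      IsNondegenerateOn (QuadraticMap.polar Q) U ∧ IsPlusTypeOn Q U ∧
      (U = W ∨ (AreOrthogonalFor (QuadraticMap.polar Q) U W ∧
        finrank F U + finrank F W = Fintype.card ι))))
    (hni : 2 * finrank F W = Fintype.card ι → ∀ g ∈ O (toQF hQ),
      ¬ ∀ v ∈ W, g v ∈ perp (toQF hQ) W) :
    IsMaximalIn (omegaGL Q) (subspaceStabilizer W ⊓ omegaGL Q) := by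
  have hN := nd_toQF hQ
  have hW' := (ndOn_toQF hQ).1 hW
  have h1 := hN.finrank_perp W
  rw [finrank_fintype_fun_eq_card] at h1
  have hle : ∀ (U U' : Submodule F (ι → F)) (g : (ι → F) ≃ₗ[F] (ι → F)),
      (∀ v ∈ U, g v ∈ U') → finrank F U ≤ finrank F U' := by
    intro U U' g h
    rw [← LinearEquiv.finrank_map_eq g U]
    exact Submodule.finrank_mono (by rintro _ ⟨v, hv, rfl⟩; exact h v hv)
  by_cases hc : 5 ≤ finrank F W ∧ Fintype.card ι ≤ 2 * finrank F W
  · refine max_nd_aux hQ (by omega) hW0 hW1 hW' (Or.inl rfl) hc.1 (fun ⟨a, b, c⟩ => hex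
      ⟨c, _, a, (ndOn_toQF hQ).2 (hW'.perp hN), b, Or.inr ⟨fun u hu v hv => ?_, h1⟩⟩)
      fun g hg h => hni (by have := hle _ _ g h; omega) g hg h
    rw [← B_toQF hQ, B_comm]; exact hu v hv
  · have hd := hd.resolve_left hc
    refine max_nd_aux hQ (by omega) hW0 hW1 (hW'.perp hN) (Or.inr (hN.perp_perp W)) (by omega)
      (fun ⟨a, b, c⟩ => hex ⟨c, W, ?_, hW, ?_, Or.inl rfl⟩) fun g hg h => ?_
    · rwa [hN.perp_perp] at a
    · rwa [hN.perp_perp] at b
    · have := hle _ _ g h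
      rw [hN.perp_perp] at this
      omega

omit [DecidableEq ι] in
/-- in minus type, halves of even dimension are not isometric -/
theorem not_swap_of_minus (hminus : ¬ IsPlusTypeOn Q ⊤) {W : Submodule F (ι → F)}
    (hW : IsNondegenerateOn (QuadraticMap.polar Q) W) (hev : Even (finrank F W))
    (h : 2 * finrank F W = Fintype.card ι) :
    ∀ g ∈ O (toQF hQ), ¬ ∀ v ∈ W, g v ∈ perp (toQF hQ) W := by
  intro g hg hp
  obtain ⟨j, hj⟩ := hev
  obtain ⟨T, hT, hTd, -⟩ := exists_ts_of_isometric hg j W ((ndOn_toQF hQ).1 hW) (by omega) hp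
  exact hminus ⟨T, le_top, hT, by rw [finrank_top, finrank_fintype_fun_eq_card]; omega⟩

/-- stabiliser of a non-singular point -/
theorem max_nonsing (hd : 7 ≤ Fintype.card ι) {v : ι → F} (hv : Q v ≠ 0) :
    IsMaximalIn (omegaGL Q) (subspaceStabilizer (F ∙ v) ⊓ omegaGL Q) := by
  have hN := nd_toQF hQ
  have hd' : 7 ≤ finrank F (ι → F) := by simpa using hd
  have hv0 : v ≠ 0 := by rintro rfl; exact hv (map_zero (toQF hQ))
  have h1 := finrank_span_singleton_le (F := F) v
  refine isMaximalIn_of hQ (by omega) _ (fun g => ∀ x ∈ F ∙ v, g x ∈ F ∙ v)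
    (fun g _ => mem_subspaceStabilizer')
    (exists_EO_not_stab hN (by omega) (by simpa using hv0)
      (fun h => by rw [h, finrank_top] at h1; omega)) fun M hM hH => ?_
  rcases nonsing_max hN hd' (v := v) hv (hM.trans EO_le_O) (fun g hg h => hH g hg fun x hx => by
    obtain ⟨c, rfl⟩ := Submodule.mem_span_singleton.1 hx
    rw [map_smul, h]; exact hx) with h | h
  · left
    intro g hg x hx
    obtain ⟨c, rfl⟩ := Submodule.mem_span_singleton.1 hx
    rw [map_smul]; exact Submodule.smul_mem _ _ (h g hg)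
  · exact Or.inr h

omit [DecidableEq ι] [Fintype F] in
lemma eq_perp_of_two {k : ℕ} {D : Fin 2 → Submodule F (ι → F)}
    (hD : IsNondegenerateMDecomposition (QuadraticMap.polar Q) k D) (hk : 2 * k = Fintype.card ι) :
    D 1 = perp (toQF hQ) (D 0) := by
  have h1 := (nd_toQF hQ).finrank_perp (D 0)
  rw [finrank_fintype_fun_eq_card, hD.decomp.finrank_eq] at h1
  apply Submodule.eq_of_le_of_finrank_eq
  · intro x hx u hu
    exact hD.orthogonal 0 1 (by decide) u hu x hx
  · rw [hD.decomp.finrank_eq]; omega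

/-- non-isometric halves -/
theorem max_halves {k : ℕ} (hk : 2 * k = Fintype.card ι) (hk5 : 5 ≤ k)
    {D : Fin 2 → Submodule F (ι → F)}
    (hD : IsNondegenerateMDecomposition (QuadraticMap.polar Q) k D)
    (hni : ¬ AreIsometricFor Q (D 0) (D 1)) :
    IsMaximalIn (omegaGL Q) (decompositionStabilizer D ⊓ omegaGL Q) := by
  have hN := nd_toQF hQ
  have h0 := hD.decomp.finrank_eq 0
  have h1 := eq_perp_of_two hQ hD hk
  have hsw : ∀ g ∈ O (toQF hQ), ¬ ∀ v ∈ D 0, g v ∈ perp (toQF hQ) (D 0) := by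
    intro g hg h
    refine hni (isometric_of_map hQ hg (Submodule.eq_of_le_of_finrank_eq ?_ ?_))
    · rintro _ ⟨v, hv, rfl⟩; rw [h1]; exact h v hv
    · rw [LinearEquiv.finrank_map_eq, h0, hD.decomp.finrank_eq]
  have : decompositionStabilizer D ⊓ omegaGL Q = subspaceStabilizer (D 0) ⊓ omegaGL Q := by
    ext g
    refine and_congr_left fun hg => ?_
    have hgO := EO_le_O ((mem_omegaGL hQ (by omega)).1 hg)
    change g ∈ decompositionStabilizer D ↔ g ∈ subspaceStabilizer (D 0)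
    rw [mem_decompositionStabilizer, mem_subspaceStabilizer']
    constructor
    · rintro ⟨σ, hσ⟩
      have h2 := hσ 0
      rcases Fin.exists_fin_two.1 ⟨σ 0, rfl⟩ with h | h
      · rw [h] at h2; intro v hv; rw [← h2]; exact ⟨v, hv, rfl⟩
      · rw [h, h1] at h2
        exact absurd (fun v hv => by rw [← h2]; exact ⟨v, hv, rfl⟩) (hsw _ hgO)
    · intro h
      refine ⟨1, Fin.forall_fin_two.2 ⟨map_eq_of_forall_mem h, ?_⟩⟩
      simp only [Equiv.Perm.coe_one, id, h1]
      exact map_eq_of_forall_mem (perp_stable hgO h)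
  rw [this]
  refine max_nd hQ (by intro h; rw [h] at h0; simp at h0; omega)
    (by intro h; rw [h, finrank_top, finrank_fintype_fun_eq_card] at h0; omega)
    (hD.nondegenerate 0) (by omega) ?_ fun _ => hsw
  rintro ⟨-, U, a, -, -, rfl | ⟨-, b⟩⟩ <;> omega

end Cfsg.Agent.Orth
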