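import Cfsg.Agent.Orth.Ext1

/-! Extension field subgroups `Ω_m(q^r).r` of `Ω_{mr}(q)`, part 2. -/

set_option autoImplicit false
set_option linter.unusedSectionVars false

namespace Cfsg.Agent.Orth

open Module

section gen
variable {F V : Type*} [Field F] [AddCommGroup V] [Module F V] {Q : QuadraticForm F V}

lemma ndOn_pair {u v : V} (hu : Q u = 0) (h : B Q u v ≠ 0) :
    NdOn Q (Submodule.span F {u, v}) := by
  intro x hx hp
  obtain ⟨a, b, rfl⟩ := Submodule.mem_span_pair.1 hx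
  have h1 := hp u (Submodule.subset_span (by simp))
  have h2 := hp v (Submodule.subset_span (by simp))
  have hb : b = 0 := by simpa [B_self_of_sing Q hu, h] using h1
  have ha : a = 0 := by simpa [hb, B_comm Q v u, h] using h2
  simp [ha, hb]

lemma NdOn.exists_nonsing_B_ne (h2 : (2 : F) ≠ 0) {N : Submodule F V} (hN : NdOn Q N) {x : V}
    (hx : x ∈ N) (hx0 : x ≠ 0) : ∃ b ∈ N, Q b ≠ 0 ∧ B Q b x ≠ 0 := by
  by_cases hq : Q x = 0
  · obtain ⟨y, hy, hne⟩ := hN.exists_B_ne hx hx0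
    by_cases hy0 : Q y = 0
    · refine ⟨x + y, N.add_mem hx hy, by simpa [Q_add, hq, hy0] using hne, ?_⟩
      simpa [B_self_of_sing Q hq, B_comm Q y x] using hne
    · exact ⟨y, hy, hy0, by rwa [B_comm]⟩
  · exact ⟨x, hx, hq, by simp [B_self, h2, hq]⟩

lemma refl_pair_conj (h2 : (2 : F) ≠ 0) {a b : V} (hq : Q a = Q b) :
    ∃ c ∈ O Q, refl Q b = c * refl Q a * c⁻¹ := by
  by_cases h0 : Q a = 0
  · refine ⟨1, one_mem _, ?_⟩
    have e : ∀ a, Q a = 0 → refl Q a = 1 := fun a ha => by ext x; simp [refl_apply, ha]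
    simp [e a h0, e b (hq ▸ h0)]
  by_cases h : Q (b - a) = 0
  · have h' : Q (-b - a) ≠ 0 := by
      intro h'
      rw [Q_sub] at h h'
      rw [Q_neg, map_neg, LinearMap.neg_apply] at h'
      have : 2 * 2 * Q a = 0 := by linear_combination h + h' + 2 * hq
      simp [h2, h0] at this
    refine ⟨_, refl_mem_O Q (-b - a), ?_⟩
    rw [conj_refl (refl_mem_O Q _), refl_sub_apply (by rw [Q_neg, hq]) h', refl_neg]
  · exact ⟨_, refl_mem_O Q (b - a), by rw [conj_refl (refl_mem_O Q _), refl_sub_apply hq h]⟩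

lemma exists_ne_sq [Finite F] (h4 : 4 ≤ Nat.card F) (c : F) : ∃ k : F, k ≠ 0 ∧ k * k ≠ c := by
  classical
  have := Fintype.ofFinite F
  by_contra h
  push Not at h
  obtain ⟨k₀, hk₀⟩ := exists_ne (0 : F)
  have h1 : (Finset.univ : Finset F) ⊆ {0, k₀, -k₀} := by
    intro k _
    by_cases hk : k = 0
    · simp [hk]
    have : (k - k₀) * (k + k₀) = 0 := by linear_combination h k hk - h k₀ hk₀
    rcases mul_eq_zero.1 this with h' | h'
    · simp [sub_eq_zero.1 h']
    · simp [eq_neg_of_add_eq_zero_left h']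
  have h2 := Finset.card_le_card h1
  have h3 : ({0, k₀, -k₀} : Finset F).card ≤ 3 := Finset.card_le_three
  rw [Finset.card_univ, ← Nat.card_eq_fintype_card] at h2
  omega

end gen

variable {F V : Type*} [Field F] [AddCommGroup V] [Module F V]
  {K : Type*} [Field K] [Algebra F K] [Module K V] [IsScalarTower F K V]

variable (F) in
/-- a `K`-linear automorphism as an `F`-linear one -/
def res (g : V ≃ₗ[K] V) : V ≃ₗ[F] V := g.restrictScalars F

@[simp] lemma res_apply (g : V ≃ₗ[K] V) (x : V) : res F g x = g x := rfl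
lemma res_mul (g h : V ≃ₗ[K] V) : res F (g * h) = res F g * res F h := rfl
lemma res_inv (g : V ≃ₗ[K] V) : res F g⁻¹ = (res F g)⁻¹ := rfl

/-- data of a quadratic form over the extension field `K` with trace form `Q` -/
structure XD (Q : QuadraticForm F V) (K : Type*) [Field K] [Algebra F K] [Module K V] where
  QK : QuadraticForm K V
  τ : K →ₗ[F] F
  hτ : ∃ c, τ c ≠ 0
  hQ : ∀ x, Q x = τ (QK x)
  prime : (finrank F K).Prime
  two : (2 : F) ≠ 0
  nd : Nd Q

namespace XD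
variable {Q : QuadraticForm F V} (D : XD Q K)

lemma hB (x y : V) : B Q x y = D.τ (B D.QK x y) := by
  have := D.hQ (x + y)
  rw [Q_add, Q_add, map_add, map_add, ← D.hQ, ← D.hQ] at this
  linear_combination this

lemma hB_smul (k : K) (x y : V) : B Q (k • x) y = D.τ (k * B D.QK x y) := by
  rw [D.hB, map_smul, LinearMap.smul_apply, smul_eq_mul]

lemma mem_perp {u x : V} : x ∈ perp Q (KL F K u) ↔ B D.QK u x = 0 := by
  rw [mem_perp_KL]
  refine ⟨fun h => tau_nondeg D.hτ fun k => by rw [← D.hB_smul, h], fun h a => ?_⟩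
  rw [D.hB_smul, h]; simp

lemma B_of_BK {x y : V} (h : B D.QK x y = 0) : B Q x y = 0 := by rw [D.hB, h, map_zero]

lemma ndK : Nd D.QK := fun v h => D.nd v fun x => D.B_of_BK (h x)

include D in
lemma twoK : (2 : K) ≠ 0 := by
  rw [← map_ofNat (algebraMap F K) 2]
  exact (map_ne_zero _).2 D.two

lemma BK_fsmul (c : F) (x y : V) : B D.QK x (c • y) = algebraMap F K c * B D.QK x y := by
  rw [← algebraMap_smul K, map_smul, smul_eq_mul]

lemma BK_KL {u x : V} (hu : D.QK u = 0) (hx : x ∈ KL F K u) : B D.QK u x = 0 := by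
  obtain ⟨a, rfl⟩ := mem_KL.1 hx
  simp [B_self_of_sing _ hu]

lemma QK_KL {u x : V} (hu : D.QK u = 0) (hx : x ∈ KL F K u) : D.QK x = 0 := by
  obtain ⟨a, rfl⟩ := mem_KL.1 hx
  rw [Q_smul, hu, mul_zero]

lemma ts {u : V} (hu : D.QK u = 0) : TS Q (KL F K u) := fun x hx => by
  rw [D.hQ, D.QK_KL hu hx, map_zero]

lemma res_mem_O {g : V ≃ₗ[K] V} (hg : g ∈ O D.QK) : res F g ∈ O Q := fun x => by
  rw [D.hQ, D.hQ, res_apply, hg]

include D in
lemma two_le : 2 ≤ finrank F K := D.prime.two_le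

variable [Finite F] [Finite K] [FiniteDimensional F V] [FiniteDimensional K V]

include D in
lemma card_K : 9 ≤ Nat.card K := by
  have h1 := Module.natCard_eq_pow_finrank (K := F) (V := K)
  have h2 : 3 ≤ Nat.card F := by
    classical
    have := Fintype.ofFinite F
    have h := Finset.card_le_univ ({0, 1, -1} : Finset F)
    have h3 : (1 : F) ≠ -1 := fun h => D.two (by linear_combination h)
    rw [Finset.card_eq_three.2 ⟨0, 1, -1, by simp, by simp, h3, rfl⟩] at h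
    rwa [Nat.card_eq_fintype_card]
  rw [h1]
  calc 9 = 3 ^ 2 := by norm_num
    _ ≤ Nat.card F ^ 2 := Nat.pow_le_pow_left h2 2
    _ ≤ _ := Nat.pow_le_pow_right (by omega) D.two_le

include D in
lemma dimF (hm : 3 ≤ finrank K V) : 5 ≤ finrank F V := by
  have := Module.finrank_mul_finrank F K V
  have := D.two_le
  nlinarith

lemma sq_mem (hm : 3 ≤ finrank K V) {g : V ≃ₗ[K] V} (hg : g ∈ O D.QK) : res F (g * g) ∈ EO Q :=
  D.nd.sq_mem_EO (D.dimF hm) (D.res_mem_O hg)

lemma T_mem (hm : 3 ≤ finrank K V) {u w : V} (hu : D.QK u = 0) (hw : B D.QK u w = 0) :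
    res F (eich D.QK u w) ∈ EO Q := by
  have := D.sq_mem hm (eich_mem_O (Q := D.QK) u ((2 : K)⁻¹ • w))
  rwa [eich_mul hu (by simp [hw]) (by simp [hw]), ← add_smul, ← two_mul,
    mul_inv_cancel₀ D.twoK, one_smul] at this

lemma RR_mem (hm : 3 ≤ finrank K V) {a b : V} (h : D.QK a = D.QK b) :
    res F (refl D.QK a * refl D.QK b) ∈ EO Q := by
  obtain ⟨c, hc, e⟩ := refl_pair_conj D.twoK h
  have := D.nd.commutator_mem_EO (D.dimF hm) (D.res_mem_O (refl_mem_O _ a)) (D.res_mem_O hc)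
  rw [← res_inv, refl_inv] at this
  rw [e]; exact this

/-- `M` is a group of isometries containing the `K`-linear elements of `Ω` -/
structure Gd (D : XD Q K) (M : Subgroup (V ≃ₗ[F] V)) : Prop where
  le : M ≤ O Q
  hH : ∀ g : V ≃ₗ[K] V, res F g ∈ EO Q → res F g ∈ M
  hm : 4 ≤ finrank K V

variable {D} {M : Subgroup (V ≃ₗ[F] V)}

lemma Gd.T (G : D.Gd M) {u w : V} (hu : D.QK u = 0) (hw : B D.QK u w = 0) :
    res F (eich D.QK u w) ∈ M := G.hH _ (D.T_mem (by have := G.hm; omega) hu hw)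

lemma Gd.RR (G : D.Gd M) {a b : V} (h : D.QK a = D.QK b) :
    res F (refl D.QK a * refl D.QK b) ∈ M := G.hH _ (D.RR_mem (by have := G.hm; omega) h)

lemma Gd.move (G : D.Gd M) {e l : V} (he : D.QK e = 0) (hl : D.QK l = 0) (h : B D.QK e l ≠ 0) :
    ∃ g ∈ O D.QK, res F g ∈ M ∧ g l = e := by
  have h1 := D.ndK.finrank_perp (K ∙ e)
  have h2 := finrank_span_singleton_le (F := K) e
  have h3 := G.hm
  obtain ⟨b, hb, hq⟩ := D.ndK.ndOn_top.exists_Q_eq (H := perp D.QK (K ∙ e)) le_top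
    (by rw [finrank_top]; omega) (D.QK (e - l))
  refine ⟨_, mul_mem (refl_mem_O _ _) (refl_mem_O _ _), G.RR hq, ?_⟩
  rw [mul_app, refl_sub_apply (by rw [he, hl]) (by simpa [Q_sub, he, hl] using h),
    refl_of_perp (by rw [B_comm]; exact mem_perp_span_singleton.1 hb)]

lemma Gd.perp_pair (G : D.Gd M) {u v : V} (hu : D.QK u = 0) (h : B D.QK u v ≠ 0) :
    NdOn D.QK (perp D.QK (Submodule.span K {u, v})) ∧
      2 ≤ finrank K (perp D.QK (Submodule.span K {u, v})) := by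
  have h1 := D.ndK.finrank_perp (Submodule.span K {u, v})
  have h2 := finrank_span_pair_le (F := K) u v
  have h3 := G.hm
  exact ⟨(ndOn_pair hu h).perp D.ndK, by omega⟩

lemma Gd.exists_val (G : D.Gd M) {u v : V} (hu : D.QK u = 0) (h : B D.QK u v ≠ 0) (c : K) :
    ∃ w, B D.QK u w = 0 ∧ B D.QK v w = 0 ∧ D.QK w = c := by
  obtain ⟨h1, h2⟩ := G.perp_pair hu h
  obtain ⟨w, hw, hq⟩ := h1.exists_Q_eq le_rfl (by omega) c
  exact ⟨w, mem_perp_span.1 hw u (by simp), mem_perp_span.1 hw v (by simp), hq⟩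

lemma exists_partnerK {u : V} (hu : D.QK u = 0) (hu0 : u ≠ 0) :
    ∃ f, D.QK f = 0 ∧ B D.QK u f = 1 := by
  obtain ⟨y, hy⟩ := D.ndK.exists_B_ne hu0
  obtain ⟨f, -, h1, h2⟩ := exists_partner (H := ⊤) trivial hu ⟨y, trivial, hy⟩
  exact ⟨f, h1, h2⟩

theorem Gd.EO_le_of_AU (G : D.Gd M) {u : V} (hu : D.QK u = 0) (hu0 : u ≠ 0)
    (h : ∀ l ∈ KL F K u, ∀ w ∈ perp Q (KL F K u), eich Q l w ∈ M) : EO Q ≤ M := by
  obtain ⟨e, he, hue⟩ := exists_partnerK hu hu0
  have heu : B D.QK e u = 1 := by rwa [B_comm]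
  have hqe : Q e = 0 := by rw [D.hQ, he, map_zero]
  have Pe : ∀ w ∈ perp Q (KL F K e), w ∈ AU Q M e := by
    intro w hw
    obtain ⟨g, hg, hgM, hge⟩ := G.move he hu (by simp [heu])
    have h1 : B D.QK u (g⁻¹ w) = 0 := by rw [← O_B_inv hg, hge]; exact D.mem_perp.1 hw
    have := AU_map G.le hgM (u := u) (w := g⁻¹ w)
      ⟨D.B_of_BK h1, h u (self_mem_KL u) _ (D.mem_perp.2 h1)⟩
    simpa [hge] using this
  let Y : Submodule F V :=
    { carrier := {x | ∀ c : F, c • x ∈ AU Q M e}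
      add_mem' := fun ha hb c => by rw [smul_add]; exact add_mem (ha c) (hb c)
      zero_mem' := fun c => by simp
      smul_mem' := fun c x hx c' => by rw [smul_smul]; exact hx _ }
  have hY : perp Q (KL F K e) ≤ Y := fun x hx c => Pe _ (Submodule.smul_mem _ c hx)
  have hperp : perp Q Y ≤ F ∙ e := by
    intro z hz
    have h1 := perp_anti hY hz
    rw [D.nd.perp_perp] at h1
    obtain ⟨k, rfl⟩ := mem_KL.1 h1
    by_contra hk
    obtain ⟨x, hx, hne⟩ := D.nd.exists_perp_B_ne hk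
    set l := B D.QK e x • u with hl
    have hel : B D.QK e l = B D.QK e x := by simp [hl, heu]
    have hlu : l ∈ KL F K u := smul_mem_KL _ _
    have b1 : B Q l e = 0 := by
      rw [B_comm, D.hB, hel, ← D.hB]; exact mem_perp_span_singleton.1 hx
    have b2 : B Q l (k • e) ≠ 0 := by rwa [B_comm, D.hB_smul, hel, ← D.hB_smul]
    obtain ⟨y, hy1, hy2, hy3⟩ := G.exists_val hu (v := e) (by simp [hue]) 1
    have hyu : y ∈ perp Q (KL F K u) := D.mem_perp.2 hy1
    have hg := h l hlu y hyu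
    have hge : eich Q l y e = e := eich_apply_of_perp b1 (D.B_of_BK (by rwa [B_comm]))
    have h2 : (perp Q (KL F K e)).map (eich Q l y : V →ₗ[F] V) ≤ Y := by
      rintro _ ⟨w, hw, rfl⟩ c
      simpa using AU_fix G.le hg hge (Pe _ (Submodule.smul_mem _ c hw))
    have h3 := perp_anti h2 hz
    rw [perp_map (eich_mem_O _ _), D.nd.perp_perp] at h3
    obtain ⟨_, hx', h4⟩ := h3
    obtain ⟨k', rfl⟩ := mem_KL.1 hx'
    rw [LinearEquiv.coe_coe, eich_apply (D.ts hu l hlu) (hyu l hlu)] at h4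
    have h5 := congrArg (B D.QK u) h4
    have h6 := congrArg (B D.QK y) h4
    have hyl : B D.QK y l = 0 := by rw [hl, map_smul, B_comm D.QK y u, hy1, smul_zero]
    simp only [map_sub, map_add, D.BK_fsmul, map_smul, hue, hy1, D.BK_KL hu hlu, smul_eq_mul,
      mul_zero, mul_one, add_zero, sub_zero] at h5
    simp only [map_sub, map_add, D.BK_fsmul, map_smul, B_comm D.QK y e, hy2, hyl, B_self, hy3,
      smul_eq_mul, mul_zero, mul_one, zero_add, sub_zero, mul_eq_zero, D.twoK, or_false,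
      map_eq_zero] at h6
    exact b2 (h5 ▸ h6)
  have hfull : Full Q M e := by
    intro w hw
    have := perp_anti hperp (mem_perp_span_singleton.2 hw)
    rw [D.nd.perp_perp] at this
    simpa using (this 1).2
  obtain ⟨c, hc⟩ := D.hτ
  have hc0 : c ≠ 0 := by rintro rfl; simp at hc
  obtain ⟨g, -, hgM, hge⟩ := G.move (D.QK_KL hu (smul_mem_KL c u)) he (by simp [hue, hc0])
  refine EO_le_of_full_of_move D.nd (D.dimF (by have := G.hm; omega)) G.le hqe hfull hgM ?_
  rwa [res_apply, hge, B_comm, D.hB_smul, hue, mul_one]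

variable (D) in
/-- the maps `L^⊥/L → L` induced by elements of `M` -/
def NN (M : Subgroup (V ≃ₗ[F] V)) {u : V} (hu : D.QK u = 0) : AddSubgroup (V →ₗ[F] K) where
  carrier := {n | (∀ x ∈ KL F K u, n x = 0) ∧
    ∃ ρ ∈ M, ∀ x, B D.QK u x = 0 → ρ x = x + n x • u}
  add_mem' := by
    rintro n n' ⟨h1, ρ, hρ, h2⟩ ⟨h1', ρ', hρ', h2'⟩
    refine ⟨fun x hx => by simp [h1 x hx, h1' x hx], ρ * ρ', mul_mem hρ hρ', fun x hx => ?_⟩
    rw [mul_app, h2' x hx, map_add, h2 x hx, h2 _ (D.BK_KL hu (smul_mem_KL _ _)),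
      h1 _ (smul_mem_KL _ _), LinearMap.add_apply, add_smul, zero_smul]
    abel
  zero_mem' := ⟨fun _ _ => rfl, 1, one_mem _, fun x _ => by simp⟩
  neg_mem' := by
    rintro n ⟨h1, ρ, hρ, h2⟩
    refine ⟨fun x hx => by simp [h1 x hx], ρ⁻¹, inv_mem hρ, fun x hx => ?_⟩
    apply ρ.injective
    rw [apply_inv_apply, map_add, h2 x hx, h2 _ (D.BK_KL hu (smul_mem_KL _ _)),
      h1 _ (smul_mem_KL _ _), LinearMap.neg_apply, neg_smul, zero_smul]
    abel

lemma Gd.T_NN (G : D.Gd M) {u w : V} (hu : D.QK u = 0) (hw : B D.QK u w = 0) :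
    (B D.QK w).restrictScalars F ∈ D.NN M hu := by
  refine ⟨fun x hx => ?_, _, G.T hu (w := -w) (by simp [hw]), fun x hx => ?_⟩
  · obtain ⟨a, rfl⟩ := mem_KL.1 hx
    simp [B_comm D.QK w u, hw]
  · rw [res_apply, eich_apply_of_perp_left hu (by simp [hw]) hx]; simp

theorem Gd.EO_le_of_NN (G : D.Gd M) {u : V} (hu : D.QK u = 0) (hu0 : u ≠ 0)
    (h : ∀ w, B D.QK u w = 0 → ∀ c : K, (B Q w).smulRight c ∈ D.NN M hu) : EO Q ≤ M := by
  refine G.EO_le_of_AU hu hu0 (eich_mem_of_induced D.nd (D.ts hu) G.le ?_ fun l hl w hw => ?_)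
  · obtain ⟨e, he, hue⟩ := exists_partnerK hu hu0
    obtain ⟨c, hc⟩ := D.hτ
    obtain ⟨y, hy1, -, hy3⟩ := G.exists_val hu (v := e) (by simp [hue]) c
    refine ⟨y, D.mem_perp.2 hy1, y, D.mem_perp.2 hy1, ?_⟩
    rw [B_self, D.hQ, hy3]; exact mul_ne_zero D.two hc
  · obtain ⟨c, rfl⟩ := mem_KL.1 hl
    obtain ⟨-, ρ, hρ, h2⟩ := h w (D.mem_perp.1 hw) (-c)
    refine ⟨ρ, hρ, fun x hx => ?_⟩
    rw [h2 x (D.mem_perp.1 hx), LinearMap.smulRight_apply, smul_assoc, neg_smul, smul_neg,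
      sub_eq_add_neg]

variable (D) in
/-- the stabiliser of a singular `K`-point acts semilinearly on it -/
def Star (M : Subgroup (V ≃ₗ[F] V)) : Prop :=
  ∀ u, D.QK u = 0 → u ≠ 0 → ∀ s ∈ M, (∀ x ∈ KL F K u, s x ∈ KL F K u) →
    ∀ a : K, ∃ b : K, ∀ x ∈ KL F K u, s (a • x) = b • s x

theorem Gd.EO_le_of_not_star (G : D.Gd M) (h : ¬ D.Star M) : EO Q ≤ M := by
  simp only [Star, not_forall] at h
  obtain ⟨u, hu, hu0, s, hs, hsL, a, ha⟩ := h
  obtain ⟨f, hf, huf⟩ := exists_partnerK hu hu0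
  have hfu : B D.QK f u = 1 := by rwa [B_comm]
  let A : Subring (Module.End F K) :=
    { carrier := {α | ∀ n ∈ D.NN M hu, α ∘ₗ n ∈ D.NN M hu}
      mul_mem' := fun ha hb n hn => ha _ (hb n hn)
      one_mem' := fun n hn => hn
      add_mem' := fun ha hb n hn => by
        rw [LinearMap.add_comp]; exact add_mem (ha n hn) (hb n hn)
      zero_mem' := fun n _ => by rw [LinearMap.zero_comp]; exact zero_mem _
      neg_mem' := fun ha n hn => by rw [LinearMap.neg_comp]; exact neg_mem (ha n hn) }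
  have hA : ∀ h ∈ M, ∀ α : Module.End F K, (∀ k, h (k • u) = α k • u) →
      (∀ x, B D.QK u x = 0 → h x - x ∈ KL F K u) → α ∈ A := by
    rintro h hh α h1 h2 n ⟨n1, ρ, hρ, n2⟩
    have hL : ∀ x ∈ KL F K u, h x ∈ KL F K u := fun x hx => by
      obtain ⟨k, rfl⟩ := mem_KL.1 hx
      rw [h1]; exact smul_mem_KL _ _
    refine ⟨fun x hx => by simp [n1 x hx], h * ρ * h⁻¹, mul_mem (mul_mem hh hρ) (inv_mem hh),
      fun x hx => ?_⟩
    have h3 : B D.QK u (h⁻¹ x) = 0 := D.mem_perp.1 (perp_stable (inv_mem (G.le hh))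
      (inv_mem_of_forall_mem hL) x (D.mem_perp.2 hx))
    have h4 := n1 _ (h2 _ h3)
    rw [apply_inv_apply, map_sub, sub_eq_zero] at h4
    rw [mul_app, mul_app, n2 _ h3, map_add, apply_inv_apply, h1, ← h4]; rfl
  let co : (V ≃ₗ[F] V) → Module.End F K := fun g =>
    (B D.QK f).restrictScalars F ∘ₗ (g : V →ₗ[F] V) ∘ₗ
      (LinearMap.toSpanSingleton K V u).restrictScalars F
  have hco : ∀ g : V ≃ₗ[F] V, (∀ x ∈ KL F K u, g x ∈ KL F K u) → ∀ k, g (k • u) = co g k • u := by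
    intro g hg k
    obtain ⟨c, hc⟩ := mem_KL.1 (hg _ (smul_mem_KL k u))
    simp [co, ← hc, hfu]
  have tor : ∀ μ : K, μ ≠ 0 → ∃ h ∈ M, (∀ k : K, h (k • u) = (μ * μ * k) • u) ∧
      ∀ x, B D.QK u x = 0 → h x - x ∈ KL F K u := by
    intro μ hμ
    set g := refl D.QK (f - μ • u) * refl D.QK (f - u) with hg
    have hgO : g ∈ O D.QK := mul_mem (refl_mem_O _ _) (refl_mem_O _ _)
    have g1 : g u = μ • u := by
      have e1 : refl D.QK (f - u) u = f :=
        refl_sub_apply (by rw [hu, hf]) (by simp [Q_sub, hu, hf, hfu])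
      have e2 : refl D.QK (f - μ • u) (μ • u) = f :=
        refl_sub_apply (by rw [Q_smul, hu, hf, mul_zero]) (by simp [Q_sub, Q_smul, hu, hf, hfu, hμ])
      rw [hg, mul_app, e1]
      nth_rewrite 2 [← e2]
      rw [refl_refl]
    have g2 : ∀ x, B D.QK u x = 0 → g x - x ∈ KL F K u := by
      intro x hx
      have h0 : g (x - B D.QK f x • u) = x - B D.QK f x • u := by
        rw [hg, mul_app, refl_of_perp (a := f - u), refl_of_perp] <;>
          simp [hx, hfu, B_self_of_sing _ hu]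
      rw [map_sub, map_smul, g1, sub_eq_iff_eq_add] at h0
      rw [h0, show ∀ a b c : V, a - b + c - a = c - b from fun a b c => by abel]
      exact sub_mem (KL_smul_mem (smul_mem_KL _ _) _) (smul_mem_KL _ _)
    refine ⟨_, G.hH _ (D.sq_mem (by have := G.hm; omega) hgO), fun k => ?_, fun x hx => ?_⟩
    · rw [res_apply, map_smul, mul_app, g1, map_smul, g1, smul_smul, smul_smul]
      congr 1; ring
    · have h1 := g2 x hx
      have h2 := g2 (g x) (by simpa [hx] using D.BK_KL hu h1)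
      simpa using add_mem h2 h1
  have sq : ∀ P : K → Prop, P 0 → (∀ μ, μ ≠ 0 → P (μ * μ)) → (∀ a b, P a → P b → P (a - b)) →
      ∀ c, P c := by
    intro P h0 h1 h2 c
    have h3 : ∀ μ, P (μ * μ) := fun μ => by
      by_cases hμ : μ = 0
      · simpa [hμ] using h0
      · exact h1 μ hμ
    have := h2 _ _ (h3 ((c + 1) / 2)) (h3 ((c - 1) / 2))
    convert this using 1
    have := D.twoK
    field_simp; ring
  have hmul : ∀ c, LinearMap.mul F K c ∈ A := by
    refine sq _ (by simp) (fun μ hμ => ?_) fun a b ha hb => by rw [map_sub]; exact sub_mem ha hb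
    obtain ⟨h, hh, h1, h2⟩ := tor μ hμ
    exact hA h hh _ h1 h2
  have hsL' := inv_mem_of_forall_mem hsL
  have hψ : ∀ c, co s * LinearMap.mul F K c * co s⁻¹ ∈ A := by
    refine sq _ (by simp) (fun μ hμ => ?_) fun a b ha hb => by
      rw [map_sub, mul_sub, sub_mul]; exact sub_mem ha hb
    obtain ⟨h, hh, h1, h2⟩ := tor μ hμ
    refine hA (s * h * s⁻¹) (mul_mem (mul_mem hs hh) (inv_mem hs)) _ (fun k => ?_) fun x hx => ?_
    · rw [mul_app, mul_app, hco _ hsL', h1, hco _ hsL]; rfl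
    · have := hsL _ (h2 (s⁻¹ x) (D.mem_perp.1 (perp_stable (inv_mem (G.le hs)) hsL' x
        (D.mem_perp.2 hx))))
      rwa [map_sub, apply_inv_apply] at this
  obtain ⟨φ, hφ0, hφ⟩ := exists_rank_one D.prime A hmul (hψ a) fun b hb => ha ⟨b, fun x hx => by
    obtain ⟨k, hk⟩ := mem_KL.1 (hsL x hx)
    have h1 : x = co s⁻¹ k • u := by rw [← hco _ hsL', hk]; simp
    have := LinearMap.congr_fun hb k
    simp only [Module.End.mul_apply, LinearMap.mul_apply'] at this
    rw [← hk, h1, smul_smul, hco _ hsL, this, smul_smul]⟩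
  obtain ⟨e, he⟩ := exists_tau_mul D.hτ φ
  have he0 : e ≠ 0 := by rintro rfl; exact hφ0 (LinearMap.ext fun k => by simp [he])
  refine G.EO_le_of_NN hu hu0 fun w hw c => ?_
  convert hφ c _ (G.T_NN hu (w := e⁻¹ • w) (by simp [hw])) using 1
  ext x
  simp [he, he0, D.hB]

end XD

end Cfsg.Agent.Orth
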