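import Cfsg.Agent.Orth.FieldBridge
import Cfsg.Agent.Orth.Ext2

/-! Orthogonal decompositions: the framework of reflection classes. -/

set_option autoImplicit false

namespace Cfsg.Agent.Orth

open Module

variable {F V : Type*} [Field F] [AddCommGroup V] [Module F V] {Q : QuadraticForm F V}

lemma refl_add_mul_refl {x u : V} (hx : Q x ≠ 0) (hu : Q u = 0) (hux : B Q u x = 0) :
    refl Q (x + u) * refl Q x = eich Q u (-(Q x)⁻¹ • x) := by
  ext y
  have h1 : Q (x + u) = Q x := by rw [Q_add, hu, B_comm, hux]; ring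
  rw [mul_app, refl_apply, refl_apply, h1, eich_apply hu (by simp [hux]), Q_smul]
  simp only [map_add, map_sub, map_smul, LinearMap.add_apply, LinearMap.smul_apply, smul_eq_mul,
    hux, B_self]
  match_scalars <;> field_simp <;> ring

/-- few exceptions -/
def Few (n : ℕ) (P : F → Prop) : Prop := ∃ s : Finset F, s.card ≤ n ∧ ∀ k, P k → k ∈ s

lemma Few.or {n m : ℕ} {P P' : F → Prop} (h : Few n P) (h' : Few m P') :
    Few (n + m) fun k => P k ∨ P' k := by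
  classical
  obtain ⟨s, hs, h⟩ := h
  obtain ⟨s', hs', h'⟩ := h'
  refine ⟨s ∪ s', (Finset.card_union_le _ _).trans (by omega), fun k hk => ?_⟩
  rcases hk with hk | hk
  · exact Finset.mem_union_left _ (h k hk)
  · exact Finset.mem_union_right _ (h' k hk)

lemma Few.exists_not [Finite F] {n : ℕ} {P : F → Prop} (h : Few n P) (hn : n < Nat.card F) :
    ∃ k, ¬ P k := by
  classical
  have := Fintype.ofFinite F
  obtain ⟨s, hs, h⟩ := h
  by_contra h'; push Not at h'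
  have : Finset.univ ⊆ s := fun k _ => h k (h' k)
  have := Finset.card_le_card this
  rw [Finset.card_univ, ← Nat.card_eq_fintype_card] at this; omega

lemma Few.mono {n m : ℕ} {P P' : F → Prop} (h : Few n P) (hn : n ≤ m) (h' : ∀ k, P' k → P k) :
    Few m P' := by
  obtain ⟨s, hs, h⟩ := h
  exact ⟨s, hs.trans hn, fun k hk => h k (h' k hk)⟩

lemma few_none {P : F → Prop} (h : ∀ k, ¬ P k) : Few 0 P := ⟨∅, le_rfl, fun k hk => absurd hk (h k)⟩

lemma few_poly (p : Polynomial F) (hp : p ≠ 0) : Few p.natDegree fun k => p.eval k = 0 := by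
  classical
  exact ⟨p.roots.toFinset, (Multiset.toFinset_card_le _).trans (Polynomial.card_roots' p),
    fun k hk => by simp [hp, hk]⟩

lemma few_quad {a b c : F} (h : ¬ (a = 0 ∧ b = 0 ∧ c = 0)) :
    Few 2 fun k => a + b * k + c * (k * k) = 0 := by
  have hp : (Polynomial.C c * Polynomial.X ^ 2 + Polynomial.C b * Polynomial.X + Polynomial.C a)
      ≠ 0 := by
    intro h0
    apply h
    have h1 := congrArg (fun p => Polynomial.coeff p 0) h0
    have h2 := congrArg (fun p => Polynomial.coeff p 1) h0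
    have h3 := congrArg (fun p => Polynomial.coeff p 2) h0
    simp [Polynomial.coeff_X, Polynomial.coeff_C] at h1 h2 h3
    exact ⟨h1, h2, h3⟩
  refine (few_poly _ hp).mono Polynomial.natDegree_quadratic_le fun k hk => ?_
  simp only [Polynomial.eval_add, Polynomial.eval_mul, Polynomial.eval_C, Polynomial.eval_pow,
    Polynomial.eval_X]
  linear_combination hk

lemma few_lin {a b : F} (h : ¬ (a = 0 ∧ b = 0)) : Few 1 fun k => a + b * k = 0 := by
  by_cases hb : b = 0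
  · exact (few_none (P := fun k => a + b * k = 0) fun k hk => h ⟨by simpa [hb] using hk, hb⟩).mono
      (by omega) fun _ h => h
  · refine ⟨{-a / b}, by simp, fun k hk => ?_⟩
    rw [Finset.mem_singleton]; field_simp; linear_combination hk

lemma few_zero : Few 1 fun k : F => k = 0 := ⟨{0}, by simp, fun k hk => by simp [hk]⟩

variable {ι : Type*}

/-- an orthogonal decomposition and a group containing its kernel -/
structure Dc (Q : QuadraticForm F V) (M : Subgroup (V ≃ₗ[F] V)) (Vb : ι → Submodule F V) :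
    Prop where
  nd : Nd Q
  d5 : 5 ≤ finrank F V
  le : M ≤ O Q
  bnd : ∀ i, NdOn Q (Vb i)
  orth : ∀ i j, i ≠ j → Vb j ≤ perp Q (Vb i)
  span : ∀ x, (∀ i, x ∈ perp Q (Vb i)) → x = 0
  two : ∀ i, 2 ≤ finrank F (Vb i)
  fix : ∀ g ∈ EO Q, (∀ i, ∀ v ∈ Vb i, g v ∈ Vb i) → g ∈ M

/-- block vectors -/
def Bv (Vb : ι → Submodule F V) (x : V) : Prop := ∃ i, x ∈ Vb i

/-- permuting the blocks -/
def Pm (Vb : ι → Submodule F V) (g : V ≃ₗ[F] V) : Prop := ∀ j, ∃ l, ∀ v ∈ Vb j, g v ∈ Vb l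

/-- swaps of blocks -/
def Sw (Q : QuadraticForm F V) (M : Subgroup (V ≃ₗ[F] V)) (Vb : ι → Submodule F V) : Prop :=
  ∀ i j l, i ≠ j → i ≠ l → j ≠ l → ∃ s ∈ M, (∀ v ∈ Vb j, s v ∈ Vb l) ∧ (∀ v ∈ Vb l, s v ∈ Vb j) ∧
    ∀ v, v ∈ perp Q (Vb j) → v ∈ perp Q (Vb l) → s v = v

/-- the reflection class of the block vectors -/
def In (Q : QuadraticForm F V) (M : Subgroup (V ≃ₗ[F] V)) (Vb : ι → Submodule F V) (x : V) :
    Prop := Q x ≠ 0 ∧ ∃ a, Bv Vb a ∧ Q a = Q x ∧ refl Q x * refl Q a ∈ M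

variable {M : Subgroup (V ≃ₗ[F] V)} {Vb : ι → Submodule F V}

lemma Pm.bv {g : V ≃ₗ[F] V} (h : Pm Vb g) {a : V} (ha : Bv Vb a) : Bv Vb (g a) := by
  obtain ⟨i, hi⟩ := ha
  obtain ⟨l, hl⟩ := h i
  exact ⟨l, hl a hi⟩

lemma Pm.mul {g h : V ≃ₗ[F] V} (hg : Pm Vb g) (hh : Pm Vb h) : Pm Vb (g * h) := fun j => by
  obtain ⟨l, hl⟩ := hh j
  obtain ⟨m, hm⟩ := hg l
  exact ⟨m, fun v hv => hm _ (hl v hv)⟩

lemma pm_of_fix {g : V ≃ₗ[F] V} (h : ∀ i, ∀ v ∈ Vb i, g v ∈ Vb i) : Pm Vb g := fun j => ⟨j, h j⟩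

namespace Dc

variable [FiniteDimensional F V] (D : Dc Q M Vb)
include D

/-- the orthogonal projection onto a block -/
noncomputable def pr (i : ι) : V →ₗ[F] V :=
  (Vb i).subtype ∘ₗ (Vb i).projectionOnto _ (D.bnd i).isCompl

lemma pr_mem (i : ι) (x : V) : D.pr i x ∈ Vb i := Subtype.property _

lemma pr_of_mem {i : ι} {x : V} (hx : x ∈ Vb i) : D.pr i x = x := by
  have := Submodule.projectionOnto_apply_left (D.bnd i).isCompl ⟨x, hx⟩
  simp only [pr, LinearMap.comp_apply]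
  rw [this]; rfl

lemma pr_of_perp {i : ι} {x : V} (hx : x ∈ perp Q (Vb i)) : D.pr i x = 0 := by
  have := Submodule.projectionOnto_apply_right (D.bnd i).isCompl ⟨x, hx⟩
  simp only [pr, LinearMap.comp_apply]
  rw [this]; rfl

lemma pr_of_ne {i j : ι} (h : i ≠ j) {x : V} (hx : x ∈ Vb j) : D.pr i x = 0 :=
  D.pr_of_perp (D.orth i j h hx)

lemma sub_pr (i : ι) (x : V) : x - D.pr i x ∈ perp Q (Vb i) := by
  obtain ⟨a, ha, b, hb, rfl⟩ := (D.bnd i).exists_decomp x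
  rw [map_add, D.pr_of_mem ha, D.pr_of_perp hb]
  simpa using hb

lemma perp_of_pr {i : ι} {x : V} (hx : D.pr i x = 0) : x ∈ perp Q (Vb i) := by
  simpa [hx] using D.sub_pr i x

lemma B_pr {i : ι} {a : V} (ha : a ∈ Vb i) (x : V) : B Q a (D.pr i x) = B Q a x := by
  have := D.sub_pr i x a ha
  rw [map_sub, sub_eq_zero] at this; exact this.symm

lemma B_of_ne {i j : ι} (h : i ≠ j) {a b : V} (ha : a ∈ Vb i) (hb : b ∈ Vb j) : B Q a b = 0 :=
  D.orth i j h hb a ha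

lemma eq_of_mem {i j : ι} {a : V} (ha : a ∈ Vb i) (hb : a ∈ Vb j) (h0 : a ≠ 0) : i = j := by
  by_contra h
  exact h0 (by rw [← D.pr_of_mem ha, D.pr_of_ne h hb])

lemma exists_pr_ne {x : V} (hx : x ≠ 0) : ∃ i, D.pr i x ≠ 0 := by
  by_contra h; push Not at h
  exact hx (D.span x fun i => D.perp_of_pr (h i))

lemma mem_of_pr [Finite ι] {T : Submodule F V} {x : V} (h : ∀ i, D.pr i x ∈ T) : x ∈ T := by
  classical
  have := Fintype.ofFinite ι
  have : x - ∑ i, D.pr i x = 0 := D.span _ fun j => D.perp_of_pr (by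
    rw [map_sub, map_sum, Finset.sum_eq_single j (fun i _ hi => D.pr_of_ne hi.symm (D.pr_mem i x))
      (by simp), D.pr_of_mem (D.pr_mem j x), sub_self])
  rw [sub_eq_zero] at this
  rw [this]
  exact T.sum_mem fun i _ => h i

lemma mem_of_pr_zero [Finite ι] {i : ι} {x : V} (h : ∀ j, j ≠ i → D.pr j x = 0) : x ∈ Vb i :=
  D.mem_of_pr fun j => by
    by_cases hj : j = i
    · rw [hj]; exact D.pr_mem i x
    · rw [h j hj]; exact zero_mem _

lemma exists_pr_nonsing [Finite ι] {x : V} (hx : Q x ≠ 0) : ∃ i, Q (D.pr i x) ≠ 0 := by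
  by_contra h; push Not at h
  apply hx
  refine ts_span (S := Set.range fun i => D.pr i x) ?_ ?_ x
    (D.mem_of_pr fun i => Submodule.subset_span ⟨i, rfl⟩)
  · rintro _ ⟨i, rfl⟩; exact h i
  · rintro _ ⟨i, rfl⟩ _ ⟨j, rfl⟩
    by_cases hij : i = j
    · rw [hij]; exact B_self_of_sing Q (h j)
    · exact D.B_of_ne hij (D.pr_mem i x) (D.pr_mem j x)

/-- a non-block vector has a second non-zero component -/
lemma exists_pr_ne' [Finite ι] {x : V} {i : ι} (hx : x ∉ Vb i) : ∃ j, j ≠ i ∧ D.pr j x ≠ 0 := by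
  by_contra h; push Not at h
  exact hx (D.mem_of_pr_zero h)

lemma pr_comm {g : V ≃ₗ[F] V} (hg : g ∈ O Q) {i : ι} (h : ∀ v ∈ Vb i, g v ∈ Vb i) (x : V) :
    D.pr i (g x) = g (D.pr i x) := by
  have h1 : g x = g (D.pr i x) + g (x - D.pr i x) := by rw [← map_add]; simp
  rw [h1, map_add, D.pr_of_mem (h _ (D.pr_mem i x)),
    D.pr_of_perp (perp_stable hg h _ (D.sub_pr i x)), add_zero]

lemma refl_fix {a : V} (ha : Bv Vb a) : ∀ i, ∀ v ∈ Vb i, refl Q a v ∈ Vb i := by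
  obtain ⟨j, hj⟩ := ha
  intro i v hv
  by_cases h : j = i
  · exact refl_mem (h ▸ hj) hv
  · rwa [refl_of_perp (D.B_of_ne h hj hv)]

lemma eich_fix {j : ι} {u w : V} (hu : u ∈ Vb j) (hw : w ∈ Vb j) :
    ∀ i, ∀ v ∈ Vb i, eich Q u w v ∈ Vb i := by
  intro i v hv
  by_cases h : j = i
  · exact EU_mem (eich_mem_EU (h ▸ hu) (h ▸ hw)) hv
  · rwa [eich_apply_of_perp (D.B_of_ne h hu hv) (D.B_of_ne h hw hv)]

lemma eich_mem {j : ι} {u w : V} (hu : u ∈ Vb j) (hw : w ∈ Vb j) : eich Q u w ∈ M :=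
  D.fix _ (eich_mem_EO u w) (D.eich_fix hu hw)

lemma pm_of_sw {j l : ι} {s : V ≃ₗ[F] V} (h1 : ∀ v ∈ Vb j, s v ∈ Vb l) (h2 : ∀ v ∈ Vb l, s v ∈ Vb j)
    (h3 : ∀ v, v ∈ perp Q (Vb j) → v ∈ perp Q (Vb l) → s v = v) : Pm Vb s := by
  intro i
  by_cases hj : i = j
  · exact ⟨l, hj ▸ h1⟩
  by_cases hl : i = l
  · exact ⟨j, hl ▸ h2⟩
  exact ⟨i, fun v hv => by
    rwa [h3 v (D.orth j i (Ne.symm hj) hv) (D.orth l i (Ne.symm hl) hv)]⟩

variable [Finite F]

lemma exists_val (i : ι) (c : F) : ∃ a ∈ Vb i, Q a = c :=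
  (D.bnd i).exists_Q_eq le_rfl (by have := D.two i; omega) c

lemma rr_mem {a b : V} (ha : Bv Vb a) (hb : Bv Vb b) {c : F} (hc : c ≠ 0)
    (hq : Q a = c * c * Q b) : refl Q a * refl Q b ∈ M :=
  D.fix _ (D.nd.refl_mul_refl_mem_EO' D.d5 hc hq) fun i v hv =>
    D.refl_fix ha i _ (D.refl_fix hb i v hv)

lemma rr_mem1 {a b : V} (ha : Bv Vb a) (hb : Bv Vb b) (hq : Q a = Q b) :
    refl Q a * refl Q b ∈ M := D.rr_mem ha hb one_ne_zero (by simpa using hq)

omit [Finite F] [FiniteDimensional F V] D in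
lemma in_of_bv {a : V} (ha : Bv Vb a) (hq : Q a ≠ 0) : In Q M Vb a :=
  ⟨hq, a, ha, rfl, by rw [refl_mul_self]; exact one_mem _⟩

lemma in_rr {x y : V} (hx : In Q M Vb x) (hy : In Q M Vb y) (hq : Q x = Q y) :
    refl Q x * refl Q y ∈ M := by
  obtain ⟨-, a, ha, hqa, h1⟩ := hx
  obtain ⟨-, b, hb, hqb, h2⟩ := hy
  have := mul_mem (mul_mem h1 (D.rr_mem1 ha hb (by rw [hqa, hqb, hq]))) (inv_mem h2)
  rw [mul_inv_rev, refl_inv, refl_inv] at this
  convert this using 1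
  rw [mul_assoc, mul_assoc, ← mul_assoc (refl Q a), ← mul_assoc (refl Q a), refl_mul_self, one_mul,
    ← mul_assoc (refl Q b), refl_mul_self, one_mul]

omit [Finite F] [FiniteDimensional F V] D in
lemma in_of_rr {x y : V} (hy : In Q M Vb y) (hq : Q x = Q y) (h : refl Q x * refl Q y ∈ M) :
    In Q M Vb x := by
  obtain ⟨h0, b, hb, hqb, h2⟩ := hy
  refine ⟨hq ▸ h0, b, hb, by rw [hqb, hq], ?_⟩
  have := mul_mem h h2
  rwa [mul_assoc, ← mul_assoc (refl Q y), refl_mul_self, one_mul] at this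

lemma in_map {g : V ≃ₗ[F] V} (hg : g ∈ M) {a x : V} (ha : Bv Vb a) (hga : Bv Vb (g a))
    (hq : Q a = Q x) (hx : In Q M Vb x) : In Q M Vb (g x) := by
  have h1 := D.in_rr hx (in_of_bv ha (hq ▸ hx.1)) hq.symm
  have h2 := mul_mem (mul_mem hg h1) (inv_mem hg)
  refine in_of_rr (in_of_bv hga (by rw [D.le hg, hq]; exact hx.1))
    (by rw [D.le hg, D.le hg, hq]) ?_
  rw [← conj_refl (D.le hg), ← conj_refl (D.le hg)]
  convert h2 using 1; group

lemma in_pm {g : V ≃ₗ[F] V} (hg : g ∈ M) (hp : Pm Vb g) {x : V} (hx : In Q M Vb x) :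
    In Q M Vb (g x) := by
  obtain ⟨a, ha, hqa, -⟩ := hx.2
  exact D.in_map hg ha (hp.bv ha) hqa hx

lemma in_fix {g : V ≃ₗ[F] V} (hg : g ∈ EO Q) (hp : ∀ i, ∀ v ∈ Vb i, g v ∈ Vb i) {x : V}
    (hx : In Q M Vb x) : In Q M Vb (g x) := D.in_pm (D.fix g hg hp) (pm_of_fix hp) hx

lemma in_refl {x y : V} (hy : In Q M Vb y) (hx : In Q M Vb x) (hq : Q x = Q y) :
    In Q M Vb (refl Q y x) := by
  refine in_of_rr hy (by rw [refl_mem_O, hq]) ?_
  rw [← conj_refl (refl_mem_O Q y), refl_inv, mul_assoc, refl_mul_self, mul_one]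
  exact D.in_rr hy hx hq.symm

lemma in_refl' {y a b a' : V} (hy : In Q M Vb y) (ha : Bv Vb a) (ha0 : Q a ≠ 0) (hb : Bv Vb b)
    (hqb : Q b = Q y) (hba : B Q b a = 0) (ha' : Bv Vb a') (hqa : Q a' = Q a)
    (hya : B Q y a' = 0) : In Q M Vb (refl Q y a) := by
  have hg := D.in_rr hy (in_of_bv hb (hqb ▸ hy.1)) hqb.symm
  have := D.in_map hg (a := refl Q b a') (x := a) ((pm_of_fix (D.refl_fix hb)).bv ha')
    (by rwa [mul_app, refl_refl, refl_of_perp hya]) (by rw [refl_mem_O, hqa]) (in_of_bv ha ha0)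
  rwa [mul_app, refl_of_perp hba] at this

lemma AU_of_in {x u : V} (hx : In Q M Vb x) (hu : Q u = 0) (hux : B Q u x = 0)
    (h : In Q M Vb (x + u)) : -(Q x)⁻¹ • x ∈ AU Q M u := by
  refine ⟨by simp [hux], ?_⟩
  rw [← refl_add_mul_refl hx.1 hu hux]
  exact D.in_rr h hx (by rw [Q_add, hu, B_comm, hux]; ring)

end Dc

/-- the lines contained in `A_e` -/
def TL (Q : QuadraticForm F V) (M : Subgroup (V ≃ₗ[F] V)) (e : V) : Submodule F V where
  carrier := {b | ∀ κ : F, κ • b ∈ AU Q M e}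
  add_mem' {a b} ha hb κ := by rw [smul_add]; exact add_mem (ha κ) (hb κ)
  zero_mem' κ := by rw [smul_zero]; exact zero_mem _
  smul_mem' c b hb κ := by rw [smul_smul]; exact hb _

lemma TL.mem_AU {e b : V} (h : b ∈ TL Q M e) : b ∈ AU Q M e := by simpa using h 1

lemma TL.fix (hM : M ≤ O Q) {g : V ≃ₗ[F] V} (hg : g ∈ M) {e b : V} (he : g e = e)
    (h : b ∈ TL Q M e) : g b ∈ TL Q M e := fun κ => by
  rw [← map_smul]; exact AU_fix hM hg he (h κ)

namespace Dc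

variable [FiniteDimensional F V] [Finite F] [Finite ι] (D : Dc Q M Vb)
include D

/-- Step A for blocks of dimension at least three. -/
theorem A1 (hS : Sw Q M Vb) {i : ι} {e y : V} (he : e ∈ Vb i) (he0 : e ≠ 0) (hq : Q e = 0)
    (hy : In Q M Vb y) (hey : B Q e y = 0) (hyi : D.pr i y ∉ F ∙ e) (hyn : y ∉ Vb i)
    (h3 : ∀ j, 3 ≤ finrank F (Vb j))
    (adj : ∀ j, j ≠ i → ∀ c : F, c ≠ 0 → ∃ a, Bv Vb a ∧ Q a = c ∧ B Q a e = 0 ∧
      a ∈ perp Q (Vb j)) : EO Q ≤ M := by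
  obtain ⟨w, ⟨hw, hew⟩, hwy⟩ := (D.bnd i).exists_perp_B_ne
    ((Submodule.span_singleton_le_iff_mem _ _).2 he) (D.pr_mem i y) hyi
  replace hew := mem_perp_span_singleton.1 hew
  rw [B_comm, D.B_pr hw] at hwy
  have hin : ∀ w ∈ Vb i, B Q e w = 0 → w ∈ TL Q M e := fun w hw hew κ =>
    ⟨by simp [hew], D.eich_mem he (Submodule.smul_mem _ _ hw)⟩
  have h1 : y ∈ TL Q M e := by
    intro κ
    by_cases hκ : κ = 0
    · rw [hκ, zero_smul]; exact zero_mem _
    have h2 := D.in_fix (eich_mem_EO e ((κ * Q y * (B Q w y)⁻¹) • w))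
      (D.eich_fix he (Submodule.smul_mem _ _ hw)) hy
    rw [eich_apply_of_perp_left hq (by simp [hew]) hey, sub_eq_add_neg, ← neg_smul] at h2
    have h4 := D.AU_of_in hy (by rw [Q_smul, hq, mul_zero]) (by simp [hey]) h2
    rw [AU_smul hq (by simp [hκ, hy.1, hwy]), smul_smul] at h4
    convert h4 using 2
    have := hy.1
    simp only [map_smul, LinearMap.smul_apply, smul_eq_mul]; field_simp
  have h2 : y - D.pr i y ∈ TL Q M e :=
    sub_mem h1 (hin _ (D.pr_mem i y) (by rw [D.B_pr he, hey]))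
  obtain ⟨j, hji, hj⟩ := D.exists_pr_ne' hyn
  set b := y - D.pr i y with hb
  have hbj : ∃ x ∈ Vb j, B Q b x ≠ 0 := by
    obtain ⟨x, hx, h⟩ := (D.bnd j).exists_B_ne (D.pr_mem j y) hj
    refine ⟨x, hx, ?_⟩
    rw [hb, map_sub, LinearMap.sub_apply, D.B_of_ne hji.symm (D.pr_mem i y) hx, sub_zero, B_comm,
      ← D.B_pr hx, B_comm]
    exact h
  have hEfix : ∀ u ∈ Vb j, ∀ w ∈ Vb j, eich Q u w e = e := fun u hu w hw =>
    eich_apply_of_perp (D.B_of_ne hji hu he) (D.B_of_ne hji hw he)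
  have hj1 : Vb j ≤ TL Q M e := by
    have h4 := h3 j
    obtain ⟨u, hu, hu0, hub⟩ := (D.bnd j).exists_sing_apply_ne le_rfl (by omega) (B Q b) hbj
    have h5 := finrank_inf_perp_ge (Q := Q) (Vb j) (F ∙ u)
    have h6 := finrank_span_singleton_le (F := F) u
    obtain ⟨w, ⟨hw, huw⟩, hwu⟩ := exists_mem_notMem_of_finrank_lt
      (H := Vb j ⊓ perp Q (F ∙ u)) (X := F ∙ u) (by omega)
    replace huw := mem_perp_span_singleton.1 huw
    refine ((D.bnd j).irred (A := TL Q M e ⊓ Vb j) inf_le_right ?_ ?_ ?_).elim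
      (fun h => h ▸ inf_le_left) (fun h => by omega)
    · rw [Submodule.ne_bot_iff]
      refine ⟨eich Q u w b - b, ⟨sub_mem (TL.fix D.le (D.eich_mem hu hw) (hEfix u hu w hw) h2) h2,
        EU_sub_mem (eich_mem_EU hu hw) b⟩, fun h => hwu ?_⟩
      rw [eich_apply hu0 huw] at h
      rw [B_comm] at hub
      refine Submodule.mem_span_singleton.2 ⟨(B Q u b)⁻¹ * (B Q w b + Q w * B Q u b), ?_⟩
      rw [mul_smul, ← show B Q u b • w = (B Q w b + Q w * B Q u b) • u by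
        rw [← sub_eq_zero, ← h]; abel, smul_smul, inv_mul_cancel₀ hub, one_smul]
    · intro a ha c hc
      by_cases ha0 : Q a = 0
      · rw [refl_of_sing ha0]; exact hc
      obtain ⟨a', ha', hqa, hae, haj⟩ := adj j hji _ ha0
      have := TL.fix D.le (D.rr_mem1 ⟨j, ha⟩ ha' hqa.symm) (by
        rw [mul_app, refl_of_perp hae, refl_of_perp (D.B_of_ne hji ha he)]) hc.1
      rw [mul_app, refl_of_perp (x := c) (by rw [B_comm]; exact haj c hc.2)] at this
      exact ⟨this, refl_mem ha hc.2⟩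
    · intro u hu w hw c hc
      exact ⟨TL.fix D.le (D.eich_mem hu hw) (hEfix u hu w hw) hc.1, D.eich_fix hu hw j c hc.2⟩
  have hfull : Full Q M e := by
    intro x hx
    refine (TL.mem_AU (D.mem_of_pr fun l => ?_)).2
    by_cases hl : l = i
    · rw [hl]; exact hin _ (D.pr_mem i x) (by rw [D.B_pr he, hx])
    by_cases hl' : l = j
    · rw [hl']; exact hj1 (D.pr_mem j x)
    obtain ⟨s, hs, -, hs2, hs3⟩ := hS i j l hji.symm (Ne.symm hl) (Ne.symm hl')
    have hse : s e = e := hs3 e (D.orth j i hji he) (D.orth l i hl he)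
    have := TL.fix D.le (inv_mem hs) (by rw [← hse, inv_apply_apply, hse])
      (hj1 (hs2 _ (D.pr_mem l x)))
    simpa using this
  obtain ⟨f, hf, hf0, hef⟩ := exists_partner he hq ((D.bnd i).exists_B_ne he he0)
  obtain ⟨a, ha, hqa⟩ := D.exists_val j 1
  have hQ1 : Q (e + f) = 1 := by rw [Q_add, hq, hf0, hef]; ring
  refine EO_le_of_full_of_move D.nd D.d5 D.le hq hfull
    (D.rr_mem1 ⟨i, add_mem he hf⟩ ⟨j, ha⟩ (by rw [hQ1, hqa])) ?_
  rw [mul_app, refl_of_perp (D.B_of_ne hji ha he), refl_apply, hQ1]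
  simp [B_self_of_sing Q hq, B_comm Q f e, hef]

/-- the reflection trick producing the hypotheses of `A1` -/
theorem trick {i j : ι} (hij : j ≠ i) {x e z a' : V} (hx : In Q M Vb x) (hxn : x ∉ Vb i)
    (he : e ∈ Vb i) (hq : Q e = 0) (hb : B Q e x ≠ 0) (hz : z ∈ Vb i) (hz0 : Q z ≠ 0)
    (hez : B Q e z = 0) (hxz : B Q x z = 0)
    (ha : B Q e x * B Q e x * (Q x - Q (D.pr i x)) + Q z ≠ 0) (ha' : Bv Vb a')
    (hqa : Q a' = B Q e x * B Q e x * (Q x - Q (D.pr i x)) + Q z) (hxa : B Q x a' = 0) :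
    ∃ y, In Q M Vb y ∧ B Q e y = 0 ∧ D.pr i y ∉ F ∙ e ∧ y ∉ Vb i := by
  set x1 := D.pr i x with hx1
  have hx1m : x1 ∈ Vb i := D.pr_mem i x
  set a := (Q x - 2 * Q x1) • e + B Q e x • x1 + z with hadef
  have ham : a ∈ Vb i := add_mem (add_mem (Submodule.smul_mem _ _ he)
    (Submodule.smul_mem _ _ hx1m)) hz
  have e1 : B Q e x1 = B Q e x := D.B_pr he x
  have e2 : B Q x1 z = 0 := by rw [B_comm, D.B_pr hz, B_comm, hxz]
  have e3 : B Q x x1 = 2 * Q x1 := by rw [B_comm, ← D.B_pr hx1m, B_self]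
  have hQa : Q a = B Q e x * B Q e x * (Q x - Q x1) + Q z := by
    simp only [hadef, Q_add, Q_smul, hq, map_add, map_smul, LinearMap.add_apply,
      LinearMap.smul_apply, smul_eq_mul, e1, e2, hez]
    ring
  obtain ⟨b, hbm, hqb⟩ := D.exists_val j (Q x)
  have h1 := D.in_refl' hx ⟨i, ham⟩ (hQa ▸ ha) ⟨j, hbm⟩ hqb (D.B_of_ne hij hbm ham) ha'
    (hqa.trans hQa.symm) hxa
  have h2 : refl Q x a = (Q x - 2 * Q x1) • e + z - B Q e x • (x - x1) := by
    have : (Q x)⁻¹ * B Q x a = B Q e x := by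
      simp only [hadef, map_add, map_smul, smul_eq_mul, e3, hxz, B_comm Q x e]
      have := hx.1
      field_simp; ring
    rw [refl_apply, this, hadef]; module
  have h3 : D.pr i (refl Q x a) = (Q x - 2 * Q x1) • e + z := by
    rw [h2, map_sub, map_smul, D.pr_of_perp (D.sub_pr i x), smul_zero, sub_zero,
      D.pr_of_mem (add_mem (Submodule.smul_mem _ _ he) hz)]
  refine ⟨_, h1, ?_, ?_, ?_⟩
  · rw [← D.B_pr he, h3]; simp [B_self_of_sing Q hq, hez]
  · rw [h3]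
    intro h
    have h4 : z ∈ F ∙ e := by
      simpa using sub_mem h (Submodule.smul_mem _ (Q x - 2 * Q x1)
        (Submodule.mem_span_singleton_self e))
    obtain ⟨c, rfl⟩ := Submodule.mem_span_singleton.1 h4
    exact hz0 (by rw [Q_smul, hq, mul_zero])
  · intro h
    rw [D.pr_of_mem h, h2, sub_eq_self, smul_eq_zero, sub_eq_zero] at h3
    rcases h3 with h3 | h3
    · exact hb h3
    · exact hxn (h3 ▸ hx1m)

end Dc

end Cfsg.Agent.Orth
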