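import Cfsg.Agent.Orth.C2a

/-! Orthogonal decompositions: connectedness of the vectors of given norm in a block. -/

set_option autoImplicit false

namespace Cfsg.Agent.Orth

open Module

variable {F V : Type*} [Field F] [AddCommGroup V] [Module F V] {Q : QuadraticForm F V}
  [FiniteDimensional F V]

lemma two_le_finrank_of {S : Submodule F V} {p p' : V} (hp : p ∈ S) (hp' : p' ∈ S) (h0 : p ≠ 0)
    (h : p' ∉ F ∙ p) : 2 ≤ finrank F S := by
  have h1 : (F ∙ p) < S := lt_of_le_of_ne ((Submodule.span_singleton_le_iff_mem _ _).2 hp)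
    (fun h' => h (h' ▸ hp'))
  have := Submodule.finrank_lt_finrank_of_lt h1
  rw [finrank_span_singleton h0] at this; omega

lemma finrank_pair {p p' : V} (h0 : p ≠ 0) (h : p' ∉ F ∙ p) :
    finrank F (Submodule.span F ({p, p'} : Set V)) = 2 :=
  le_antisymm (finrank_span_pair_le p p') (two_le_finrank_of (Submodule.subset_span (by simp))
    (Submodule.subset_span (by simp)) h0 h)

lemma plane_le {P S : Submodule F V} (hd : finrank F P = 2) {p p' : V} (hp : p ∈ P) (hp' : p' ∈ P)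
    (h0 : p ≠ 0) (h : p' ∉ F ∙ p) (hs : p ∈ S) (hs' : p' ∈ S) : P ≤ S := by
  have h1 : P ⊓ S = P := Submodule.eq_of_le_of_finrank_le inf_le_left
    (hd ▸ two_le_finrank_of ⟨hp, hs⟩ ⟨hp', hs'⟩ h0 h)
  exact h1 ▸ inf_le_right

lemma plane_coord {P : Submodule F V} (hd : finrank F P = 2) {p p' : V} (hp : p ∈ P) (hp' : p' ∈ P)
    (h0 : p ≠ 0) (h : p' ∉ F ∙ p) {x : V} (hx : x ∈ P) : ∃ α β : F, α • p + β • p' = x :=
  Submodule.mem_span_pair.1 (plane_le hd hp hp' h0 h (Submodule.subset_span (by simp))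
    (Submodule.subset_span (by simp)) hx)

omit [FiniteDimensional F V] in
lemma ne_zero_of_Q {a : V} (h : Q a ≠ 0) : a ≠ 0 := by rintro rfl; exact h (map_zero Q)

omit [FiniteDimensional F V] in
lemma notMem_of_sing {a s : V} (ha : Q a ≠ 0) (hs : Q s = 0) : a ∉ F ∙ s := by
  intro h
  obtain ⟨c, rfl⟩ := Submodule.mem_span_singleton.1 h
  exact ha (by rw [Q_smul, hs, mul_zero])

omit [FiniteDimensional F V] in
lemma notMem_of_sing' {a s : V} (ha : Q a ≠ 0) (hs : Q s = 0) (hs0 : s ≠ 0) : s ∉ F ∙ a := by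
  intro h
  obtain ⟨c, rfl⟩ := Submodule.mem_span_singleton.1 h
  rw [Q_smul] at hs
  have : c = 0 := by simpa [ha] using hs
  simp [this] at hs0

omit [FiniteDimensional F V] in
lemma refl_notMem {v z : V} {k : F} (hz : z ∉ F ∙ v) (h1 : Q (z + k • v) ≠ 0)
    (h2 : B Q v (z + k • v) ≠ 0) : refl Q (z + k • v) v ∉ F ∙ v := by
  intro h
  have hv := Submodule.mem_span_singleton_self (R := F) v
  have h3 := sub_mem hv h
  rw [refl_apply, sub_sub_cancel, B_comm] at h3
  have h4 := Submodule.smul_mem _ ((Q (z + k • v))⁻¹ * B Q v (z + k • v))⁻¹ h3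
  rw [smul_smul, inv_mul_cancel₀ (mul_ne_zero (inv_ne_zero h1) h2), one_smul] at h4
  exact hz (by simpa using sub_mem h4 (Submodule.smul_mem _ k hv))

lemma NdOn.exists_second {P : Submodule F V} (hP : NdOn Q P) (hd : 2 ≤ finrank F P) {v : V}
    (hv : v ∈ P) (hq : Q v ≠ 0) : ∃ z ∈ P, z ∉ F ∙ v ∧ ¬ (B Q v z = 0 ∧ 2 * Q v = 0) := by
  by_cases h2 : 2 * Q v = 0
  · obtain ⟨z, hz, hne⟩ := hP.exists_B_ne hv (ne_zero_of_Q hq)
    refine ⟨z, hz, fun h => ?_, fun h => hne h.1⟩
    obtain ⟨c, rfl⟩ := Submodule.mem_span_singleton.1 h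
    exact hne (by rw [map_smul, B_self, h2, smul_zero])
  · have := finrank_span_singleton_le (F := F) v
    obtain ⟨z, hz, h⟩ := exists_mem_notMem_of_finrank_lt (H := P) (X := F ∙ v) (by omega)
    exact ⟨z, hz, h, fun h => h2 h.2⟩

omit [FiniteDimensional F V] in
lemma Q_line (v z : V) (k : F) : Q (z + k • v) = Q z + B Q v z * k + Q v * (k * k) := by
  rw [Q_add, Q_smul, map_smul, B_comm Q z v, smul_eq_mul]; ring

omit [FiniteDimensional F V] in
lemma B_line (v z : V) (k : F) : B Q v (z + k • v) = B Q v z + 2 * Q v * k := by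
  rw [map_add, map_smul, B_self, smul_eq_mul]; ring

variable [Finite F]

lemma NdOn.rot1 {P : Submodule F V} (hP : NdOn Q P) (hd : 2 ≤ finrank F P) (h4 : 4 ≤ Nat.card F)
    {v : V} (hv : v ∈ P) (hq : Q v ≠ 0) : ∃ b ∈ P, Q b = Q v ∧ b ∉ F ∙ v := by
  obtain ⟨z, hz, hzv, hne⟩ := hP.exists_second hd hv hq
  obtain ⟨k, hk⟩ := ((few_quad (a := Q z) (b := B Q v z) (c := Q v) (fun h => hq h.2.2)).or
    (few_lin hne)).exists_not (by omega)
  rw [not_or, ← Q_line, ← B_line] at hk
  exact ⟨_, refl_mem (add_mem hz (P.smul_mem k hv)) hv, refl_mem_O Q _ v,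
    refl_notMem hzv hk.1 hk.2⟩

/-- enough rotations in a plane -/
def Rot (Q : QuadraticForm F V) (P : Submodule F V) : Prop :=
  ∀ v ∈ P, Q v ≠ 0 → ∃ y ∈ P, Q y ≠ 0 ∧ B Q v (refl Q y v) ≠ 0 ∧ refl Q y v ∉ F ∙ v

omit [FiniteDimensional F V] in
lemma four_le_card (h2 : (2 : F) ≠ 0) (h3 : Nat.card F ≠ 3) : 4 ≤ Nat.card F := by
  have := Fintype.ofFinite F
  have h1 : 1 < Nat.card F := Finite.one_lt_card
  by_contra h
  have h4 : Fintype.card F = 2 := by rw [← Nat.card_eq_fintype_card]; omega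
  have := FiniteField.cast_card_eq_zero F
  rw [h4] at this
  exact h2 (by exact_mod_cast this)

lemma NdOn.rot {P : Submodule F V} (hP : NdOn Q P) (hd : 2 ≤ finrank F P)
    (h : 6 ≤ Nat.card F ∨ ((∀ v ∈ P, Q v = 0 → v = 0) ∧ Nat.card F ≠ 3)) : Rot Q P := by
  intro v hv hq
  obtain ⟨z, hz, hzv, hne⟩ := hP.exists_second hd hv hq
  have key : ∀ k : F, Q (z + k • v) ≠ 0 → B Q v z + 2 * Q v * k ≠ 0 →
      (2 * Q v * Q z - B Q v z * B Q v z) + (-(2 * Q v * B Q v z)) * k +
        (-(2 * Q v * Q v)) * (k * k) ≠ 0 →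
      ∃ y ∈ P, Q y ≠ 0 ∧ B Q v (refl Q y v) ≠ 0 ∧ refl Q y v ∉ F ∙ v := by
    intro k h1 h2 h3
    refine ⟨_, add_mem hz (P.smul_mem k hv), h1, fun h4 => h3 ?_,
      refl_notMem hzv h1 (by rwa [B_line])⟩
    rw [refl_apply, map_sub, map_smul, B_self, B_comm Q _ v, B_line, smul_eq_mul] at h4
    have h5 := Q_line (Q := Q) v z k
    field_simp at h4
    rw [h5] at h4
    linear_combination h4
  have f2 := few_lin hne
  have f3 := few_quad (a := 2 * Q v * Q z - B Q v z * B Q v z) (b := -(2 * Q v * B Q v z))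
    (c := -(2 * Q v * Q v)) (fun h => hne (by
      have h1 : 2 * Q v = 0 := by simpa [hq] using h.2.2
      exact ⟨by simpa [h1] using h.1, h1⟩))
  rcases h with h | ⟨h, h3⟩
  · obtain ⟨k, hk⟩ := ((few_quad (a := Q z) (b := B Q v z) (c := Q v) (fun h => hq h.2.2)).or
      (f2.or f3)).exists_not (by omega)
    rw [not_or, not_or, ← Q_line] at hk
    exact key k hk.1 hk.2.1 hk.2.2
  · have h0 : ∀ k : F, Q (z + k • v) ≠ 0 := fun k hk => hzv (by
      have := h _ (add_mem hz (P.smul_mem k hv)) hk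
      rw [eq_neg_of_add_eq_zero_left this]
      exact neg_mem (Submodule.smul_mem _ _ (Submodule.mem_span_singleton_self v)))
    by_cases h2 : (2 : F) = 0
    · have hb : B Q v z ≠ 0 := fun hb => hne ⟨hb, by simp [h2]⟩
      exact key 0 (h0 0) (by simpa using hb) (by simpa [h2] using hb)
    · obtain ⟨k, hk⟩ := (f2.or f3).exists_not (by have := four_le_card h2 h3; omega)
      rw [not_or] at hk
      exact key k (h0 k) hk.1 hk.2

lemma exists_two_norm {H : Submodule F V} (hd : 3 ≤ finrank F H) {a : V} (ha : a ∈ H)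
    (hq : Q a ≠ 0) : ∃ b ∈ H, Q b = Q a ∧ b ∉ F ∙ a := by
  obtain ⟨s, hs, hs0, hqs⟩ := exists_sing_of_three (Q := Q) H hd
  have hsa := notMem_of_sing' hq hqs hs0
  have haa := Submodule.mem_span_singleton_self (R := F) a
  by_cases hb : B Q s a = 0
  · refine ⟨a + s, add_mem ha hs, by rw [Q_add, hqs, B_comm, hb]; ring, fun h => hsa ?_⟩
    simpa using sub_mem h haa
  · have := finrank_span_pair_le (F := F) a s
    obtain ⟨z, hz, hzn⟩ := exists_mem_notMem_of_finrank_lt (H := H)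
      (X := Submodule.span F {a, s}) (by omega)
    set w := a + (z - (B Q s z * (B Q s a)⁻¹) • a) with hw
    have hsw : B Q s w = B Q s a := by
      simp only [hw, map_add, map_sub, map_smul, smul_eq_mul]; field_simp; ring
    refine ⟨w + ((Q a - Q w) * (B Q s a)⁻¹) • s, add_mem (add_mem ha (sub_mem hz
      (H.smul_mem _ ha))) (H.smul_mem _ hs), ?_, fun h => hzn ?_⟩
    · rw [Q_line, hsw, hqs]; field_simp; ring
    · obtain ⟨c, hc⟩ := Submodule.mem_span_singleton.1 h
      refine Submodule.mem_span_pair.2 ⟨c - 1 + B Q s z * (B Q s a)⁻¹,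
        -((Q a - Q w) * (B Q s a)⁻¹), ?_⟩
      rw [add_smul, sub_smul, hc]
      generalize (Q a - Q w) * (B Q s a)⁻¹ = t
      rw [hw]; module

/-- the vectors of norm `ν` of `W` are connected and span -/
def SGood (Q : QuadraticForm F V) (W : Submodule F V) : Prop :=
  ∀ ν, ν ≠ 0 → ∀ S ≤ W, (∃ a ∈ S, Q a = ν) →
    (∀ x ∈ W, Q x = ν → x ∈ S ∨ x ∈ perp Q S) → W ≤ S

omit [FiniteDimensional F V] [Finite F] in
lemma le_of_perp_le (h2 : (2 : F) ≠ 0) {W S : Submodule F V} {a : V} (haW : a ∈ W) (ha : a ∈ S)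
    (hq : Q a ≠ 0) (h : W ⊓ perp Q (F ∙ a) ≤ S) : W ≤ S := by
  intro w hw
  have := h (x := w - (B Q a w * (2 * Q a)⁻¹) • a) ⟨sub_mem hw (W.smul_mem _ haW),
    mem_perp_span_singleton.2 (by
      rw [map_sub, map_smul, B_self, smul_eq_mul]; field_simp; ring)⟩
  simpa using add_mem this (S.smul_mem (B Q a w * (2 * Q a)⁻¹) ha)

lemma NdOn.perp_nonsing (h2 : (2 : F) ≠ 0) {W : Submodule F V} (hW : NdOn Q W) {a : V}
    (ha : a ∈ W) (hq : Q a ≠ 0) : NdOn Q (W ⊓ Orth.perp Q (F ∙ a)) ∧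
      finrank F (W ⊓ Orth.perp Q (F ∙ a) : Submodule F V) + 1 = finrank F W := by
  have h1 := (Submodule.span_singleton_le_iff_mem _ _).2 ha
  refine ⟨hW.inf_perp (NdOn.span_singleton h2 hq) h1, ?_⟩
  rw [← hW.finrank_inf_perp h1, finrank_span_singleton (ne_zero_of_Q hq)]

lemma NdOn.sgood_odd (h2 : (2 : F) ≠ 0) {W : Submodule F V} (hW : NdOn Q W)
    (hd : 4 ≤ finrank F W ∨ (finrank F W = 3 ∧ 4 ≤ Nat.card F)) : SGood Q W := by
  rintro ν hν S hS ⟨a, ha, rfl⟩ hcov
  obtain ⟨hP, hPd⟩ := hW.perp_nonsing h2 (hS ha) hν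
  refine le_of_perp_le h2 (hS ha) ha hν ?_
  have key : ∀ α : F, α ≠ 0 → ∀ p ∈ W ⊓ Orth.perp Q (F ∙ a), Q p = (1 - α * α) * Q a → p ∈ S := by
    intro α hα p hp hq
    have hap := mem_perp_span_singleton.1 hp.2
    rcases hcov (p + α • a) (add_mem hp.1 (W.smul_mem _ (hS ha)))
      (by rw [Q_line, hap, hq]; ring) with h | h
    · simpa using sub_mem h (S.smul_mem α ha)
    · have := h a ha
      rw [B_line, hap] at this
      simp [h2, hν, hα] at this
  rcases hd with hd | ⟨hd, h4⟩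
  · by_contra h
    obtain ⟨e, he, he0, hen⟩ := hP.exists_sing_notMem le_rfl (by omega) h
    exact hen (key 1 one_ne_zero e he (by simp [he0]))
  · obtain ⟨α, hα, hα1⟩ := exists_ne_sq h4 (1 : F)
    obtain ⟨p, hp, hq⟩ := hP.exists_Q_eq le_rfl (by omega) ((1 - α * α) * Q a)
    have hp0 : Q p ≠ 0 := by rw [hq]; exact mul_ne_zero (sub_ne_zero.2 hα1.symm) hν
    obtain ⟨b, hb, hqb, hbn⟩ := hP.rot1 (by omega) h4 hp hp0
    exact plane_le (by omega) hp hb (ne_zero_of_Q hp0) hbn (key α hα p hp hq)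
      (key α hα b hb (hqb.trans hq))

omit [Finite F] in
lemma Rot.sgood {W : Submodule F V} (h : Rot Q W) (hd : finrank F W = 2) : SGood Q W := by
  rintro ν hν S hS ⟨a, ha, rfl⟩ hcov
  obtain ⟨y, hy, -, h1, h2⟩ := h a (hS ha) hν
  have h3 := refl_mem (Q := Q) hy (hS ha)
  refine plane_le hd (hS ha) h3 (ne_zero_of_Q hν) h2 ha ?_
  exact (hcov _ h3 (refl_mem_O Q y a)).resolve_right fun h => h1 (h a ha)

omit [FiniteDimensional F V] in
lemma exists_sq_of_two (h2 : (2 : F) = 0) (a : F) : ∃ c, a = c * c := by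
  have := Fintype.ofFinite F
  refine FiniteField.isSquare_of_char_two ?_ a
  have := (ringChar.spec F 2).1 (by exact_mod_cast h2)
  rcases (Nat.dvd_prime Nat.prime_two).1 this with h1 | h1
  · exact absurd h1 (CharP.ringChar_ne_one)
  · exact h1

lemma NdOn.sgood_even (h2 : (2 : F) = 0) {W : Submodule F V} (hW : NdOn Q W)
    (hd : 3 ≤ finrank F W)
    (hex : ¬ (Nat.card F = 2 ∧ finrank F W = 4 ∧ ∃ T ≤ W, TS Q T ∧ finrank F T = 2)) :
    SGood Q W := by
  rintro ν hν S hS ⟨a, ha, rfl⟩ hcov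
  by_contra hWS
  set T := W ⊓ Orth.perp Q S with hT
  have hdT : finrank F T + finrank F S = finrank F W := hW.finrank_inf_perp hS
  have hsing : ∀ x ∈ W, x ∉ S → x ∉ T → Q x = 0 := by
    intro x hx h1 h3
    by_contra h0
    obtain ⟨c, hc⟩ := exists_sq_of_two h2 (Q a * (Q x)⁻¹)
    have hc0 : c ≠ 0 := by
      rintro rfl
      simp [hν, h0] at hc
    rcases hcov (c • x) (W.smul_mem _ hx) (by rw [Q_smul, ← hc]; field_simp) with h | h
    · exact h1 ((S.smul_mem_iff hc0).1 h)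
    · exact h3 ⟨hx, ((Orth.perp Q S).smul_mem_iff hc0).1 h⟩
  have hST : S ⊔ T ≤ W := sup_le hS inf_le_left
  have h5 := Submodule.finrank_sup_add_finrank_inf_eq S T
  by_cases hc : W ≤ S ⊔ T
  · have h6 := Submodule.finrank_mono hc
    have h7 : S ⊓ T = ⊥ := Submodule.finrank_eq_zero.1 (by omega)
    have h8 : ∀ s ∈ S, s ∈ T → s = 0 := fun s h1 h3 => by
      have : s ∈ S ⊓ T := ⟨h1, h3⟩
      rwa [h7] at this
    have h9 : ∀ s ∈ S, ∀ t ∈ T, s ≠ 0 → t ≠ 0 → Q s + Q t = 0 := by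
      intro s hs t ht hs0 ht0
      have := hsing (s + t) (add_mem (hS hs) ht.1)
        (fun h => ht0 (h8 t (by simpa using sub_mem h hs) ht))
        (fun h => hs0 (h8 s hs (by simpa using sub_mem h ht)))
      rwa [Q_add, ht.2 s hs, add_zero] at this
    have ha0 := ne_zero_of_Q hν
    obtain ⟨t1, ht1, ht0⟩ : ∃ t ∈ T, t ≠ 0 := by
      rw [← Submodule.ne_bot_iff]
      intro h; rw [h, sup_bot_eq] at hc; exact hWS hc
    have hqT : ∀ t ∈ T, t ≠ 0 → Q t = - Q a := fun t ht h => by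
      linear_combination h9 a ha t ht ha0 h
    have hqS : ∀ s ∈ S, s ≠ 0 → Q s = Q a := fun s hs h => by
      linear_combination h9 s hs t1 ht1 h ht0 - hqT t1 ht1 ht0
    obtain ⟨s2, hs2, hb2⟩ : ∃ s ∈ S, B Q a s ≠ 0 := by
      by_contra h; push Not at h
      exact ha0 (h8 a ha ⟨hS ha, mem_perp'.2 h⟩)
    obtain ⟨t2, ht2, hb3⟩ : ∃ t ∈ T, B Q t1 t ≠ 0 := by
      by_contra h; push Not at h
      refine ht0 (hW t1 ht1.1 fun x hx => ?_)
      obtain ⟨s, hs, t, ht, rfl⟩ := Submodule.mem_sup.1 (hc hx)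
      rw [map_add, LinearMap.add_apply, ht1.2 s hs, B_comm, h t ht, add_zero]
    have hself : ∀ x : V, B Q x x = 0 := fun x => by rw [B_self, h2, zero_mul]
    have hni : ∀ x y : V, B Q x y ≠ 0 → y ∉ F ∙ x := fun x y h h' => by
      obtain ⟨c, rfl⟩ := Submodule.mem_span_singleton.1 h'
      simp [hself] at h
    have d1 := two_le_finrank_of ha hs2 ha0 (hni _ _ hb2)
    have d2 := two_le_finrank_of ht1 ht2 ht0 (hni _ _ hb3)
    have d3 : finrank F S ≤ 2 := by
      by_contra h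
      obtain ⟨s, hs, h1, h3⟩ := exists_sing_of_three (Q := Q) S (by omega)
      exact hν (by rw [← hqS s hs h1, h3])
    have d4 : finrank F T ≤ 2 := by
      by_contra h
      obtain ⟨s, hs, h1, h3⟩ := exists_sing_of_three (Q := Q) T (by omega)
      exact hν (by rw [← neg_eq_zero, ← hqT s hs h1, h3])
    have hs20 : s2 ≠ 0 := by rintro rfl; simp at hb2
    have ht20 : t2 ≠ 0 := by rintro rfl; simp at hb3
    have e1 : B Q a s2 = - Q a := by
      have := hqS (a + s2) (add_mem ha hs2) (fun h => hb2 (by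
        have := congrArg (B Q a) h; simpa [hself] using this))
      rw [Q_add, hqS s2 hs2 hs20] at this; linear_combination this
    have e2 : B Q t1 t2 = Q a := by
      have := hqT (t1 + t2) (add_mem ht1 ht2) (fun h => hb3 (by
        have := congrArg (B Q t1) h; simpa [hself] using this))
      rw [Q_add, hqT t2 ht2 ht20, hqT t1 ht1 ht0] at this; linear_combination this
    refine hex ⟨?_, by omega, Submodule.span F {a + t1, s2 + t2}, ?_, ?_, ?_⟩
    · rw [Nat.card_eq_two_iff' (0 : F)]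
      refine ⟨1, one_ne_zero, fun c hc => ?_⟩
      have := hqS (c • a) (S.smul_mem c ha) (smul_ne_zero hc ha0)
      rw [Q_smul] at this
      have h3 : (c - 1) * (c - 1) * Q a = 0 := by linear_combination this + (1 - c) * Q a * h2
      simpa [hν, sub_eq_zero] using h3
    · rw [Submodule.span_le]
      rintro _ (rfl | rfl)
      · exact add_mem (hS ha) ht1.1
      · exact add_mem (hS hs2) ht2.1
    · have e3 : B Q (a + t1) (s2 + t2) = 0 := by
        simp only [map_add, LinearMap.add_apply, e1, e2, ht2.2 a ha, B_comm Q t1 s2,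
          ht1.2 s2 hs2]; ring
      refine ts_span ?_ ?_
      · rintro _ (rfl | rfl)
        · rw [Q_add, ht1.2 a ha, add_zero, h9 a ha t1 ht1 ha0 ht0]
        · rw [Q_add, ht2.2 s2 hs2, add_zero, h9 s2 hs2 t2 ht2 hs20 ht20]
      · rintro _ (rfl | rfl) _ (rfl | rfl)
        · exact hself _
        · exact e3
        · rw [B_comm]; exact e3
        · exact hself _
    · refine finrank_pair (fun h => ha0 (h8 a ha ?_)) fun h => ?_
      · rw [eq_neg_of_add_eq_zero_left h]; exact neg_mem ht1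
      · obtain ⟨c, hc⟩ := Submodule.mem_span_singleton.1 h
        have := congrArg (B Q a) hc
        simp only [map_smul, map_add, hself, ht1.2 a ha, ht2.2 a ha] at this
        exact hb2 (by simpa using this.symm)
  · have hall : ∀ x ∈ W, x ∉ S ⊔ T → ∀ y ∈ S ⊔ T, Q y + B Q x y = 0 := by
      intro x hx hxn y hy
      have h1 := hsing x hx (fun h => hxn (Submodule.mem_sup_left h))
        (fun h => hxn (Submodule.mem_sup_right h))
      have h3 : x + y ∉ S ⊔ T := fun h => hxn (by simpa using sub_mem h hy)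
      have h4 := hsing (x + y) (add_mem hx (hST hy)) (fun h => h3 (Submodule.mem_sup_left h))
        (fun h => h3 (Submodule.mem_sup_right h))
      rwa [Q_add, h1, zero_add] at h4
    obtain ⟨x, hx, hxn⟩ := SetLike.not_le_iff_exists.1 hc
    have h6 := hW.ts_finrank_le hST (fun y hy y' hy' => by
      have h1 := hall x hx hxn _ (add_mem hy' hy)
      rw [Q_add, map_add] at h1
      linear_combination h1 - hall x hx hxn y hy - hall x hx hxn y' hy')
    have h7 := finrank_sup_le (S ⊔ T) (F ∙ x)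
    have h8 := finrank_span_singleton_le (F := F) x
    have h9 : finrank F S ≤ finrank F (S ⊔ T : Submodule F V) := Submodule.finrank_mono le_sup_left
    have h10 : finrank F T ≤ finrank F (S ⊔ T : Submodule F V) :=
      Submodule.finrank_mono le_sup_right
    obtain ⟨x', hx', hxn'⟩ := exists_mem_notMem_of_finrank_lt (H := W) (X := (S ⊔ T) ⊔ F ∙ x)
      (by omega)
    have haST : a ∈ S ⊔ T := Submodule.mem_sup_left ha
    have e1 := hall x hx hxn a haST
    have e2 := hall x' hx' (fun h => hxn' (Submodule.mem_sup_left h)) a haST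
    have e3 := hall (x + x') (add_mem hx hx') (fun h => hxn' (by
      simpa using sub_mem (Submodule.mem_sup_left (T := F ∙ x) h)
        (Submodule.mem_sup_right (Submodule.mem_span_singleton_self x)))) a haST
    rw [map_add, LinearMap.add_apply] at e3
    exact hν (by linear_combination e1 + e2 - e3)

end Cfsg.Agent.Orth
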