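import Cfsg.Agent.Orth.C2b

/-! Orthogonal decompositions with blocks of dimension at least three. -/

set_option autoImplicit false

namespace Cfsg.Agent.Orth

open Module

variable {F V : Type*} [Field F] [AddCommGroup V] [Module F V] {Q : QuadraticForm F V}
  {ι : Type*} {M : Subgroup (V ≃ₗ[F] V)} {Vb : ι → Submodule F V}

/-- isometries preserving the block vectors of a given norm permute the blocks -/
def B1 (Q : QuadraticForm F V) (Vb : ι → Submodule F V) : Prop :=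
  ∀ h ∈ O Q, ∀ ν : F, ν ≠ 0 → (∀ a, Bv Vb a → Q a = ν → Bv Vb (h a)) → Pm Vb h

lemma rr_sub_mem (a b x : V) :
    (refl Q a * refl Q b) x - x ∈ Submodule.span F ({a, b} : Set V) := by
  rw [mul_app, refl_apply, refl_apply Q b]
  generalize (Q a)⁻¹ * _ = s
  generalize (Q b)⁻¹ * _ = t
  exact Submodule.mem_span_pair.2 ⟨-s, -t, by module⟩

lemma rr_fix {a b x : V} (ha : B Q a x = 0) (hb : B Q b x = 0) : (refl Q a * refl Q b) x = x := by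
  rw [mul_app, refl_of_perp hb, refl_of_perp ha]

lemma conj_rr {g : V ≃ₗ[F] V} (hg : g ∈ O Q) (a b : V) :
    g * (refl Q a * refl Q b) * g⁻¹ = refl Q (g a) * refl Q (g b) := by
  rw [← conj_refl hg, ← conj_refl hg]; group

lemma exists_rr_sub [FiniteDimensional F V] (hQ : Nd Q) {a b : V} (hq : Q a ≠ 0)
    (hab : a ∉ F ∙ b) : ∃ x, (refl Q a * refl Q b) x - x = a := by
  obtain ⟨x, hx, hne⟩ := hQ.exists_perp_B_ne hab
  refine ⟨-(Q a * (B Q a x)⁻¹) • x, ?_⟩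
  rw [mul_app, refl_of_perp (a := b) (by simp [mem_perp_span_singleton.1 hx]), refl_apply, map_smul,
    smul_eq_mul, sub_sub_cancel_left, ← neg_smul]
  have : -((Q a)⁻¹ * (-(Q a * (B Q a x)⁻¹) * B Q a x)) = 1 := by field_simp
  rw [this, one_smul]

namespace Dc

variable [FiniteDimensional F V] [Finite F] (D : Dc Q M Vb)
include D

lemma map_of_sgood {j : ι} (hj : SGood Q (Vb j)) {h : V ≃ₗ[F] V} (hh : h ∈ O Q) {ν : F}
    (hν : ν ≠ 0) (hp : ∀ a, Bv Vb a → Q a = ν → Bv Vb (h a)) : ∃ l, ∀ v ∈ Vb j, h v ∈ Vb l := by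
  obtain ⟨a, ha, hq⟩ := D.exists_val j ν
  obtain ⟨l, hl⟩ := hp a ⟨j, ha⟩ hq
  refine ⟨l, fun v hv => (hj ν hν (Vb j ⊓ (Vb l).comap (h : V →ₗ[F] V)) inf_le_left
    ⟨a, ⟨ha, hl⟩, hq⟩ (fun x hx hqx => ?_) hv).2⟩
  obtain ⟨m, hm⟩ := hp x ⟨j, hx⟩ hqx
  by_cases hml : l = m
  · exact Or.inl ⟨hx, hml ▸ hm⟩
  · exact Or.inr fun u hu => by rw [← O_B hh]; exact D.B_of_ne hml hu.2 hm

lemma b1_of_sgood (h : ∀ j, SGood Q (Vb j)) : B1 Q Vb :=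
  fun _ hh _ hν hp j => D.map_of_sgood (h j) hh hν hp

lemma F0 (hA : ∀ x, In Q M Vb x → Bv Vb x) (hB : B1 Q Vb) {g : V ≃ₗ[F] V} (hg : g ∈ M) {a : V}
    (ha : Bv Vb a) (hq : Q a ≠ 0) (hga : Bv Vb (g a)) : Pm Vb g :=
  hB g (D.le hg) _ hq fun b hb hqb =>
    hA _ (D.in_map hg ha hga hqb.symm (in_of_bv hb (hqb ▸ hq)))

omit [Finite F] in
lemma pr_mem_pair {a b : V} (hq : Q a ≠ 0) (hab : a ∉ F ∙ b)
    (hf : ∀ i, ∀ v ∈ Vb i, (refl Q a * refl Q b) v ∈ Vb i) (i : ι) :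
    D.pr i a ∈ Submodule.span F ({a, b} : Set V) := by
  obtain ⟨x, hx⟩ := exists_rr_sub D.nd hq hab
  have := rr_sub_mem (Q := Q) a b (D.pr i x)
  rwa [← D.pr_comm (mul_mem (refl_mem_O Q a) (refl_mem_O Q b)) (hf i), ← map_sub, hx] at this

omit [Finite F] in
lemma fix_of_pm (h3 : ∀ j, 3 ≤ finrank F (Vb j)) {a b : V} (hp : Pm Vb (refl Q a * refl Q b)) :
    ∀ i, ∀ v ∈ Vb i, (refl Q a * refl Q b) v ∈ Vb i := by
  intro i
  obtain ⟨l, hl⟩ := hp i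
  have h1 := finrank_inf_perp_ge (Q := Q) (Vb i) (Submodule.span F {a, b})
  have h2 := finrank_span_pair_le (F := F) a b
  have h4 := h3 i
  obtain ⟨v, hv, hv0⟩ := exists_mem_notMem_of_finrank_lt
    (H := Vb i ⊓ perp Q (Submodule.span F {a, b})) (X := ⊥) (by rw [finrank_bot]; omega)
  have h5 := hl v hv.1
  rw [rr_fix (mem_perp_span.1 hv.2 a (by simp)) (mem_perp_span.1 hv.2 b (by simp))] at h5
  obtain rfl := D.eq_of_mem hv.1 h5 (by simpa using hv0)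
  exact hl

omit [Finite F] in
lemma indep_three {j l : ι} (hjl : j ≠ l) {a b c : V} (ha : a ∈ Vb j) (hb : b ∈ Vb j)
    (hc : c ∈ Vb l) (ha0 : a ≠ 0) (hba : b ∉ F ∙ a) (hc0 : c ≠ 0) (α β γ : F)
    (h : α • a + β • b + γ • c = 0) : α = 0 ∧ β = 0 ∧ γ = 0 := by
  have h1 := congrArg (D.pr l) h
  simp only [map_add, map_smul, D.pr_of_ne hjl.symm ha, D.pr_of_ne hjl.symm hb, D.pr_of_mem hc,
    smul_zero, zero_add, map_zero, smul_eq_zero, hc0, or_false] at h1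
  rw [h1, zero_smul, add_zero] at h
  have h2 : β = 0 := by
    by_contra hβ
    refine hba (Submodule.mem_span_singleton.2 ⟨-(β⁻¹ * α), ?_⟩)
    rw [neg_smul, mul_smul, eq_neg_of_add_eq_zero_left h, smul_neg, neg_neg, smul_smul,
      inv_mul_cancel₀ hβ, one_smul]
  rw [h2, zero_smul, add_zero] at h
  exact ⟨by simpa [ha0] using h, h2, h1⟩

variable [Finite ι]

theorem pm_of_three (h3 : ∀ j, 3 ≤ finrank F (Vb j)) (hA : ∀ x, In Q M Vb x → Bv Vb x)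
    (hB : B1 Q Vb) (i0 : ι)
    (hT : ∀ y, Q y ≠ 0 → ∃ j l, j ≠ l ∧ ∃ a ∈ Vb j, ∃ b ∈ Vb j, ∃ c ∈ Vb l, Q a ≠ 0 ∧
      Q b = Q a ∧ Q c = Q a ∧ b ∉ F ∙ a ∧ B Q a y = 0 ∧ B Q b y = 0 ∧ B Q c y = 0) :
    ∀ g ∈ M, Pm Vb g := by
  intro g hg
  have hgO := D.le hg
  obtain ⟨c0, hc0, hq0⟩ := D.exists_val i0 1
  obtain ⟨j, l, hjl, a, ha, b, hb, c, hc, hqa, hqb, hqc, hba, hay, hby, hcy⟩ :=
    hT (g c0) (by rw [hgO, hq0]; exact one_ne_zero)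
  have hind := D.indep_three hjl ha hb hc (ne_zero_of_Q hqa) hba (ne_zero_of_Q (hqc ▸ hqa))
  have hqa' : Q (g⁻¹ a) ≠ 0 := by rwa [O_Q (inv_mem hgO)]
  have key : ∀ b, Bv Vb b → Q b = Q a → B Q b (g c0) = 0 → a ∉ F ∙ b → ∀ i, ∃ α β : F,
      α • a + β • b = g (D.pr i (g⁻¹ a)) := by
    intro b hb hqb hby hab i
    have h1 := mul_mem (mul_mem (inv_mem hg) (D.rr_mem1 ⟨j, ha⟩ hb hqb.symm)) (inv_mem (inv_mem hg))
    rw [conj_rr (inv_mem hgO)] at h1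
    have h2 := D.F0 hA hB h1 ⟨i0, hc0⟩ (by rw [hq0]; exact one_ne_zero) (by
      rw [rr_fix (by rw [B_comm, ← O_B_inv hgO, B_comm, hay])
        (by rw [B_comm, ← O_B_inv hgO, B_comm, hby])]
      exact ⟨i0, hc0⟩)
    obtain ⟨α, β, h⟩ := Submodule.mem_span_pair.1 (D.pr_mem_pair hqa' (fun h => hab (by
      obtain ⟨c, hc⟩ := Submodule.mem_span_singleton.1 h
      exact Submodule.mem_span_singleton.2 ⟨c, by simpa using congrArg g hc⟩))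
      (D.fix_of_pm h3 h2) i)
    exact ⟨α, β, by rw [← h]; simp⟩
  obtain ⟨i, hi⟩ := D.exists_pr_ne (ne_zero_of_Q hqa')
  obtain ⟨α, β, h1⟩ := key b ⟨j, hb⟩ hqb hby (fun h => by
    obtain ⟨t, ht⟩ := Submodule.mem_span_singleton.1 h
    simpa using (hind (-1) t 0 (by rw [ht]; module)).1) i
  obtain ⟨α', γ, h2⟩ := key c ⟨l, hc⟩ hqc hcy (fun h => by
    obtain ⟨t, ht⟩ := Submodule.mem_span_singleton.1 h
    simpa using (hind (-1) 0 t (by rw [ht]; module)).1) i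
  have h4 := (hind (α - α') β (-γ) (by
    rw [← sub_eq_zero.2 (h1.trans h2.symm)]; module)).2.1
  rw [h4, zero_smul, add_zero] at h1
  have h5 : α • g⁻¹ a = D.pr i (g⁻¹ a) := by simpa using congrArg (fun x => g⁻¹ x) h1
  have hα : α ≠ 0 := by rintro rfl; exact hi (by rw [← h5, zero_smul])
  exact D.F0 hA hB hg ⟨i, ((Vb i).smul_mem_iff hα).1 (h5 ▸ D.pr_mem i _)⟩ hqa' ⟨j, by simpa using ha⟩

omit [Finite ι] in
lemma adj_four {i : ι} (h4 : 4 ≤ finrank F (Vb i)) (e : V) (j : ι) (hj : j ≠ i) (c : F) :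
    ∃ a, Bv Vb a ∧ Q a = c ∧ B Q a e = 0 ∧ a ∈ perp Q (Vb j) := by
  have h1 := finrank_inf_perp_ge (Q := Q) (Vb i) (F ∙ e)
  have h2 := finrank_span_singleton_le (F := F) e
  obtain ⟨a, ha, hq⟩ := (D.bnd i).exists_Q_eq (H := Vb i ⊓ perp Q (F ∙ e)) inf_le_left (by omega) c
  exact ⟨a, ⟨i, ha.1⟩, hq, by rw [B_comm]; exact mem_perp_span_singleton.1 ha.2, D.orth j i hj ha.1⟩

omit [Finite F] [Finite ι] in
lemma exists_nonsing_perp {l : ι} (h3 : 3 ≤ finrank F (Vb l)) (y : V) :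
    ∃ c ∈ Vb l, Q c ≠ 0 ∧ B Q c y = 0 := by
  have h1 := finrank_inf_perp_ge (Q := Q) (Vb l) (F ∙ y)
  have h2 := finrank_span_singleton_le (F := F) y
  obtain ⟨c, hc, hq⟩ := (D.bnd l).exists_nonsing (H := Vb l ⊓ perp Q (F ∙ y)) inf_le_left (by omega)
  exact ⟨c, hc.1, hq, by rw [B_comm]; exact mem_perp_span_singleton.1 hc.2⟩

omit [Finite F] [Finite ι] in
lemma perp_pair {i : ι} {e x : V} (he : e ∈ Vb i) (hq : Q e = 0) (hb : B Q e x ≠ 0) :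
    ∃ Z ≤ Vb i, NdOn Q Z ∧ finrank F (Vb i) ≤ finrank F Z + 2 ∧
      ∀ z ∈ Z, B Q e z = 0 ∧ B Q x z = 0 := by
  have h1 : Submodule.span F {e, D.pr i x} ≤ Vb i := by
    rw [Submodule.span_le]; rintro _ (rfl | rfl)
    · exact he
    · exact D.pr_mem i x
  have h2 := finrank_span_pair_le (F := F) e (D.pr i x)
  have h3 := (D.bnd i).finrank_inf_perp h1
  refine ⟨_, inf_le_left, (D.bnd i).inf_perp (ndOn_pair hq (by rwa [D.B_pr he])) h1, by omega,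
    fun z hz => ⟨mem_perp_span.1 hz.2 e (by simp), ?_⟩⟩
  rw [B_comm, ← D.B_pr hz.1, B_comm]
  exact mem_perp_span.1 hz.2 _ (by simp)

omit [Finite ι] in
lemma exists_sing_B_ne {i : ι} (h3 : 3 ≤ finrank F (Vb i)) {x : V} (hx : D.pr i x ≠ 0) :
    ∃ e ∈ Vb i, Q e = 0 ∧ B Q e x ≠ 0 := by
  obtain ⟨y, hy, hne⟩ := (D.bnd i).exists_B_ne (D.pr_mem i x) hx
  obtain ⟨e, he, hq, h⟩ := (D.bnd i).exists_sing_apply_ne le_rfl (by omega) (B Q x)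
    ⟨y, hy, by rwa [B_comm, ← D.B_pr hy, B_comm]⟩
  exact ⟨e, he, hq, by rwa [B_comm]⟩

theorem main_ge (hS : Sw Q M Vb) (h3 : ∀ j, 3 ≤ finrank F (Vb j)) (hB : B1 Q Vb) {j0 l0 : ι}
    (hjl : j0 ≠ l0) (h4 : 4 ≤ finrank F (Vb j0))
    (hA : (∀ j, 4 ≤ finrank F (Vb j)) ∨ (3 ≤ Nat.card F ∧ ∀ j, j ≠ l0 → j = j0)) :
    (∀ g ∈ M, Pm Vb g) ∨ EO Q ≤ M := by
  by_cases hE : EO Q ≤ M
  · exact Or.inr hE
  refine Or.inl (D.pm_of_three h3 (fun x hx => ?_) hB j0 fun y _ => ?_)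
  · by_contra hn
    apply hE
    have hn' : ∀ i, x ∉ Vb i := fun i h => hn ⟨i, h⟩
    rcases hA with hA | ⟨hq, hA⟩
    · obtain ⟨i, hi⟩ := D.exists_pr_nonsing hx.1
      have h1 := finrank_inf_perp_ge (Q := Q) (Vb i) (F ∙ x)
      have h2 := finrank_span_singleton_le (F := F) x
      have h5 := hA i
      obtain ⟨e, he, he0, hqe⟩ := exists_sing_of_three (Q := Q) (Vb i ⊓ perp Q (F ∙ x)) (by omega)
      exact D.A1 hS he.1 he0 hqe hx (by rw [B_comm]; exact mem_perp_span_singleton.1 he.2)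
        (notMem_of_sing hi hqe) (hn' i) h3 fun j hj c _ => D.adj_four h5 e j hj c
    · obtain ⟨i, hi, hxi⟩ := D.exists_pr_ne' (hn' l0)
      obtain rfl := hA i hi
      obtain ⟨e, he, hqe, hb⟩ := D.exists_sing_B_ne (h3 i) hxi
      obtain ⟨Z, hZ, hZn, hZd, hZp⟩ := D.perp_pair he hqe hb
      obtain ⟨ζ, hζ⟩ := ((few_zero (F := F)).or (few_lin (a := B Q e x * B Q e x *
        (Q x - Q (D.pr i x))) (b := 1) (by simp))).exists_not (by omega)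
      rw [not_or, one_mul] at hζ
      obtain ⟨z, hz, hqz⟩ := hZn.exists_Q_eq le_rfl (by omega) ζ
      obtain ⟨a', ha', hqa⟩ := hZn.exists_Q_eq le_rfl (by omega)
        (B Q e x * B Q e x * (Q x - Q (D.pr i x)) + Q z)
      obtain ⟨y, h1, h2, h5, h6⟩ := D.trick hjl.symm hx (hn' i) he hqe hb (hZ hz) (hqz ▸ hζ.1)
        (hZp z hz).1 (hZp z hz).2 (hqz ▸ hζ.2) ⟨i, hZ ha'⟩ hqa (hZp a' ha').2
      exact D.A1 hS he (by rintro rfl; simp at hb) hqe h1 h2 h5 h6 h3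
        fun j hj c _ => D.adj_four h4 e j hj c
  · obtain ⟨c, hc, hqc, hcy⟩ := D.exists_nonsing_perp (h3 l0) y
    have h1 := finrank_inf_perp_ge (Q := Q) (Vb j0) (F ∙ y)
    have h2 := finrank_span_singleton_le (F := F) y
    obtain ⟨a, ha, hq⟩ := (D.bnd j0).exists_Q_eq (H := Vb j0 ⊓ perp Q (F ∙ y)) inf_le_left
      (by omega) (Q c)
    obtain ⟨b, hb, hqb, hba⟩ := exists_two_norm (Q := Q) (by omega) ha (hq ▸ hqc)
    exact ⟨j0, l0, hjl, a, ha.1, b, hb.1, c, hc, hq ▸ hqc, hqb, hq.symm, hba,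
      by rw [B_comm]; exact mem_perp_span_singleton.1 ha.2,
      by rw [B_comm]; exact mem_perp_span_singleton.1 hb.2, hcy⟩

theorem main_three (hS : Sw Q M Vb) (h3 : ∀ j, finrank F (Vb j) = 3) (h2 : (2 : F) ≠ 0)
    (h4 : 4 ≤ Nat.card F) (i0 : ι) (ht : ∀ i j : ι, ∃ l, l ≠ i ∧ l ≠ j) :
    (∀ g ∈ M, Pm Vb g) ∨ EO Q ≤ M := by
  by_cases hE : EO Q ≤ M
  · exact Or.inr hE
  have hP : ∀ i x, Q (D.pr i x) ≠ 0 → ∃ P ≤ Vb i, NdOn Q P ∧ finrank F P = 2 ∧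
      ∀ p ∈ P, B Q p x = 0 := by
    intro i x hx
    obtain ⟨h5, h6⟩ := (D.bnd i).perp_nonsing h2 (D.pr_mem i x) hx
    refine ⟨_, inf_le_left, h5, by rw [h3] at h6; omega, fun p hp => ?_⟩
    rw [← D.B_pr hp.1, B_comm]; exact mem_perp_span_singleton.1 hp.2
  refine Or.inl (D.pm_of_three (fun j => (h3 j).ge) (fun x hx => ?_)
    (D.b1_of_sgood fun j => (D.bnd j).sgood_odd h2 (Or.inr ⟨h3 j, h4⟩)) i0 fun y hy => ?_)
  · by_contra hn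
    apply hE
    have hn' : ∀ i, x ∉ Vb i := fun i h => hn ⟨i, h⟩
    obtain ⟨i, hi⟩ := D.exists_pr_nonsing hx.1
    obtain ⟨e, he, hqe, hb⟩ := D.exists_sing_B_ne (h3 i).ge (ne_zero_of_Q hi)
    obtain ⟨Z, hZ, hZn, hZd, hZp⟩ := D.perp_pair he hqe hb
    rw [h3] at hZd
    obtain ⟨z, hz, hqz⟩ := hZn.exists_nonsing le_rfl (by omega)
    obtain ⟨r, hr⟩ := ((few_zero (F := F)).or (few_quad (a := B Q e x * B Q e x *
      (Q x - Q (D.pr i x))) (b := 0) (c := Q z) (by simp [hqz]))).exists_not (by omega)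
    rw [not_or] at hr
    obtain ⟨P, hPi, hPn, hPd, hPp⟩ := hP i x hi
    obtain ⟨a', ha', hqa⟩ := hPn.exists_Q_eq le_rfl (by omega)
      (B Q e x * B Q e x * (Q x - Q (D.pr i x)) + Q (r • z))
    obtain ⟨j, hj, -⟩ := ht i i
    have hrz := Z.smul_mem r hz
    obtain ⟨y, h1, h5, h6, h7⟩ := D.trick hj hx (hn' i) he hqe hb (hZ hrz)
      (by rw [Q_smul]; simp [hr.1, hqz]) (hZp _ hrz).1 (hZp _ hrz).2
      (fun h => hr.2 (by rw [Q_smul] at h; linear_combination h)) ⟨i, hPi ha'⟩ hqa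
      (by rw [B_comm]; exact hPp a' ha')
    refine D.A1 hS he (by rintro rfl; simp at hb) hqe h1 h5 h6 h7 (fun j => (h3 j).ge)
      fun j hj c _ => ?_
    obtain ⟨l, hl, hl'⟩ := ht i j
    obtain ⟨a, ha, hq⟩ := D.exists_val l c
    exact ⟨a, ⟨l, ha⟩, hq, D.B_of_ne hl ha he, D.orth j l hl'.symm ha⟩
  · obtain ⟨j, hj⟩ := D.exists_pr_nonsing hy
    obtain ⟨l, hl, -⟩ := ht j j
    obtain ⟨c, hc, hqc, hcy⟩ := D.exists_nonsing_perp (h3 l).ge y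
    obtain ⟨P, hPi, hPn, hPd, hPp⟩ := hP j y hj
    obtain ⟨a, ha, hq⟩ := hPn.exists_Q_eq le_rfl (by omega) (Q c)
    obtain ⟨b, hb, hqb, hba⟩ := hPn.rot1 hPd.ge h4 ha (hq ▸ hqc)
    exact ⟨j, l, hl.symm, a, hPi ha, b, hPi hb, c, hc, hq ▸ hqc, hqb, hq.symm, hba, hPp a ha,
      hPp b hb, hcy⟩

end Dc

end Cfsg.Agent.Orth
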