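import Cfsg.Agent.Orth.C2p

/-! Orthogonal decompositions into planes: Step B. -/

set_option autoImplicit false

namespace Cfsg.Agent.Orth

open Module

variable {F V : Type*} [Field F] [AddCommGroup V] [Module F V] {Q : QuadraticForm F V}
  {ι : Type*} {M : Subgroup (V ≃ₗ[F] V)} {Vb : ι → Submodule F V}

/-- decomposition into at least five planes -/
structure Pl (Q : QuadraticForm F V) (Vb : ι → Submodule F V) : Prop where
  dim : ∀ i, finrank F (Vb i) = 2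
  five : ∀ i j l m : ι, ∃ p, p ≠ i ∧ p ≠ j ∧ p ≠ l ∧ p ≠ m
  rot : ∀ i, Rot Q (Vb i)
  ty : (∀ i, ∀ v ∈ Vb i, Q v = 0 → v = 0) ∨
    (7 ≤ Nat.card F ∧ ∀ i, ∃ e ∈ Vb i, e ≠ 0 ∧ Q e = 0)

namespace Dc

variable [FiniteDimensional F V] (D : Dc Q M Vb) (P : Pl Q Vb)
include D P

lemma move_surj {a b : V} {l m : ι} (hlm : l ≠ m)
    (h : ∀ v ∈ Vb l, (refl Q a * refl Q b) v ∈ Vb m) :
    ∀ w ∈ Submodule.span F ({a, b} : Set V), ∃ v ∈ Vb l, (refl Q a * refl Q b) v - v = w := by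
  set f : V →ₗ[F] V := ((refl Q a * refl Q b : V ≃ₗ[F] V) : V →ₗ[F] V) - LinearMap.id
  have h1 : finrank F ((Vb l).map f) = finrank F (Vb l) := finrank_map_of_inj fun w hw h0 => by
    by_contra hne
    have : (refl Q a * refl Q b) w = w := sub_eq_zero.1 h0
    exact hlm (D.eq_of_mem hw (this ▸ h w hw) hne)
  have h2 : (Vb l).map f = Submodule.span F {a, b} := Submodule.eq_of_le_of_finrank_le
    (by rintro _ ⟨v, -, rfl⟩; exact rr_sub_mem a b v)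
    (by rw [h1, P.dim]; exact finrank_span_pair_le a b)
  intro w hw
  rw [← h2] at hw
  exact hw

lemma perp_blk {a b : V} (ha : Q a ≠ 0) (hb : Q b ≠ 0) (hn : b ∉ F ∙ a) (i0 : ι)
    (hp : Pm Vb (refl Q a * refl Q b)) : ∃ l, a ∈ perp Q (Vb l) := by
  by_cases hf : ∀ i, ∀ v ∈ Vb i, (refl Q a * refl Q b) v ∈ Vb i
  · by_contra hcon
    push Not at hcon
    have key : ∀ i, ∃ u ∈ Vb i, u ≠ 0 ∧ u ∈ Submodule.span F ({a, b} : Set V) := by
      intro i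
      by_contra h; push Not at h
      refine hcon i fun v hv => ?_
      rw [B_comm]
      refine (perp_of_rr_fix ha hb hn ?_).1
      by_contra hne
      exact h _ (sub_mem (hf i v hv) hv) (sub_ne_zero.2 hne) (rr_sub_mem a b v)
    obtain ⟨j, hj, -⟩ := P.five i0 i0 i0 i0
    obtain ⟨l, hl, hl', -⟩ := P.five i0 j j j
    obtain ⟨u, hu, hu0, hu'⟩ := key i0
    obtain ⟨v, hv, hv0, hv'⟩ := key j
    obtain ⟨w, hw, hw0, hw'⟩ := key l
    obtain ⟨α, β, h⟩ := plane_coord (finrank_pair (ne_zero_of_Q ha) hn) hu' hv' hu0 (fun h => hj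
      (D.eq_of_mem hv ((Submodule.span_singleton_le_iff_mem _ _).2 hu h) hv0)) hw'
    have := congrArg (D.pr l) h
    rw [map_add, map_smul, map_smul, D.pr_of_ne hl hu, D.pr_of_ne hl' hv, D.pr_of_mem hw] at this
    exact hw0 (by simpa using this.symm)
  · push Not at hf
    obtain ⟨l, v, hv, hvn⟩ := hf
    obtain ⟨m, hm⟩ := hp l
    have hlm : l ≠ m := by rintro rfl; exact hvn (hm v hv)
    obtain ⟨w, hw, h⟩ := D.move_surj P hlm hm a (Submodule.subset_span (by simp))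
    obtain ⟨p, h1, h2, -⟩ := P.five l m m m
    exact ⟨p, h ▸ sub_mem (D.orth p m h2 (hm w hw)) (D.orth p l h1 hw)⟩

variable [Finite ι]

lemma bv_of_rot {a b : V} (ha : Q a ≠ 0) (hb : Q b ≠ 0) (hab : B Q a b ≠ 0) (hn : b ∉ F ∙ a)
    (hI : ∀ x ∈ Submodule.span F ({a, b} : Set V), B Q a x = 0 → B Q b x = 0 → x = 0)
    (hp : Pm Vb (refl Q a * refl Q b)) : Bv Vb a := by
  by_contra hcon
  refine rr_ne_neg ha hb hab hn ?_
  set h := refl Q a * refl Q b with hh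
  have hO : h ∈ O Q := mul_mem (refl_mem_O Q a) (refl_mem_O Q b)
  have haI : a ∈ Submodule.span F ({a, b} : Set V) := Submodule.subset_span (by simp)
  have hbI : b ∈ Submodule.span F ({a, b} : Set V) := Submodule.subset_span (by simp)
  by_cases hf : ∀ i, ∀ v ∈ Vb i, h v ∈ Vb i
  · rw [← add_eq_zero_iff_eq_neg]
    refine D.span _ fun i => D.perp_of_pr ?_
    rw [map_add, D.pr_comm hO (hf i)]
    by_cases h0 : D.pr i a = 0
    · simp [h0]
    obtain ⟨j, hji, hj⟩ := D.exists_pr_ne' (i := i) (x := a) fun h => hcon ⟨i, h⟩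
    have hI' := D.pr_mem_pair ha (notMem_symm (ne_zero_of_Q ha) hn) hf
    have hc : ∀ x ∈ Submodule.span F ({a, b} : Set V), ∃ α β : F,
        α • D.pr i a + β • D.pr j a = x := fun x hx =>
      plane_coord (finrank_pair (ne_zero_of_Q ha) hn) (hI' i) (hI' j) h0 (fun h => hji
        (D.eq_of_mem (D.pr_mem j a) ((Submodule.span_singleton_le_iff_mem _ _).2
          (D.pr_mem i a) h) hj)) hx
    have hq : Q (D.pr i a) ≠ 0 := by
      intro hq
      have : ∀ x ∈ Submodule.span F ({a, b} : Set V), B Q x (D.pr i a) = 0 := fun x hx => by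
        obtain ⟨α, β, rfl⟩ := hc x hx
        simp [B_self_of_sing Q hq, D.B_of_ne hji (D.pr_mem j a) (D.pr_mem i a)]
      exact h0 (hI _ (hI' i) (this a haI) (this b hbI))
    obtain ⟨α, β, h1⟩ := hc (h (D.pr i a)) (by
      have := add_mem (rr_sub_mem (Q := Q) a b (D.pr i a)) (hI' i)
      rwa [sub_add_cancel] at this)
    have h2 := congrArg (D.pr j) h1
    rw [map_add, map_smul, map_smul, D.pr_of_ne hji (D.pr_mem i a), D.pr_of_mem (D.pr_mem j a),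
      D.pr_of_ne hji (hf i _ (D.pr_mem i a)), smul_zero, zero_add] at h2
    rw [h2, add_zero] at h1
    have h3 := hO (D.pr i a)
    rw [← h1, Q_smul] at h3
    have h4 : (α - 1) * (α + 1) = 0 := mul_right_cancel₀ hq (by linear_combination h3)
    rcases mul_eq_zero.1 h4 with h4 | h4
    · rw [sub_eq_zero.1 h4, one_smul] at h1
      have := perp_of_rr_fix ha hb hn h1.symm
      exact absurd (hI _ (hI' i) this.1 this.2) h0
    · rw [← h1, eq_neg_of_add_eq_zero_left h4]; simp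
  · push Not at hf
    obtain ⟨l, v0, hv0, hvn⟩ := hf
    obtain ⟨m, hm⟩ := hp l
    have hlm : l ≠ m := by rintro rfl; exact hvn (hm v0 hv0)
    obtain ⟨v, hv, h1⟩ := D.move_surj P hlm hm a haI
    obtain ⟨u, hu, h2⟩ := D.move_surj P hlm hm (h a + a) (by
      have := add_mem (rr_sub_mem (Q := Q) a b a) (add_mem haI haI)
      convert this using 1; rw [hh]; abel)
    obtain ⟨p, hpm⟩ := hp m
    have hmp : m ≠ p := by
      rintro rfl
      have := inv_mem_of_forall_mem hpm _ (hm v0 hv0)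
      rw [inv_apply_apply] at this
      exact hlm (D.eq_of_mem hv0 this (by rintro rfl; exact hvn (by simp)))
    have h3 : h a + a = h (h v) - v := by rw [← h1, map_sub]; abel
    have h4 := congrArg (D.pr m) (h2.trans h3)
    rw [map_sub, map_sub, D.pr_of_mem (hm u hu), D.pr_of_ne hlm.symm hu, D.pr_of_ne hlm.symm hv,
      D.pr_of_ne hmp (hpm _ (hm v hv)), sub_zero, sub_zero, LinearEquiv.map_eq_zero_iff] at h4
    rw [h4, map_zero, sub_zero] at h2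
    exact eq_neg_of_add_eq_zero_left h2.symm

variable [Finite F]

omit [Finite ι] in
lemma rot_pair (j : ι) : ∃ a ∈ Vb j, ∃ b ∈ Vb j, Q a ≠ 0 ∧ Q b = Q a ∧ B Q a b ≠ 0 ∧ b ∉ F ∙ a := by
  obtain ⟨a, ha, hq⟩ := D.exists_val j 1
  have h0 : Q a ≠ 0 := by rw [hq]; exact one_ne_zero
  obtain ⟨y, hy, -, h1, h2⟩ := P.rot j a ha h0
  exact ⟨a, ha, _, refl_mem hy ha, h0, refl_mem_O Q y a, h1, h2⟩

omit [Finite ι] in
lemma b1_pl : B1 Q Vb := D.b1_of_sgood fun j => (P.rot j).sgood (P.dim j)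

variable (hA : ∀ x, In Q M Vb x → Bv Vb x)
include hA

lemma pm_of_conj {g : V ≃ₗ[F] V} (hg : g ∈ M) {j : ι} {a b : V} (haj : a ∈ Vb j) (hbj : b ∈ Vb j)
    (ha : Q a ≠ 0) (hb : Q b ≠ 0) (hab : B Q a b ≠ 0) (hn : b ∉ F ∙ a)
    (hp : Pm Vb (refl Q (g a) * refl Q (g b))) : Pm Vb g := by
  have hO := D.le hg
  refine D.F0 hA (D.b1_pl P) hg ⟨j, haj⟩ ha (D.bv_of_rot P (by rwa [hO]) (by rwa [hO])
    (by rwa [O_B hO]) (fun h => hn ?_) (fun x hx h1 h2 => ?_) hp)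
  · obtain ⟨c, hc⟩ := Submodule.mem_span_singleton.1 h
    exact Submodule.mem_span_singleton.2 ⟨c, g.injective (by rw [map_smul, hc])⟩
  · obtain ⟨α, β, rfl⟩ := Submodule.mem_span_pair.1 hx
    rw [← map_smul, ← map_smul, ← map_add] at h1 h2 ⊢
    rw [O_B hO] at h1 h2
    rw [LinearEquiv.map_eq_zero_iff]
    refine D.bnd j _ (add_mem (Submodule.smul_mem _ _ haj) (Submodule.smul_mem _ _ hbj))
      fun y hy => ?_
    obtain ⟨s, t, rfl⟩ := plane_coord (P.dim j) haj hbj (ne_zero_of_Q ha) hn hy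
    generalize α • a + β • b = x at h1 h2
    simp [h1, h2]

omit [Finite ι] in
lemma pm_of_inv {g : V ≃ₗ[F] V} (hg : g ∈ M) (i0 : ι) (h : Pm Vb g⁻¹) : Pm Vb g := by
  obtain ⟨a, ha, hq⟩ := D.exists_val i0 1
  exact D.F0 hA (D.b1_pl P) hg (h.bv ⟨i0, ha⟩)
    (by rw [O_Q (inv_mem (D.le hg)), hq]; exact one_ne_zero) ⟨i0, by simpa using ha⟩

lemma G0 {g : V ≃ₗ[F] V} (hg : g ∈ M) {s : V} (hs : Bv Vb s) (hq : Q s ≠ 0) {j : ι}
    (h : ∀ v ∈ Vb j, B Q (g v) s = 0) : Pm Vb g := by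
  obtain ⟨a, ha, b, hb, h1, h2, h3, h4⟩ := D.rot_pair P j
  have h5 := mul_mem (mul_mem hg (D.rr_mem1 ⟨j, ha⟩ ⟨j, hb⟩ h2.symm)) (inv_mem hg)
  rw [conj_rr (D.le hg)] at h5
  exact D.pm_of_conj P hA hg ha hb h1 (h2 ▸ h1) h3 h4 (D.F0 hA (D.b1_pl P) h5 hs hq
    (by rwa [rr_fix (h a ha) (h b hb)]))

lemma F1 (h6 : 6 ≤ Nat.card F) {g : V ≃ₗ[F] V} (hg : g ∈ M) {j i l : ι} {e : V} (he : e ∈ Vb j)
    (he0 : e ≠ 0) (hq : Q e = 0) (hil : i ≠ l) (hi : g e ∈ perp Q (Vb i))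
    (hl : g e ∈ perp Q (Vb l)) : Pm Vb g := by
  have hO := D.le hg
  obtain ⟨f, hf, hqf, hef⟩ := exists_partner he hq ((D.bnd j).exists_B_ne he he0)
  obtain ⟨t, ht⟩ := ((few_zero (F := F)).or ((few_quad (a := 1) (b := 0) (c := 1) (by simp)).or
    (few_quad (a := 1) (b := 0) (c := -1) (by simp)))).exists_not (by omega)
  simp only [not_or, one_mul, zero_mul, add_zero] at ht
  obtain ⟨t0, t1, t2⟩ := ht
  have ha : e - (t * t) • f ∈ Vb j := sub_mem he (Submodule.smul_mem _ _ hf)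
  have hb : e - f ∈ Vb j := sub_mem he hf
  have qa : Q (e - (t * t) • f) = -(t * t) := by simp [Q_sub, Q_smul, hq, hqf, hef]
  have qb : Q (e - f) = -1 := by simp [Q_sub, hq, hqf, hef]
  have bab : B Q (e - (t * t) • f) (e - f) = -(1 + t * t) := by
    simp [B_self_of_sing Q hq, B_self_of_sing Q hqf, hef, B_comm Q f e]; ring
  have h5 := mul_mem (mul_mem hg (D.rr_mem ⟨j, ha⟩ ⟨j, hb⟩ t0 (by rw [qa, qb]; ring))) (inv_mem hg)
  obtain ⟨c, hc, hqc⟩ := D.exists_val l 1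
  have h7 : ∃ s : F, (g * (refl Q (e - (t * t) • f) * refl Q (e - f)) * g⁻¹) c = c + s • g e := by
    have h8 : B Q e (g⁻¹ c) = 0 := by rw [← O_B_inv hO, B_comm]; exact hl c hc
    refine ⟨B Q f (g⁻¹ c) * ((t * t)⁻¹ - 1), ?_⟩
    rw [mul_app, mul_app, mul_app, refl_apply, refl_apply Q (e - f), qa, qb, map_sub (B Q _),
      map_smul (B Q _), bab]
    simp only [map_sub, map_smul, apply_inv_apply, LinearMap.sub_apply, LinearMap.smul_apply, h8,
      smul_eq_mul]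
    match_scalars <;> field_simp <;> ring
  obtain ⟨s, hs⟩ := h7
  have h8 := D.pm_of_inv P hA h5 j (D.G0 P hA (inv_mem h5) ⟨l, hc⟩
    (by rw [hqc]; exact one_ne_zero) (j := i) fun v hv => by
      rw [B_comm, ← O_B_inv (D.le h5), hs, B_comm, map_add, map_smul, hi v hv,
        D.B_of_ne hil hv hc]; simp)
  rw [conj_rr hO] at h8
  refine D.pm_of_conj P hA hg ha hb (by rw [qa]; simp [t0]) (by rw [qb]; simp)
    (by rw [bab]; exact neg_ne_zero.2 t1) (fun h => t2 ?_) h8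
  obtain ⟨r, hr⟩ := Submodule.mem_span_singleton.1 h
  have e1 := congrArg (B Q e) hr
  have e2 := congrArg (B Q f) hr
  simp [B_self_of_sing Q hq, B_self_of_sing Q hqf, hef, B_comm Q f e] at e1 e2
  rw [e2] at e1
  linear_combination -e1

lemma FF {g : V ≃ₗ[F] V} (hg : g ∈ M) {s : V} (hs : Bv Vb s) (hs0 : s ≠ 0) (h : g s = s) :
    Pm Vb g := by
  by_cases hq : Q s = 0
  · obtain ⟨j, hj⟩ := hs
    rcases P.ty with h1 | ⟨h1, -⟩
    · exact absurd (h1 j s hj hq) hs0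
    obtain ⟨i, hi, -⟩ := P.five j j j j
    obtain ⟨l, hl, hl', -⟩ := P.five j i i i
    exact D.F1 P hA (by omega) hg hj hs0 hq hl'.symm (by rw [h]; exact D.orth i j hi hj)
      (by rw [h]; exact D.orth l j hl hj)
  · exact D.F0 hA (D.b1_pl P) hg hs hq (by rwa [h])

lemma GG {g : V ≃ₗ[F] V} (hg : g ∈ M) {s : V} (hs : Bv Vb s) (hs0 : s ≠ 0) {j : ι}
    (h : ∀ v ∈ Vb j, B Q (g v) s = 0) : Pm Vb g := by
  obtain ⟨a, ha, b, hb, h1, h2, h3, h4⟩ := D.rot_pair P j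
  have h5 := mul_mem (mul_mem hg (D.rr_mem1 ⟨j, ha⟩ ⟨j, hb⟩ h2.symm)) (inv_mem hg)
  rw [conj_rr (D.le hg)] at h5
  exact D.pm_of_conj P hA hg ha hb h1 (h2 ▸ h1) h3 h4 (D.FF P hA h5 hs hs0
    (rr_fix (h a ha) (h b hb)))

theorem pm_pl (j : ι) : ∀ g ∈ M, Pm Vb g := by
  intro g hg
  have hO := D.le hg
  by_contra hn
  have h1 : ∀ c ∈ Vb j, c ≠ 0 → ∀ i, D.pr i (g c) ≠ 0 := fun c hc hc0 i h =>
    hn (D.pm_of_inv P hA hg j (D.GG P hA (inv_mem hg) ⟨j, hc⟩ hc0 (j := i) fun v hv => by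
      rw [B_comm, ← O_B_inv hO, B_comm]; exact D.perp_of_pr h v hv))
  obtain ⟨i2, hi2, -⟩ := P.five j j j j
  obtain ⟨i3, hi3, hi3', -⟩ := P.five j i2 i2 i2
  obtain ⟨e, he, f, hf, he0, -, -, hfe⟩ := D.rot_pair P j
  replace he0 := ne_zero_of_Q he0
  obtain ⟨c, hc, hc0, hcq⟩ : ∃ c ∈ Vb j, c ≠ 0 ∧ Q (D.pr j (g c)) ≠ 0 ∧ Q (D.pr i2 (g c)) ≠ 0 ∧
      Q (D.pr i3 (g c)) ≠ 0 := by
    rcases P.ty with h2 | ⟨h2, -⟩
    · have := fun i h => h1 e he he0 i (h2 i _ (D.pr_mem i (g e)) h)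
      exact ⟨e, he, he0, this j, this i2, this i3⟩
    have h3 : ∀ i, Few 2 fun k : F => Q (D.pr i (g (e + k • f))) = 0 := by
      intro i
      refine (few_quad (a := Q (D.pr i (g e))) (b := B Q (D.pr i (g f)) (D.pr i (g e)))
        (c := Q (D.pr i (g f))) fun h => hn ?_).mono le_rfl fun k hk => by
          rwa [map_add, map_add, map_smul, map_smul, Q_line] at hk
      refine D.GG P hA hg ⟨i, D.pr_mem i (g e)⟩ (h1 e he he0 i) (j := j) fun v hv => ?_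
      obtain ⟨α, β, rfl⟩ := plane_coord (P.dim j) he hf he0 hfe hv
      rw [B_comm, ← D.B_pr (D.pr_mem i _)]
      simp [B_self_of_sing Q h.1, B_comm Q (D.pr i (g e)), h.2.1]
    obtain ⟨k, hk⟩ := ((h3 j).or ((h3 i2).or (h3 i3))).exists_not (by omega)
    simp only [not_or] at hk
    exact ⟨_, add_mem he (Submodule.smul_mem _ k hf), fun h => hk.1 (by rw [h]; simp), hk⟩
  have h2 : ∀ i, Q (D.pr i (g c)) ≠ 0 → ∃ z ∈ Vb i, Q z ≠ 0 ∧ B Q z (g c) = 0 := fun i h => by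
    obtain ⟨z, hz, h3, h4⟩ := (D.bnd i).exists_perp_nonsing (P.dim i).ge (D.pr_mem i _) h
    exact ⟨z, hz, h3, by rw [← D.B_pr hz, B_comm, h4]⟩
  have key : ∀ i l, i ≠ l → ∀ z ∈ Vb i, ∀ z' ∈ Vb l, Q z ≠ 0 → Q z' ≠ 0 → B Q z (g c) = 0 →
      B Q z' (g c) = 0 → ¬ IsSquare (Q z * Q z') := by
    intro i l hil z hz z' hz' hq hq' hb hb' hsq
    obtain ⟨r, hr, hqr⟩ := ratio_of_sq hq hq' hsq
    have h5 := mul_mem (mul_mem (inv_mem hg) (D.rr_mem ⟨i, hz⟩ ⟨l, hz'⟩ hr hqr))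
      (inv_mem (inv_mem hg))
    rw [conj_rr (inv_mem hO)] at h5
    obtain ⟨m, hm⟩ := D.perp_blk P (by rwa [O_Q (inv_mem hO)]) (by rwa [O_Q (inv_mem hO)])
      (fun h => by
        obtain ⟨t, ht⟩ := Submodule.mem_span_singleton.1 h
        have : t • z = z' := by simpa using congrArg g ht
        exact hil (D.eq_of_mem (this ▸ Submodule.smul_mem _ t hz) hz' (ne_zero_of_Q hq'))) j
      (D.FF P hA h5 ⟨j, hc⟩ hc0 (rr_fix (by rw [B_comm, ← O_B_inv hO, B_comm, hb])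
        (by rw [B_comm, ← O_B_inv hO, B_comm, hb'])))
    exact hn (D.GG P hA hg ⟨i, hz⟩ (ne_zero_of_Q hq) (j := m) fun v hv => by
      rw [O_B_inv hO]; exact hm v hv)
  obtain ⟨z1, a1, b1, c1⟩ := h2 j hcq.1
  obtain ⟨z2, a2, b2, c2⟩ := h2 i2 hcq.2.1
  obtain ⟨z3, a3, b3, c3⟩ := h2 i3 hcq.2.2
  rcases sq_or (mul_ne_zero b1 b2) (mul_ne_zero b1 b3) with h | h | ⟨r, h⟩
  · exact key j i2 hi2.symm z1 a1 z2 a2 b1 b2 c1 c2 h
  · exact key j i3 hi3.symm z1 a1 z3 a3 b1 b3 c1 c3 h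
  · exact key i2 i3 hi3'.symm z2 a2 z3 a3 b2 b3 c2 c3
      ⟨r * (Q z1)⁻¹, by field_simp; linear_combination h⟩

end Dc

end Cfsg.Agent.Orth
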