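import Cfsg.Agent.Orth.C2c

/-! Orthogonal decompositions: swaps and the bridge to matrices. -/

set_option autoImplicit false

namespace Cfsg.Agent.Orth

open Module Cfsg Cfsg.Geo

section abstr
variable {F V : Type*} [Field F] [AddCommGroup V] [Module F V] {Q : QuadraticForm F V}
  {ι : Type*} {M : Subgroup (V ≃ₗ[F] V)} {Vb : ι → Submodule F V} [FiniteDimensional F V]

lemma closure_refl_prop {W : Submodule F V} {h : V ≃ₗ[F] V}
    (hh : h ∈ Subgroup.closure {r | ∃ a ∈ W, r = refl Q a}) :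
    (∀ v ∈ W, h v ∈ W) ∧ ∀ v ∈ perp Q W, h v = v := by
  induction hh using Subgroup.closure_induction with
  | mem x hx =>
    obtain ⟨a, ha, rfl⟩ := hx
    exact ⟨fun v hv => refl_mem ha hv, fun v hv => refl_of_perp (hv a ha)⟩
  | one => exact ⟨fun v hv => hv, fun v _ => rfl⟩
  | mul x y _ _ hx hy =>
    exact ⟨fun v hv => hx.1 _ (hy.1 v hv), fun v hv => by rw [mul_app, hy.2 v hv, hx.2 v hv]⟩
  | inv x _ hx =>
    exact ⟨inv_mem_of_forall_mem hx.1, fun v hv => by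
      nth_rewrite 1 [← hx.2 v hv]; exact inv_apply_apply x v⟩

lemma Dc.exists_swap_O (D : Dc Q M Vb) {j l : ι} (hjl : j ≠ l) (e : Vb j ≃ₗ[F] Vb l)
    (he : ∀ w : Vb j, Q (e w) = Q w) : ∃ s ∈ O Q, (∀ v ∈ Vb j, s v ∈ Vb l) ∧
      (∀ v ∈ Vb l, s v ∈ Vb j) ∧ ∀ v, v ∈ perp Q (Vb j) → v ∈ perp Q (Vb l) → s v = v := by
  set pj := (Vb j).projectionOnto _ (D.bnd j).isCompl
  set pl := (Vb l).projectionOnto _ (D.bnd l).isCompl
  set sL : V →ₗ[F] V := LinearMap.id - D.pr j - D.pr l + (Vb l).subtype ∘ₗ e.toLinearMap ∘ₗ pj +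
    (Vb j).subtype ∘ₗ e.symm.toLinearMap ∘ₗ pl with hsL
  have p0 : ∀ (i : ι) (v : V), v ∈ perp Q (Vb i) →
      (Vb i).projectionOnto _ (D.bnd i).isCompl v = 0 := fun i v hv =>
    Submodule.projectionOnto_apply_right (D.bnd i).isCompl ⟨v, hv⟩
  have h1 : ∀ a : Vb j, sL a = e a := fun a => by
    have : pj a = a := Submodule.projectionOnto_apply_left _ a
    simp [hsL, D.pr_of_mem a.2, D.pr_of_ne hjl.symm a.2, this, pl, p0 l a (D.orth l j hjl.symm a.2)]
  have h2 : ∀ b : Vb l, sL b = e.symm b := fun b => by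
    have : pl b = b := Submodule.projectionOnto_apply_left _ b
    simp [hsL, D.pr_of_mem b.2, D.pr_of_ne hjl b.2, this, pj, p0 j b (D.orth j l hjl b.2)]
  have h3 : ∀ v, v ∈ perp Q (Vb j) → v ∈ perp Q (Vb l) → sL v = v := fun v a b => by
    simp [hsL, D.pr_of_perp a, D.pr_of_perp b, pj, pl, p0 j v a, p0 l v b]
  have dec : ∀ x, ∃ (a : Vb j) (b : Vb l) (c : V), c ∈ perp Q (Vb j) ∧ c ∈ perp Q (Vb l) ∧
      x = (a : V) + (b : V) + c := fun x => by
    refine ⟨⟨_, D.pr_mem j x⟩, ⟨_, D.pr_mem l x⟩, x - D.pr j x - D.pr l x,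
      sub_mem (D.sub_pr j x) (D.orth j l hjl (D.pr_mem l x)), ?_, by simp⟩
    rw [sub_right_comm]
    exact sub_mem (D.sub_pr l x) (D.orth l j hjl.symm (D.pr_mem j x))
  have hQ3 : ∀ (a : Vb j) (b : Vb l) (c : V), c ∈ perp Q (Vb j) → c ∈ perp Q (Vb l) →
      Q ((a : V) + (b : V) + c) = Q a + Q b + Q c := fun a b c h h' => by
    rw [Q_add, Q_add, map_add, LinearMap.add_apply, h a a.2, h' b b.2, D.B_of_ne hjl a.2 b.2]; ring
  refine ⟨LinearEquiv.ofInvolutive sL fun x => ?_, fun x => ?_, fun v hv => ?_, fun v hv => ?_, h3⟩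
  · obtain ⟨a, b, c, hc, hc', rfl⟩ := dec x
    simp only [map_add, h1, h2, h3 c hc hc', LinearEquiv.symm_apply_apply,
      LinearEquiv.apply_symm_apply]
  · obtain ⟨a, b, c, hc, hc', rfl⟩ := dec x
    change Q (sL _) = _
    have := he (e.symm b)
    rw [LinearEquiv.apply_symm_apply] at this
    rw [map_add sL, map_add sL, h1, h2, h3 c hc hc', add_comm (e a : V), hQ3 _ _ c hc hc',
      hQ3 _ _ c hc hc', he, this]; ring
  · change sL _ ∈ _
    rw [h1 ⟨v, hv⟩]; exact Subtype.property _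
  · change sL _ ∈ _
    rw [h2 ⟨v, hv⟩]; exact Subtype.property _

lemma Dc.sw [Finite F] (D : Dc Q M Vb)
    (hiso : ∀ j l, ∃ e : Vb j ≃ₗ[F] Vb l, ∀ w : Vb j, Q (e w) = Q w)
    (hH : ∀ g ∈ EO Q, Pm Vb g → g ∈ M) : Sw Q M Vb := by
  intro _ j l _ _ hjl
  obtain ⟨e, he⟩ := hiso j l
  obtain ⟨s, hs, h1, h2, h3⟩ := D.exists_swap_O hjl e he
  obtain ⟨h, hh, hsh⟩ := D.nd.exists_adjust D.d5 (Vb j) (fun c _ => D.exists_val j c) hs
  obtain ⟨h4, h5⟩ := closure_refl_prop hh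
  have e1 : ∀ v ∈ Vb j, (s * h) v ∈ Vb l := fun v hv => h1 _ (h4 v hv)
  have e2 : ∀ v ∈ Vb l, (s * h) v ∈ Vb j := fun v hv => by
    rw [mul_app, h5 v (D.orth j l hjl hv)]; exact h2 v hv
  have e3 : ∀ v, v ∈ perp Q (Vb j) → v ∈ perp Q (Vb l) → (s * h) v = v := fun v a b => by
    rw [mul_app, h5 v a, h3 v a b]
  exact ⟨s * h, hH _ hsh (D.pm_of_sw e1 e2 e3), e1, e2, e3⟩

lemma Dc.exists_not_pm [Finite F] (D : Dc Q M Vb) (i : ι)
    (hd : finrank F (Vb i) + 3 ≤ finrank F V) : ∃ g ∈ EO Q, ¬ Pm Vb g := by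
  have h1 := finrank_perp_ge (Q := Q) (Vb i)
  obtain ⟨u, hu, hu0, hq⟩ := exists_sing_of_three (Q := Q) (perp Q (Vb i)) (by omega)
  obtain ⟨x, hx, hqx⟩ := D.exists_val i 1
  have hx0 : x ≠ 0 := ne_zero_of_Q (by rw [hqx]; exact one_ne_zero)
  have h2 : D.pr i (x + u) = x := by rw [map_add, D.pr_of_mem hx, D.pr_of_perp hu, add_zero]
  obtain ⟨g, hg, hgx⟩ := D.nd.EO_trans D.d5 hx0 (y := x + u)
    (fun h => hx0 (by rw [← h2, h, map_zero])) (by rw [Q_add, hq, hu x hx]; ring)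
  refine ⟨g, hg, fun h => ?_⟩
  obtain ⟨l, hl⟩ := h.bv ⟨i, hx⟩
  rw [hgx] at hl
  by_cases hil : i = l
  · subst hil
    rw [D.pr_of_mem hl] at h2
    exact hu0 (by simpa using h2)
  · exact hx0 (by rw [← h2, D.pr_of_ne hil hl])

/-- small non-degenerate subspaces in dimensions 7 and 8 -/
theorem nd_max_small [Finite F] (hQ : Nd Q) {U : Submodule F V} (hU : NdOn Q U)
    (h4 : 4 ≤ finrank F U) (h3 : 3 ≤ finrank F (perp Q U)) (hg : SGood Q U)
    (hq : 4 ≤ finrank F (perp Q U) ∨ 3 ≤ Nat.card F)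
    (hni : ∀ g ∈ O Q, ¬ ∀ v ∈ U, g v ∈ perp Q U)
    (hM : M ≤ O Q) (hH : ∀ g ∈ EO Q, (∀ v ∈ U, g v ∈ U) → g ∈ M) :
    (∀ g ∈ M, ∀ v ∈ U, g v ∈ U) ∨ EO Q ≤ M := by
  have hd := hQ.finrank_perp U
  have D : Dc Q M (fun b : Bool => bif b then U else perp Q U) :=
    { nd := hQ
      d5 := by omega
      le := hM
      bnd := Bool.forall_bool.2 ⟨hU.perp hQ, hU⟩
      orth := Bool.forall_bool.2 ⟨Bool.forall_bool.2 ⟨fun h => absurd rfl h,
        fun _ => le_perp_perp U⟩, Bool.forall_bool.2 ⟨fun _ => le_rfl, fun h => absurd rfl h⟩⟩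
      span := fun x hx => hU x (by simpa [hQ.perp_perp] using hx false) (hx true)
      two := Bool.forall_bool.2 ⟨by simp only [cond_false]; omega, by simp only [cond_true]; omega⟩
      fix := fun g hg h => hH g hg (h true) }
  have key : ∀ g ∈ O Q, (∃ l : Bool, ∀ v ∈ U, g v ∈ bif l then U else perp Q U) →
      ∀ v ∈ U, g v ∈ U := by
    rintro g hg ⟨_ | _, h⟩
    · exact absurd h (hni g hg)
    · exact h
  refine (D.main_ge (j0 := true) (l0 := false) (fun i j l h1 h2 h3 => ?_)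
    (Bool.forall_bool.2 ⟨h3, by simp only [cond_true]; omega⟩) (fun h hh ν hν hp => ?_) (by simp) h4
    ?_).imp_left fun h g hg => key g (hM hg) (h g hg true)
  · exfalso; revert i j l; decide
  · have h1 := key h hh (D.map_of_sgood (j := true) hg hh hν hp)
    exact pm_of_fix (Bool.forall_bool.2 ⟨perp_stable hh h1, h1⟩)
  · exact hq.imp (fun h => Bool.forall_bool.2 ⟨h, h4⟩) fun h => ⟨h, by decide⟩

end abstr

variable {ι : Type} [Fintype ι] [DecidableEq ι] {F : Type*} [Field F] [Fintype F]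
  {Q : (ι → F) → F} (hQ : IsNondegenerateQuadraticForm Q)
include hQ

omit [DecidableEq ι] [Fintype F] in
lemma card_eq_mul {t k : ℕ} {D : Fin t → Submodule F (ι → F)} (hD : IsMDecomposition k D) :
    Fintype.card ι = t * k := by
  classical
  have h := DirectSum.isInternal_submodule_of_iSupIndep_of_iSup_eq_top hD.indep hD.iSup_eq_top
  have := (LinearEquiv.ofBijective (DirectSum.coeLinearMap D) h).finrank_eq
  rw [finrank_fintype_fun_eq_card, finrank_directSum] at this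
  simp [← this, hD.finrank_eq]

theorem max_dec_of {t k : ℕ} {D : Fin t → Submodule F (ι → F)}
    (hD : IsOrthogonalMDecomposition Q k D) (hk : 2 ≤ k) (hd : 5 ≤ Fintype.card ι)
    (hmain : ∀ M, Dc (toQF hQ) M D → Sw (toQF hQ) M D →
      (∀ g ∈ M, Pm D g) ∨ EO (toQF hQ) ≤ M) :
    IsMaximalIn (omegaGL Q) (decompositionStabilizer D ⊓ omegaGL Q) := by
  have hN := nd_toQF hQ
  have hfr := hD.decomp.decomp.finrank_eq
  have hdc : ∀ M, M ≤ O (toQF hQ) → (∀ g ∈ EO (toQF hQ), Pm D g → g ∈ M) → Dc (toQF hQ) M D :=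
    fun M hM hH =>
    { nd := hN
      d5 := by simpa using hd
      le := hM
      bnd := fun i => (ndOn_toQF hQ).1 (hD.decomp.nondegenerate i)
      orth := fun i j hij x hx u hu => hD.decomp.orthogonal i j hij u hu x hx
      span := fun x hx => hN x fun y => by
        have : y ∈ iSup D := by rw [hD.decomp.decomp.iSup_eq_top]; trivial
        exact (iSup_le (fun i => le_perp_comm ((Submodule.span_singleton_le_iff_mem _ _).2 (hx i)))
          : iSup D ≤ perp (toQF hQ) (F ∙ x)) this x (Submodule.mem_span_singleton_self x) ▸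
          B_comm _ _ _
      two := fun i => by rw [hfr]; exact hk
      fix := fun g hg h => hH g hg (pm_of_fix h) }
  have D0 := hdc _ le_rfl fun g hg _ => EO_le_O hg
  have ht := hD.decomp.decomp.two_le
  have hc := card_eq_mul hQ hD.decomp.decomp
  refine isMaximalIn_of hQ hd _ (Pm D) (fun g _ => ?_) (D0.exists_not_pm ⟨0, by omega⟩ ?_)
    fun M hM hH => ?_
  · rw [mem_decompositionStabilizer]
    constructor
    · rintro ⟨σ, hσ⟩ j
      exact ⟨σ j, fun v hv => hσ j ▸ ⟨v, hv, rfl⟩⟩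
    · intro h
      choose σ hσ using h
      have h1 : ∀ j, (D j).map (phi g : (ι → F) →ₗ[F] (ι → F)) = D (σ j) := fun j =>
        Submodule.eq_of_le_of_finrank_eq (by rintro _ ⟨v, hv, rfl⟩; exact hσ j v hv)
          (by rw [LinearEquiv.finrank_map_eq, hfr, hfr])
      refine ⟨Equiv.ofBijective σ (Finite.injective_iff_bijective.1 fun i j hij => ?_), h1⟩
      obtain ⟨a, ha, hq⟩ := D0.exists_val i 1
      have h2 : phi g a ∈ (D j).map (phi g : (ι → F) →ₗ[F] (ι → F)) := by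
        rw [h1, ← hij]; exact hσ i a ha
      obtain ⟨b, hb, hab⟩ := h2
      exact D0.eq_of_mem ha ((phi g).injective hab ▸ hb)
        (ne_zero_of_Q (by rw [hq]; exact one_ne_zero))
  · rw [hfr, finrank_fintype_fun_eq_card]
    have : 2 * k ≤ t * k := Nat.mul_le_mul_right k ht
    omega
  · have D1 := hdc M (hM.trans EO_le_O) hH
    exact hmain M D1 (D1.sw hD.isometric hH)

lemma fin_third {t : ℕ} (ht : 3 ≤ t) (i j : Fin t) : ∃ l, l ≠ i ∧ l ≠ j := by
  by_contra h; push Not at h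
  have h0 := h ⟨0, by omega⟩
  have h1 := h ⟨1, by omega⟩
  have h2 := h ⟨2, by omega⟩
  simp only [ne_eq, Fin.ext_iff] at h0 h1 h2
  omega

omit [DecidableEq ι] in
lemma sgood_of_four {W : Submodule F (ι → F)} (hW : NdOn (toQF hQ) W) (h4 : 4 ≤ finrank F W)
    (hex : ¬ (finrank F W = 4 ∧ Fintype.card F = 2 ∧ IsPlusTypeOn Q W)) : SGood (toQF hQ) W := by
  by_cases h2 : (2 : F) = 0
  · refine hW.sgood_even h2 (by omega) ?_
    rintro ⟨a, b, T, hT, c, d⟩
    exact hex ⟨b, by rwa [← Nat.card_eq_fintype_card], T, hT, c, by omega⟩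
  · exact hW.sgood_odd h2 (Or.inl h4)

/-- blocks of dimension at least four -/
theorem max_dec_four {t k : ℕ} {D : Fin t → Submodule F (ι → F)}
    (hD : IsOrthogonalMDecomposition Q k D) (hk : 4 ≤ k)
    (hex : ¬ (k = 4 ∧ Fintype.card F = 2 ∧ ∃ i, IsPlusTypeOn Q (D i))) :
    IsMaximalIn (omegaGL Q) (decompositionStabilizer D ⊓ omegaGL Q) := by
  have hfr := hD.decomp.decomp.finrank_eq
  have ht := hD.decomp.decomp.two_le
  have hc := card_eq_mul hQ hD.decomp.decomp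
  have : 2 * k ≤ t * k := Nat.mul_le_mul_right k ht
  refine max_dec_of hQ hD (by omega) (by omega) fun M D1 hS => ?_
  exact D1.main_ge hS (fun j => by rw [hfr]; omega) (D1.b1_of_sgood fun j =>
    sgood_of_four hQ (D1.bnd j) (by rw [hfr]; omega) fun h => hex ⟨hfr j ▸ h.1, h.2.1, j, h.2.2⟩)
    (j0 := ⟨0, by omega⟩) (l0 := ⟨1, by omega⟩) (by simp) (by rw [hfr]; omega)
    (Or.inl fun j => by rw [hfr]; omega)

/-- blocks of dimension three -/
theorem max_dec_three {t : ℕ} {D : Fin t → Submodule F (ι → F)}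
    (hD : IsOrthogonalMDecomposition Q 3 D) (hodd : Odd (Fintype.card F))
    (h3 : Fintype.card F ≠ 3) (hd : 7 ≤ Fintype.card ι) :
    IsMaximalIn (omegaGL Q) (decompositionStabilizer D ⊓ omegaGL Q) := by
  have hfr := hD.decomp.decomp.finrank_eq
  have hc := card_eq_mul hQ hD.decomp.decomp
  have h2 : (2 : F) ≠ 0 := fun h => by
    have : ringChar F = 2 := by
      have := (ringChar.spec F 2).1 (by exact_mod_cast h)
      rcases (Nat.dvd_prime Nat.prime_two).1 this with h1 | h1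
      · exact absurd h1 (CharP.ringChar_ne_one)
      · exact h1
    have := FiniteField.even_card_of_char_two this
    rw [Nat.odd_iff] at hodd; omega
  refine max_dec_of hQ hD (by omega) (by omega) fun M D1 hS => ?_
  exact D1.main_three hS hfr h2 (four_le_card h2 (by rwa [Nat.card_eq_fintype_card]))
    ⟨0, by omega⟩ (fin_third hQ (by omega))

omit [DecidableEq ι] [Fintype F] in
lemma plus_of_isometric {W W' : Submodule F (ι → F)} (h : AreIsometricFor Q W W')
    (hp : IsPlusTypeOn Q W) : IsPlusTypeOn Q W' := by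
  obtain ⟨e, he⟩ := h
  obtain ⟨U, hU, hs, hd⟩ := hp
  refine ⟨((U.comap W.subtype).map e.toLinearMap).map W'.subtype, Submodule.map_subtype_le _ _,
    ?_, ?_⟩
  · rintro _ ⟨_, ⟨w, hw, rfl⟩, rfl⟩
    exact (he w).trans (hs _ hw)
  · rw [Submodule.finrank_map_subtype_eq, LinearEquiv.finrank_map_eq,
      (Submodule.comapSubtypeEquivOfLe hU).finrank_eq, hd, e.finrank_eq]

end Cfsg.Agent.Orth
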