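import Cfsg.Agent.Orth.C2d
import Cfsg.Agent.Orth.C2e

/-! Orthogonal decompositions into planes: Step A. -/

set_option autoImplicit false

namespace Cfsg.Agent.Orth

open Module Cfsg Cfsg.Geo

section abstr
variable {F V : Type*} [Field F] [AddCommGroup V] [Module F V] {Q : QuadraticForm F V}
  {ι : Type*} {M : Subgroup (V ≃ₗ[F] V)} {Vb : ι → Submodule F V}

lemma rr_one {a b x : V} (hab : B Q a b = 0) (ha : B Q a x = 1) (hb : B Q b x = 1) :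
    (refl Q a * refl Q b) x = x - (Q a)⁻¹ • a - (Q b)⁻¹ • b := by
  rw [mul_app, refl_apply, refl_apply Q b, map_sub, map_smul, hab, ha, hb]
  module

lemma sw_inv [FiniteDimensional F V] {s : V ≃ₗ[F] V} {U W : Submodule F V} (h1 : ∀ v ∈ U, s v ∈ W)
    (h2 : ∀ v ∈ W, s v ∈ U) : ∀ v ∈ U, s⁻¹ v ∈ W := by
  intro v hv
  have := h1 _ (inv_mem_of_forall_mem (g := s * s) (fun v hv => h2 _ (h1 v hv)) v hv)
  rwa [mul_inv_rev, mul_app, apply_inv_apply] at this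

namespace Dc

variable [FiniteDimensional F V] [Finite F] [Finite ι] (D : Dc Q M Vb) (P : Pl Q Vb)
  (hS : Sw Q M Vb)
include D P

omit [Finite ι] in
lemma AU_blk {u y : V} {l : ι} (hu : u ∈ perp Q (Vb l)) (hy : y ∈ AU Q M u) (hl : D.pr l y ≠ 0) :
    ∃ b ∈ Vb l, b ≠ 0 ∧ b ∈ AU Q M u := by
  obtain ⟨a, ha, b, hb, h1, h2, -, h4⟩ := D.rot_pair P l
  refine ⟨(refl Q a * refl Q b) y - y, ?_, fun h => hl ?_, sub_mem (AU_fix D.le
    (D.rr_mem1 ⟨l, ha⟩ ⟨l, hb⟩ h2.symm) (rr_fix (hu a ha) (hu b hb)) hy) hy⟩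
  · refine (?_ : Submodule.span F {a, b} ≤ Vb l) (rr_sub_mem a b y)
    rw [Submodule.span_le]; rintro _ (rfl | rfl) <;> assumption
  · obtain ⟨h5, h6⟩ := perp_of_rr_fix h1 (h2 ▸ h1) h4 (sub_eq_zero.1 h)
    refine D.pr_of_perp fun v hv => ?_
    obtain ⟨α, β, rfl⟩ := plane_coord (P.dim l) ha hb (ne_zero_of_Q h1) h4 hv
    simp [h5, h6]

omit [Finite ι] in
lemma pair_data {x : V} {i j : ι} (hi : D.pr i x ≠ 0) (hj : D.pr j x ≠ 0) :
    ∃ b ∈ Vb i, ∃ b' ∈ Vb j, B Q b x = 1 ∧ B Q b' x = 1 ∧ Q b ≠ 0 ∧ Q b + Q b' = 0 := by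
  obtain ⟨b, hb, b', hb', h1, h2, h3⟩ : ∃ b ∈ Vb i, ∃ b' ∈ Vb j, B Q (D.pr i x) b = 1 ∧
      B Q (D.pr j x) b' = 1 ∧ Q b ≠ 0 ∧ Q b + Q b' = 0 := by
    rcases P.ty with h | ⟨h, h'⟩
    · exact exists_pair_aniso (D.bnd i) (D.bnd j) (D.two i) (D.two j) (h i) (h j) (D.pr_mem i x)
        (D.pr_mem j x) hi hj
    · exact exists_pair_plus (D.bnd i) (D.bnd j) (P.dim i) (P.dim j) (by omega) (h' i) (h' j)
        (D.pr_mem i x) (D.pr_mem j x) hi hj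
  exact ⟨b, hb, b', hb', by rwa [B_comm, D.B_pr hb] at h1, by rwa [B_comm, D.B_pr hb'] at h2, h3⟩

include hS

lemma A21 {x : V} (hx : In Q M Vb x) (hn : ¬ Bv Vb x) : ∃ y, In Q M Vb y ∧ ∃ i j l, i ≠ j ∧
    l ≠ i ∧ l ≠ j ∧ D.pr i y ≠ 0 ∧ D.pr j y ≠ 0 ∧ D.pr l y ≠ 0 := by
  obtain ⟨i, hi⟩ := D.exists_pr_nonsing hx.1
  obtain ⟨j, hji, hj⟩ := D.exists_pr_ne' (i := i) (x := x) fun h => hn ⟨i, h⟩
  by_cases h : ∃ l, l ≠ i ∧ l ≠ j ∧ D.pr l x ≠ 0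
  · obtain ⟨l, h1, h2, h3⟩ := h
    exact ⟨x, hx, i, j, l, hji.symm, h1, h2, ne_zero_of_Q hi, hj, h3⟩
  push Not at h
  have hx2 : x = D.pr i x + D.pr j x := by
    rw [← sub_eq_zero]
    refine D.span _ fun l => D.perp_of_pr ?_
    rw [map_sub, map_add]
    by_cases h1 : l = i
    · rw [h1, D.pr_of_mem (D.pr_mem i x), D.pr_of_ne hji.symm (D.pr_mem j x)]; simp
    by_cases h2 : l = j
    · rw [h2, D.pr_of_mem (D.pr_mem j x), D.pr_of_ne hji (D.pr_mem i x)]; simp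
    rw [h l h1 h2, D.pr_of_ne h1 (D.pr_mem i x), D.pr_of_ne h2 (D.pr_mem j x)]; simp
  obtain ⟨l, hli, hlj, -⟩ := P.five i j j j
  obtain ⟨m, hmi, hmj, -⟩ := P.five i j j j
  have ha := D.pr_mem i x
  have hb := D.pr_mem j x
  generalize D.pr i x = a at *
  generalize D.pr j x = b at *
  obtain ⟨y, hy, hqy, h1, h2⟩ := P.rot i a ha hi
  obtain ⟨a', ha', hqa⟩ := D.exists_val m (Q y)
  obtain ⟨s, hs, s1, s2, s3⟩ := hS i j l hji.symm hli.symm hlj.symm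
  have hr := refl_mem (Q := Q) hy ha
  have h3 := D.in_pm hs (D.pm_of_sw s1 s2 s3) (D.in_pm (D.rr_mem1 ⟨i, hy⟩ ⟨m, ha'⟩ hqa.symm)
    (pm_of_fix fun i v hv => D.refl_fix ⟨_, hy⟩ i _ (D.refl_fix ⟨_, ha'⟩ i v hv)) hx)
  have h4 : s ((refl Q y * refl Q a') x) = refl Q y a + s b := by
    rw [mul_app, refl_of_perp (a := a') (by
      rw [hx2, map_add, D.B_of_ne hmi ha' ha, D.B_of_ne hmj ha' hb, add_zero]), hx2, map_add,
      refl_of_perp (D.B_of_ne hji.symm hy hb), map_add,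
      s3 _ (D.orth j i hji hr) (D.orth l i hli hr)]
  have h5 := D.in_refl hx h3 (by
    rw [D.le hs, O_Q (mul_mem (refl_mem_O Q y) (refl_mem_O Q a'))])
  rw [h4, refl_apply] at h5
  have h6 : B Q x (refl Q y a + s b) = B Q a (refl Q y a) := by
    rw [hx2]
    simp [D.B_of_ne hji hb hr, D.B_of_ne hli.symm ha (s1 b hb), D.B_of_ne hlj.symm hb (s1 b hb)]
  have h7 : (Q x)⁻¹ * B Q x (refl Q y a + s b) ≠ 0 :=
    mul_ne_zero (inv_ne_zero hx.1) (h6 ▸ h1)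
  generalize (Q x)⁻¹ * B Q x (refl Q y a + s b) = β at *
  refine ⟨_, h5, i, j, l, hji.symm, hli, hlj, fun h => h2 ?_, ?_, ?_⟩
  · rw [hx2] at h
    simp only [map_sub, map_add, map_smul, D.pr_of_mem hr, D.pr_of_ne hli.symm (s1 b hb),
      D.pr_of_mem ha, D.pr_of_ne hji.symm hb, add_zero, sub_eq_zero] at h
    exact Submodule.mem_span_singleton.2 ⟨β, h.symm⟩
  · rw [hx2]
    simpa [D.pr_of_ne hji hr, D.pr_of_ne hlj.symm (s1 b hb), D.pr_of_mem hb, D.pr_of_ne hji ha,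
      h7] using hj
  · rw [hx2]
    simpa [D.pr_of_ne hli hr, D.pr_of_mem (s1 b hb), D.pr_of_ne hli ha,
      D.pr_of_ne hlj hb] using hj

theorem A23 {i j l : ι} (hij : i ≠ j) (hli : l ≠ i) (hlj : l ≠ j) {b1 b2 y : V} (h1 : b1 ∈ Vb i)
    (h2 : b2 ∈ Vb j) (hq : Q b1 ≠ 0) (hq2 : Q b1 + Q b2 = 0) (hy : y ∈ AU Q M (b2 - b1))
    (hyl : D.pr l y ≠ 0) : EO Q ≤ M := by
  have hu : ∀ m, m ≠ i → m ≠ j → b2 - b1 ∈ perp Q (Vb m) := fun m a b =>
    sub_mem (D.orth m j b h2) (D.orth m i a h1)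
  have hqu : Q (b2 - b1) = 0 := by rw [Q_sub, D.B_of_ne hij.symm h2 h1]; linear_combination hq2
  obtain ⟨b, hb, hb0, hbA⟩ := D.AU_blk P (hu l hli hlj) hy hyl
  obtain ⟨m, hmi, hmj, hml, -⟩ := P.five i j l l
  have h3 : ∀ v ∈ Vb l, v ∈ AU Q M (b2 - b1) := by
    refine gamma (D.bnd l) (P.dim l) (P.rot l) (P.ty.imp (fun h => h l)
      fun h => ⟨by omega, h.2 l⟩) (fun a ha _ v hv hvA => ?_) hb hbA hb0
    obtain ⟨a', ha', hqa⟩ := D.exists_val m (Q a)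
    have := AU_fix D.le (D.rr_mem1 ⟨l, ha⟩ ⟨m, ha'⟩ hqa.symm)
      (rr_fix (hu l hli hlj a ha) (hu m hmi hmj a' ha')) hvA
    rwa [mul_app, refl_of_perp (D.B_of_ne hml ha' hv)] at this
  have h4 : ∀ p, p ≠ i → p ≠ j → ∀ v ∈ Vb p, v ∈ AU Q M (b2 - b1) := by
    intro p hpi hpj v hv
    by_cases hp : p = l
    · exact h3 v (hp ▸ hv)
    obtain ⟨s, hs, s1, s2, s3⟩ := hS i p l hpi.symm hli.symm hp
    have h5 := s3 _ (hu p hpi hpj) (hu l hli hlj)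
    simpa using AU_fix D.le (inv_mem hs) (by rw [← h5, inv_apply_apply, h5]) (h3 _ (s1 v hv))
  have tr : ∀ (i j l : ι) (u : V) (s : V ≃ₗ[F] V), s ∈ M → l ≠ i → l ≠ j →
      (∀ v ∈ Vb i, s v ∈ Vb l) →
      (∀ v ∈ Vb l, s v ∈ Vb i) → (∀ v, v ∈ perp Q (Vb i) → v ∈ perp Q (Vb l) → s v = v) →
      (∀ p, p ≠ i → p ≠ j → ∀ v ∈ Vb p, v ∈ AU Q M u) →
      ∀ p, p ≠ j → p ≠ l → ∀ v ∈ Vb p, v ∈ AU Q M (s u) := by
    intro i j l u s hs hli hlj s1 s2 s3 h p hpj hpl v hv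
    by_cases hp : p = i
    · simpa using AU_map D.le hs (h l hli hlj _ (sw_inv s1 s2 v (hp ▸ hv)))
    · have := AU_map D.le hs (h p hp hpj v hv)
      rwa [s3 v (D.orth i p (Ne.symm hp) hv) (D.orth l p (Ne.symm hpl) hv)] at this
  obtain ⟨s, hs, s1, s2, s3⟩ := hS j i l hij.symm hlj.symm hli.symm
  obtain ⟨s', hs', s1', s2', s3'⟩ := hS i j m hij hmi.symm hmj.symm
  have h5 := tr j l m _ s' hs' hmj hml s1' s2' s3' (tr i j l _ s hs hli hlj s1 s2 s3 h4)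
  have h6 : s' (s (b2 - b1)) = s' b2 - s b1 := by
    rw [map_sub, s3 b2 (D.orth i j hij h2) (D.orth l j hlj h2), map_sub,
      s3' _ (D.orth j l hlj.symm (s1 b1 h1)) (D.orth m l hml (s1 b1 h1))]
  have hqu' : Q (s' b2 - s b1) = 0 := by rw [← h6, D.le hs', D.le hs, hqu]
  rw [h6] at h5
  have k1 := s1 b1 h1
  have k2 := s1' b2 h2
  have hTL : ∀ p, p ≠ i → p ≠ j → ∀ v ∈ Vb p, v ∈ TL Q M (b2 - b1) :=
    fun p a b v hv κ => h4 p a b _ (Submodule.smul_mem _ κ hv)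
  have hsb : s b1 ≠ 0 := by simpa using ne_zero_of_Q hq
  generalize s b1 = c1 at *
  generalize s' b2 = c2 at *
  have hfull : Full Q M (b2 - b1) := by
    intro w hw
    have h7 : w - (D.pr i w + D.pr j w) ∈ TL Q M (b2 - b1) := D.mem_of_pr fun p => by
      rw [map_sub, map_add]
      by_cases a : p = i
      · rw [a, D.pr_of_mem (D.pr_mem i w), D.pr_of_ne hij (D.pr_mem j w)]; simp
      by_cases b : p = j
      · rw [b, D.pr_of_mem (D.pr_mem j w), D.pr_of_ne hij.symm (D.pr_mem i w)]; simp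
      rw [D.pr_of_ne a (D.pr_mem i w), D.pr_of_ne b (D.pr_mem j w)]
      simpa using hTL p a b _ (D.pr_mem p w)
    have h8 := add_mem (h5 i hli.symm hmi.symm _ (D.pr_mem i w))
      (h5 j hlj.symm hmj.symm _ (D.pr_mem j w))
    have h9 : D.pr i w + D.pr j w ∈ perp Q (Vb l) :=
      add_mem (D.orth l i hli (D.pr_mem i w)) (D.orth l j hlj (D.pr_mem j w))
    have h10 : B Q (D.pr i w + D.pr j w) (b2 - b1) = 0 := by
      have := (TL.mem_AU h7).1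
      rw [map_sub, hw, zero_sub, neg_eq_zero] at this
      rwa [B_comm]
    generalize D.pr i w + D.pr j w = w' at *
    obtain ⟨x, hx, hne⟩ := (D.bnd l).exists_B_ne k1 hsb
    set x' := -(B Q c1 x)⁻¹ • x with hx'
    have hx'l : x' ∈ Vb l := Submodule.smul_mem _ _ hx
    have e1 : B Q (c2 - c1) x' = 1 := by
      simp [hx', D.B_of_ne hml k2 hx, hne]
    have h11 := AU_fix D.le h8.2 (eich_apply_of_perp (by
      rw [map_sub (B Q), LinearMap.sub_apply, hu m hmi hmj c2 k2, hu l hli hlj c1 k1, sub_zero]) h10)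
      (h3 x' hx'l)
    rw [eich_apply hqu' h8.1, e1, one_smul] at h11
    have h12 := add_mem (sub_mem (add_mem h11
      (sub_mem (hTL m hmi hmj c2 k2) (hTL l hli hlj c1 k1) (B Q w' x' + Q w' * 1))) (h3 x' hx'l))
      (TL.mem_AU h7)
    have : x' + w' - (B Q w' x' + Q w' * 1) • (c2 - c1) + (B Q w' x' + Q w' * 1) • (c2 - c1) - x' +
      (w - w') = w := by abel
    exact (this ▸ h12).2
  obtain ⟨z, hz, hqz, -, h7⟩ := P.rot i b1 h1 hq
  obtain ⟨a', ha', hqa⟩ := D.exists_val l (Q z)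
  refine EO_le_of_full_of_move D.nd D.d5 D.le hqu hfull (D.rr_mem1 ⟨i, hz⟩ ⟨l, ha'⟩ hqa.symm) ?_
  have h8 : B Q z (b2 - b1) ≠ 0 := by
    rw [map_sub, D.B_of_ne hij hz h2, zero_sub, neg_ne_zero]
    intro h
    rw [refl_of_perp h] at h7
    exact h7 (Submodule.mem_span_singleton_self _)
  rw [mul_app, refl_of_perp (hu l hli hlj a' ha'), refl_apply, map_sub (B Q (b2 - b1)),
    B_self_of_sing Q hqu, map_smul, B_comm Q (b2 - b1) z]
  generalize B Q z (b2 - b1) = c at *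
  simp [hqz, h8]

omit hS [Finite ι] P in
lemma AU_of_step {x u : V} {c : F} (hx : In Q M Vb x) (hq : Q u = 0) (hb : B Q u x = 0)
    (hc : c ≠ 0) (h : In Q M Vb (x + c • u)) : (c * -(Q x)⁻¹) • x ∈ AU Q M u := by
  have := D.AU_of_in hx (by rw [Q_smul, hq, mul_zero]) (by simp [hb]) h
  rwa [AU_smul hq hc, smul_smul] at this

theorem A2 {x : V} (hx : In Q M Vb x) (hn : ¬ Bv Vb x) : EO Q ≤ M := by
  obtain ⟨x, hx, i, j, l, hij, hli, hlj, hi, hj, hl⟩ := D.A21 P hS hx hn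
  obtain ⟨b1, h1, b2, h2, e1, e2, q1, q2⟩ := D.pair_data P hi hj
  have q2' : Q b2 = -Q b1 := by linear_combination q2
  have b12 := D.B_of_ne hij h1 h2
  have hqu : Q (b2 - b1) = 0 := by rw [Q_sub, B_comm, b12]; linear_combination q2
  have hux : B Q (b2 - b1) x = 0 := by simp [e1, e2]
  have hxx : x - (Q b1)⁻¹ • b1 - (Q b2)⁻¹ • b2 = x + (Q b1)⁻¹ • (b2 - b1) := by
    rw [q2', inv_neg]; module
  have fin : In Q M Vb (x + (Q b1)⁻¹ • (b2 - b1)) → EO Q ≤ M := fun h =>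
    D.A23 P hS hij hli hlj h1 h2 q1 q2 (D.AU_of_step hx hqu hux (inv_ne_zero q1) h)
      (by simp [q1, hx.1, hl])
  have inrr : ∀ a b y c, Bv Vb a → Bv Vb b → c ≠ 0 → Q a = c * c * Q b → In Q M Vb y →
      In Q M Vb ((refl Q a * refl Q b) y) := fun a b y c ha hb hc hq hy =>
    D.in_pm (D.rr_mem ha hb hc hq)
      (pm_of_fix fun i v hv => D.refl_fix ha i _ (D.refl_fix hb i v hv)) hy
  by_cases hsq : IsSquare (-1 : F)
  · obtain ⟨c, hc⟩ := hsq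
    have := inrr b1 b2 x c ⟨i, h1⟩ ⟨j, h2⟩ (by rintro rfl; simp at hc) (by rw [← hc, q2']; ring) hx
    rw [rr_one b12 e1 e2, hxx] at this
    exact fin this
  by_cases hz : ∃ m, D.pr m x = 0
  · obtain ⟨m, hm⟩ := hz
    have hmj : m ≠ j := by rintro rfl; exact hj hm
    obtain ⟨a1, ha1, qa1⟩ := D.exists_val m (Q b1)
    obtain ⟨a2, ha2, qa2⟩ := D.exists_val m (Q b2)
    have := inrr b1 a1 _ 1 ⟨i, h1⟩ ⟨m, ha1⟩ one_ne_zero (by simp [qa1])
      (inrr b2 a2 x 1 ⟨j, h2⟩ ⟨m, ha2⟩ one_ne_zero (by simp [qa2]) hx)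
    rw [mul_app, mul_app, refl_of_perp (D.perp_of_pr hm a2 ha2), refl_of_perp (a := a1) (by
      rw [refl_apply, map_sub, map_smul, D.perp_of_pr hm a1 ha1, D.B_of_ne hmj ha1 h2]; simp),
      ← mul_app, rr_one b12 e1 e2, hxx] at this
    exact fin this
  push Not at hz
  have h2' : (2 : F) ≠ 0 := fun h => hsq ⟨1, by linear_combination -h⟩
  obtain ⟨m, hmi, hmj, hml, -⟩ := P.five i j l l
  obtain ⟨p, hpi, hpj, hpl, hpm⟩ := P.five i j l m
  have main : ∀ l m, l ≠ i → l ≠ j → m ≠ i → m ≠ j → m ≠ l → p ≠ l → p ≠ m →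
      ∀ b3 ∈ Vb l, ∀ b4 ∈ Vb m, B Q b3 x = 1 → B Q b4 x = 1 → Q b3 ≠ 0 → Q b3 + Q b4 = 0 →
      IsSquare (Q b1 * Q b3) → EO Q ≤ M := by
    intro l m hli hlj hmi hmj hml hpl hpm b3 h3 b4 h4 e3 e4 q3 q4 hs
    have q4' : Q b4 = -Q b3 := by linear_combination q4
    obtain ⟨c, hc, hcq⟩ := ratio_of_sq q1 q3 hs
    have h5 := inrr b1 b3 _ c ⟨i, h1⟩ ⟨l, h3⟩ hc hcq
      (inrr b2 b4 x c ⟨j, h2⟩ ⟨m, h4⟩ hc (by rw [q2', q4', hcq]; ring) hx)
    rw [rr_one (D.B_of_ne hmj.symm h2 h4) e2 e4, rr_one (D.B_of_ne hli.symm h1 h3)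
      (by simp [e1, b12, D.B_of_ne hmi.symm h1 h4])
      (by simp [e3, D.B_of_ne hlj h3 h2, D.B_of_ne hml.symm h3 h4])] at h5
    set u1 := (Q b1)⁻¹ • (b2 - b1) with hu1
    set u2 := (Q b3)⁻¹ • (b4 - b3) with hu2
    have h6 : x - (Q b2)⁻¹ • b2 - (Q b4)⁻¹ • b4 - (Q b1)⁻¹ • b1 - (Q b3)⁻¹ • b3 =
        x + (u1 + u2) := by rw [hu1, hu2, q2', q4', inv_neg, inv_neg]; module
    have p1 : ∀ r, r ≠ i → r ≠ j → u1 ∈ perp Q (Vb r) := fun r a b =>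
      Submodule.smul_mem _ _ (sub_mem (D.orth r j b h2) (D.orth r i a h1))
    have p2 : ∀ r, r ≠ l → r ≠ m → u2 ∈ perp Q (Vb r) := fun r a b =>
      Submodule.smul_mem _ _ (sub_mem (D.orth r m b h4) (D.orth r l a h3))
    have qu1 : Q u1 = 0 := by rw [hu1, Q_smul, hqu, mul_zero]
    have qu2 : Q u2 = 0 := by
      rw [hu2, Q_smul, Q_sub, D.B_of_ne hml h4 h3, q4']; ring
    have b12' : B Q u1 u2 = 0 := by
      rw [B_comm, hu2]
      simp [p1 m hmi hmj b4 h4, p1 l hli hlj b3 h3]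
    rw [h6] at h5
    have h7 := D.AU_of_in hx (by rw [Q_add, qu1, qu2, b12']; ring)
      (by simp [hu1, hu2, e1, e2, e3, e4]) h5
    obtain ⟨b0, hb0, hb00, hbA⟩ := D.AU_blk P (add_mem (p1 p hpi hpj) (p2 p hpl hpm)) h7
      (by simp [hx.1, hz p])
    obtain ⟨s, hs, s1, -, -⟩ := hS i l m hli.symm hmi.symm hml.symm
    obtain ⟨z, hzl, qz, bz⟩ := (D.bnd l).exists_perp_nonsing (D.two l) h3 q3
    have g1 := mul_mem (D.rr_mem1 ⟨l, h3⟩ ⟨m, s1 b3 h3⟩ (D.le hs b3).symm)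
      (D.rr_mem1 ⟨l, hzl⟩ ⟨m, s1 z hzl⟩ (D.le hs z).symm)
    set h := refl Q b3 * refl Q (s b3) * (refl Q z * refl Q (s z)) with hh
    have g2 : ∀ v, v ∈ perp Q (Vb l) → v ∈ perp Q (Vb m) → h v = v := fun v a b => by
      rw [hh, mul_app, rr_fix (a z hzl) (b _ (s1 z hzl)), rr_fix (a b3 h3) (b _ (s1 b3 h3))]
    have g3 : h b3 = -b3 := by
      rw [hh, mul_app, rr_fix (by rw [B_comm, bz]) (D.B_of_ne hml (s1 z hzl) h3), mul_app,
        refl_of_perp (D.B_of_ne hml (s1 b3 h3) h3), refl_self q3]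
    have g4 : h b4 = -b4 := by
      rw [hh, mul_app, mul_app, mul_app,
        refl_of_perp (D.B_of_ne hml.symm hzl (refl_mem (s1 z hzl) h4)),
        rr_neg (P.dim m) h2' (s1 b3 h3) (s1 z hzl) (by rwa [D.le hs]) (by rwa [D.le hs])
          (by rwa [O_B (D.le hs)]) h4, map_neg, refl_of_perp (D.B_of_ne hml.symm h3 h4)]
    have g5 := AU_map D.le g1 hbA
    rw [g2 b0 (D.orth l p hpl.symm hb0) (D.orth m p hpm.symm hb0), map_add,
      g2 u1 (p1 l hli hlj) (p1 m hmi hmj), hu2, map_smul, map_sub, g3, g4, neg_sub_neg, ← neg_sub,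
      smul_neg, ← hu2, ← sub_eq_add_neg] at g5
    have c1 : B Q u1 b0 = 0 := by rw [B_comm]; exact p1 p hpi hpj b0 hb0
    have c2 : B Q u2 b0 = 0 := by rw [B_comm]; exact p2 p hpl hpm b0 hb0
    have g6 := mul_mem g5.2 hbA.2
    rw [eich_pair_id qu1 qu2 b12' c1 c2] at g6
    have g7 : (2 : F) • b0 + (2 * Q b0) • u2 ∈ AU Q M u1 := ⟨by simp [c1, b12'], g6⟩
    rw [hu1, AU_smul hqu (inv_ne_zero q1)] at g7
    refine D.A23 P hS hij hpi hpj h1 h2 q1 q2 g7 ?_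
    simp [D.pr_of_mem hb0, D.pr_of_perp (p2 p hpl hpm), q1, h2', hb00]
  obtain ⟨b3, h3, b4, h4, e3, e4, q3, q4⟩ := D.pair_data P hl (hz m)
  rcases sq_or (mul_ne_zero q1 q3) (neg_ne_zero.2 (one_ne_zero (α := F))) with h | h | h
  · exact main l m hli hlj hmi hmj hml hpl hpm b3 h3 b4 h4 e3 e4 q3 q4 h
  · exact absurd h hsq
  · have q4' : Q b4 = -Q b3 := by linear_combination q4
    exact main m l hmi hmj hli hlj hml.symm hpm hpl b4 h4 b3 h3 e4 e3 (by rw [q4']; simpa using q3)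
      (by rw [add_comm, q4]) (by convert h using 1; rw [q4']; ring)

theorem main_two (j : ι) : (∀ g ∈ M, Pm Vb g) ∨ EO Q ≤ M := by
  by_cases hE : EO Q ≤ M
  · exact Or.inr hE
  · exact Or.inl (D.pm_pl P (fun x hx => by
      by_contra hn; exact hE (D.A2 P hS hx hn)) j)

end Dc

end abstr

lemma fin_five {t : ℕ} (ht : 5 ≤ t) (i j l m : Fin t) : ∃ p, p ≠ i ∧ p ≠ j ∧ p ≠ l ∧ p ≠ m := by
  classical
  by_contra h; push Not at h
  have h1 : (Finset.univ : Finset (Fin t)) ⊆ {i, j, l, m} := fun p _ => by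
    simp only [Finset.mem_insert, Finset.mem_singleton]
    by_contra h'; push Not at h'
    exact h'.2.2.2 (h p h'.1 h'.2.1 h'.2.2.1)
  have := (Finset.card_le_card h1).trans Finset.card_le_four
  simp at this; omega

variable {ι : Type} [Fintype ι] [DecidableEq ι] {F : Type*} [Field F] [Fintype F]
  {Q : (ι → F) → F} (hQ : IsNondegenerateQuadraticForm Q)
include hQ

/-- blocks of dimension two -/
theorem max_dec_two {t : ℕ} {D : Fin t → Submodule F (ι → F)}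
    (hD : IsOrthogonalMDecomposition Q 2 D) (hd : 9 ≤ Fintype.card ι)
    (h3 : Fintype.card F ≠ 3) (hp : (∀ i, IsPlusTypeOn Q (D i)) → 7 ≤ Fintype.card F) :
    IsMaximalIn (omegaGL Q) (decompositionStabilizer D ⊓ omegaGL Q) := by
  have hfr := hD.decomp.decomp.finrank_eq
  have hc := card_eq_mul hQ hD.decomp.decomp
  refine max_dec_of hQ hD le_rfl (by omega) fun M D1 hS => ?_
  have hty : (∀ i, ∀ v ∈ D i, toQF hQ v = 0 → v = 0) ∨
      (7 ≤ Nat.card F ∧ ∀ i, ∃ e ∈ D i, e ≠ 0 ∧ toQF hQ e = 0) := by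
    by_cases h : ∀ i, ∀ v ∈ D i, toQF hQ v = 0 → v = 0
    · exact Or.inl h
    push Not at h
    obtain ⟨i, v, hv, hq, hv0⟩ := h
    have h1 : ∀ j, IsPlusTypeOn Q (D j) := fun j =>
      plus_of_isometric hQ (hD.isometric i j) (plus_of_sing hQ (hfr i) hv hv0 hq)
    refine Or.inr ⟨by rw [Nat.card_eq_fintype_card]; exact hp h1, fun j => ?_⟩
    obtain ⟨U, hU, hs, hd⟩ := h1 j
    obtain ⟨e, he, he0⟩ := exists_mem_notMem_of_finrank_lt (H := U) (X := ⊥)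
      (by rw [finrank_bot, hfr] at *; omega)
    exact ⟨e, hU he, by simpa using he0, hs e he⟩
  exact D1.main_two ⟨hfr, fin_five (by omega), fun i => (D1.bnd i).rot (D1.two i)
    (hty.symm.imp (fun h => by omega) fun h => ⟨h i, by rwa [Nat.card_eq_fintype_card]⟩), hty⟩ hS
    ⟨0, by omega⟩

end Cfsg.Agent.Orth
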