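import Cfsg.Agent.Orth.C2c

/-! Plane geometry needed for decompositions into planes. -/

set_option autoImplicit false

namespace Cfsg.Agent.Orth

open Module

variable {F V : Type*} [Field F] [AddCommGroup V] [Module F V] {Q : QuadraticForm F V}

lemma sq_or [Finite F] {a b : F} (ha : a ≠ 0) (hb : b ≠ 0) :
    IsSquare a ∨ IsSquare b ∨ IsSquare (a * b) := by
  classical
  have := Fintype.ofFinite F
  rcases quadraticChar_dichotomy ha with h | h
  · exact Or.inl ((quadraticChar_one_iff_isSquare ha).1 h)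
  rcases quadraticChar_dichotomy hb with h' | h'
  · exact Or.inr (Or.inl ((quadraticChar_one_iff_isSquare hb).1 h'))
  exact Or.inr (Or.inr ((quadraticChar_one_iff_isSquare (mul_ne_zero ha hb)).1 (by
    rw [map_mul, h, h']; norm_num)))

lemma ratio_of_sq {a b : F} (ha : a ≠ 0) (hb : b ≠ 0) (h : IsSquare (a * b)) :
    ∃ c, c ≠ 0 ∧ a = c * c * b := by
  obtain ⟨r, hr⟩ := h
  have hr0 : r ≠ 0 := by rintro rfl; simp [ha, hb] at hr
  exact ⟨r * b⁻¹, mul_ne_zero hr0 (inv_ne_zero hb), by field_simp; linear_combination hr⟩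

lemma half_le_image [Fintype F] [DecidableEq F] (a b : F) {c : F} (hc : c ≠ 0) :
    Fintype.card F ≤ 2 * (Finset.univ.image fun k : F => a + b * k + c * (k * k)).card := by
  have h := FiniteField.card_image_polynomial_eval
    (p := Polynomial.C c * Polynomial.X ^ 2 + Polynomial.C b * Polynomial.X + Polynomial.C a)
    (by rw [Polynomial.degree_quadratic hc]; norm_num)
  rw [Polynomial.natDegree_quadratic hc] at h
  convert h using 4
  ext k
  simp only [Polynomial.eval_add, Polynomial.eval_mul, Polynomial.eval_C, Polynomial.eval_pow,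
    Polynomial.eval_X]
  ring

lemma rr_ne_neg {a b : V} (ha : Q a ≠ 0) (hb : Q b ≠ 0) (hab : B Q a b ≠ 0) (hn : b ∉ F ∙ a) :
    (refl Q a * refl Q b) a ≠ -a := by
  intro h
  rw [mul_app, ← refl_self ha] at h
  have h1 := (refl Q a).injective h
  rw [refl_apply, sub_eq_self, smul_eq_zero, B_comm] at h1
  rcases h1 with h1 | h1
  · simp [hb, hab] at h1
  · exact hn (h1 ▸ zero_mem _)

lemma perp_of_rr_fix {a b v : V} (ha : Q a ≠ 0) (hb : Q b ≠ 0) (hn : b ∉ F ∙ a)
    (h : (refl Q a * refl Q b) v = v) : B Q a v = 0 ∧ B Q b v = 0 := by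
  have h1 : refl Q b v = refl Q a v := by
    nth_rewrite 2 [← h]; rw [mul_app, refl_refl]
  rw [refl_apply, refl_apply, sub_right_inj] at h1
  have h2 : B Q b v = 0 := by
    by_contra h2
    refine hn (Submodule.mem_span_singleton.2
      ⟨((Q b)⁻¹ * B Q b v)⁻¹ * ((Q a)⁻¹ * B Q a v), ?_⟩)
    rw [mul_smul, ← h1, smul_smul, inv_mul_cancel₀ (mul_ne_zero (inv_ne_zero hb) h2), one_smul]
  rw [h2, mul_zero, zero_smul, eq_comm, smul_eq_zero] at h1
  exact ⟨by simpa [ha, ne_zero_of_Q ha] using h1, h2⟩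

lemma notMem_symm {a b : V} (ha : a ≠ 0) (hn : b ∉ F ∙ a) : a ∉ F ∙ b := by
  intro h
  obtain ⟨c, rfl⟩ := Submodule.mem_span_singleton.1 h
  have hc : c ≠ 0 := by rintro rfl; simp at ha
  exact hn (Submodule.mem_span_singleton.2 ⟨c⁻¹, by rw [smul_smul, inv_mul_cancel₀ hc, one_smul]⟩)

lemma eich_pair_id {u u' b : V} (hu : Q u = 0) (hu' : Q u' = 0) (h : B Q u u' = 0)
    (hb : B Q u b = 0) (hb' : B Q u' b = 0) :
    eich Q (u - u') b * eich Q (u + u') b = eich Q u ((2 : F) • b + (2 * Q b) • u') := by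
  ext x
  rw [mul_app, eich_apply (u := u - u') (by rw [Q_sub, hu, hu', h]; ring) (by simp [hb, hb']),
    eich_apply (u := u + u') (by rw [Q_add, hu, hu', h]; ring) (by simp [hb, hb']),
    eich_apply hu (by simp [hb, h])]
  simp only [map_add, map_sub, map_smul, LinearMap.add_apply, LinearMap.sub_apply,
    LinearMap.smul_apply, smul_eq_mul, hb, hb', h, B_comm Q b u, B_comm Q b u', B_comm Q u' u,
    B_self, hu, hu', Q_add, Q_smul]
  module

lemma hyp_notMem {e f : V} (he : Q e = 0) (hef : B Q e f = 1) : f ∉ F ∙ e := by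
  intro h
  obtain ⟨c, rfl⟩ := Submodule.mem_span_singleton.1 h
  simp [B_self_of_sing Q he] at hef

variable [FiniteDimensional F V]

lemma NdOn.exists_line {P : Submodule F V} (hP : NdOn Q P) (hd : 2 ≤ finrank F P) {x : V}
    (hx : x ∈ P) (hx0 : x ≠ 0) :
    ∃ w ∈ P, ∃ z ∈ P, B Q x w = 1 ∧ B Q x z = 0 ∧ z ≠ 0 := by
  obtain ⟨w, hw, hne⟩ := hP.exists_B_ne hx hx0
  have h1 := finrank_inf_perp_ge (Q := Q) P (F ∙ x)
  have h2 := finrank_span_singleton_le (F := F) x
  obtain ⟨z, hz, hz0⟩ := exists_mem_notMem_of_finrank_lt (H := P ⊓ Orth.perp Q (F ∙ x)) (X := ⊥)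
    (by rw [finrank_bot]; omega)
  exact ⟨(B Q x w)⁻¹ • w, P.smul_mem _ hw, z, hz.1, by simp [hne],
    mem_perp_span_singleton.1 hz.2, by simpa using hz0⟩

lemma NdOn.exists_perp_nonsing {P : Submodule F V} (hP : NdOn Q P) (hd : 2 ≤ finrank F P) {y : V}
    (hy : y ∈ P) (hq : Q y ≠ 0) : ∃ z ∈ P, Q z ≠ 0 ∧ B Q y z = 0 := by
  by_cases h2 : (2 : F) = 0
  · exact ⟨y, hy, hq, by rw [B_self, h2, zero_mul]⟩
  · have h1 := (Submodule.span_singleton_le_iff_mem _ _).2 hy
    have h3 := hP.finrank_inf_perp h1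
    have h4 := finrank_span_singleton_le (F := F) y
    obtain ⟨z, hz, h⟩ := (hP.inf_perp (NdOn.span_singleton h2 hq) h1).exists_nonsing le_rfl
      (by omega)
    exact ⟨z, hz.1, h, mem_perp_span_singleton.1 hz.2⟩

lemma rr_neg {P : Submodule F V} (hd : finrank F P = 2) (h2 : (2 : F) ≠ 0) {v z : V} (hv : v ∈ P)
    (hz : z ∈ P) (hqv : Q v ≠ 0) (hqz : Q z ≠ 0) (h : B Q v z = 0) {x : V} (hx : x ∈ P) :
    refl Q v (refl Q z x) = -x := by
  obtain ⟨α, β, rfl⟩ := plane_coord hd hv hz (ne_zero_of_Q hqv) (fun h' => by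
    obtain ⟨c, rfl⟩ := Submodule.mem_span_singleton.1 h'
    rw [map_smul, B_self] at h
    have : c = 0 := by simpa [h2, hqv] using h
    simp [this] at hqz) hx
  have h' : B Q z v = 0 := by rw [B_comm, h]
  simp only [map_add, map_smul, refl_self hqz, refl_of_perp h, map_neg,
    refl_of_perp h', refl_self hqv]
  module

lemma NdOn.exists_sing_one {P : Submodule F V} (hP : NdOn Q P) (hd : finrank F P = 2) {e x : V}
    (he : e ∈ P) (he0 : e ≠ 0) (hq : Q e = 0) (hx : x ∈ P) (hx0 : x ≠ 0) :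
    ∃ s ∈ P, Q s = 0 ∧ B Q x s = 1 := by
  obtain ⟨s, hs, h0, hne⟩ := exists_sing_apply_ne_of_sing he hq (hP.exists_B_ne he he0) (B Q x)
    (hP.exists_B_ne hx hx0)
  exact ⟨(B Q x s)⁻¹ • s, P.smul_mem _ hs, by rw [Q_smul, h0, mul_zero], by simp [hne]⟩

variable [Finite F]

lemma exists_pair_aniso {P P' : Submodule F V} (hP : NdOn Q P) (hP' : NdOn Q P')
    (hd : 2 ≤ finrank F P) (hd' : 2 ≤ finrank F P') (ha : ∀ v ∈ P, Q v = 0 → v = 0)
    (ha' : ∀ v ∈ P', Q v = 0 → v = 0) {x x' : V} (hx : x ∈ P) (hx' : x' ∈ P') (h0 : x ≠ 0)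
    (h0' : x' ≠ 0) : ∃ b ∈ P, ∃ b' ∈ P', B Q x b = 1 ∧ B Q x' b' = 1 ∧ Q b ≠ 0 ∧
      Q b + Q b' = 0 := by
  classical
  have := Fintype.ofFinite F
  obtain ⟨w, hw, z, hz, h1, h2, h3⟩ := hP.exists_line hd hx h0
  obtain ⟨w', hw', z', hz', h1', h2', h3'⟩ := hP'.exists_line hd' hx' h0'
  have e1 : ∀ k : F, B Q x (w + k • z) = 1 := fun k => by simp [h1, h2]
  have e1' : ∀ k : F, B Q x' (w' + k • z') = 1 := fun k => by simp [h1', h2']
  have e2 : ∀ k : F, Q (w + k • z) ≠ 0 := fun k h => by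
    have := e1 k
    rw [ha _ (add_mem hw (P.smul_mem k hz)) h] at this; simp at this
  have e2' : ∀ k : F, Q (w' + k • z') ≠ 0 := fun k h => by
    have := e1' k
    rw [ha' _ (add_mem hw' (P'.smul_mem k hz')) h] at this; simp at this
  by_contra hcon
  have c1 := half_le_image (Q w) (B Q z w) (c := Q z) fun h => h3 (ha z hz h)
  have c2 := half_le_image (-Q w') (-B Q z' w') (c := -Q z')
    (neg_ne_zero.2 fun h => h3' (ha' z' hz' h))
  have hdisj : Disjoint (Finset.univ.image fun k : F => Q w + B Q z w * k + Q z * (k * k))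
      (Finset.univ.image fun k : F => -Q w' + -B Q z' w' * k + -Q z' * (k * k)) := by
    rw [Finset.disjoint_left]
    intro a h h'
    obtain ⟨k, -, rfl⟩ := Finset.mem_image.1 h
    obtain ⟨k', -, h'⟩ := Finset.mem_image.1 h'
    exact hcon ⟨_, add_mem hw (P.smul_mem k hz), _, add_mem hw' (P'.smul_mem k' hz'), e1 k, e1' k',
      e2 k, by rw [Q_line, Q_line]; linear_combination -h'⟩
  have c3 := Finset.card_le_card (t := Finset.univ.erase (0 : F)) (Finset.union_subset
    (s := Finset.univ.image fun k : F => Q w + B Q z w * k + Q z * (k * k))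
    (t := Finset.univ.image fun k : F => -Q w' + -B Q z' w' * k + -Q z' * (k * k))
    (fun a h => by
      obtain ⟨k, -, rfl⟩ := Finset.mem_image.1 h
      exact Finset.mem_erase.2 ⟨by rw [← Q_line]; exact e2 k, Finset.mem_univ _⟩)
    (fun a h => by
      obtain ⟨k, -, rfl⟩ := Finset.mem_image.1 h
      exact Finset.mem_erase.2 ⟨fun h => e2' k (by rw [Q_line]; linear_combination -h),
        Finset.mem_univ _⟩))
  rw [Finset.card_union_of_disjoint hdisj, Finset.card_erase_of_mem (Finset.mem_univ _),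
    Finset.card_univ] at c3
  have := Fintype.card_pos (α := F)
  omega

lemma exists_pair_plus {P P' : Submodule F V} (hP : NdOn Q P) (hP' : NdOn Q P')
    (hd : finrank F P = 2) (hd' : finrank F P' = 2) (h6 : 6 ≤ Nat.card F)
    (hs : ∃ e ∈ P, e ≠ 0 ∧ Q e = 0) (hs' : ∃ e ∈ P', e ≠ 0 ∧ Q e = 0)
    {x x' : V} (hx : x ∈ P) (hx' : x' ∈ P') (h0 : x ≠ 0)
    (h0' : x' ≠ 0) : ∃ b ∈ P, ∃ b' ∈ P', B Q x b = 1 ∧ B Q x' b' = 1 ∧ Q b ≠ 0 ∧
      Q b + Q b' = 0 := by
  have key : ∀ {P : Submodule F V}, NdOn Q P → finrank F P = 2 → (∃ e ∈ P, e ≠ 0 ∧ Q e = 0) →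
      ∀ x ∈ P, x ≠ 0 → ∃ e ∈ P, ∃ z ∈ P, Q e = 0 ∧ B Q x e = 1 ∧ B Q x z = 0 ∧ B Q z e ≠ 0 := by
    rintro P hP hd ⟨e0, h1, h2, h3⟩ x hx h0
    obtain ⟨e, he, hq, hxe⟩ := hP.exists_sing_one hd h1 h2 h3 hx h0
    obtain ⟨-, -, z, hz, -, hxz, hz0⟩ := hP.exists_line hd.ge hx h0
    refine ⟨e, he, z, hz, hq, hxe, hxz, fun h => ?_⟩
    have he0 : e ≠ 0 := by rintro rfl; simp at hxe
    refine he0 (hP e he fun y hy => ?_)
    obtain ⟨α, β, rfl⟩ := plane_coord hd hz he hz0 (fun h' => by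
      obtain ⟨c, rfl⟩ := Submodule.mem_span_singleton.1 h'
      simp [hxz] at hxe) hy
    simp [h, B_self_of_sing Q hq]
  obtain ⟨e, he, z, hz, hq, h1, h2, h3⟩ := key hP hd hs x hx h0
  obtain ⟨e', he', z', hz', hq', h1', h2', h3'⟩ := key hP' hd' hs' x' hx' h0'
  have fin : ∀ k k' : F, B Q z e * k + Q z * (k * k) ≠ 0 →
      B Q z e * k + Q z * (k * k) + (B Q z' e' * k' + Q z' * (k' * k')) = 0 →
      ∃ b ∈ P, ∃ b' ∈ P', B Q x b = 1 ∧ B Q x' b' = 1 ∧ Q b ≠ 0 ∧ Q b + Q b' = 0 :=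
    fun k k' a b => ⟨e + k • z, add_mem he (P.smul_mem k hz), e' + k' • z',
      add_mem he' (P'.smul_mem k' hz'), by simp [h1, h2], by simp [h1', h2'],
      by rw [Q_line, hq, zero_add]; exact a,
      by rw [Q_line, Q_line, hq, hq', zero_add, zero_add]; exact b⟩
  by_cases hzz : Q z = 0 ∧ Q z' = 0
  · exact fin (B Q z' e') (-B Q z e) (by simp [hzz.1, h3, h3']) (by rw [hzz.1, hzz.2]; ring)
  obtain ⟨m, hm⟩ := ((few_quad (a := Q z) (b := 0) (c := Q z') (fun h => hzz ⟨h.1, h.2.2⟩)).or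
    ((few_lin (a := B Q z e) (b := B Q z' e') (fun h => h3 h.1)).or
    (few_quad (a := 0) (b := -(Q z * B Q z' e')) (c := B Q z e * Q z') (fun h => hzz
      ⟨by simpa [h3'] using h.2.1, by simpa [h3] using h.2.2⟩)))).exists_not (by omega)
  simp only [not_or, zero_mul, add_zero, zero_add] at hm
  obtain ⟨m1, m2, m3⟩ := hm
  obtain ⟨l, hl⟩ : ∃ l, l * (Q z + Q z' * (m * m)) = -(B Q z e + B Q z' e' * m) :=
    ⟨_, div_mul_cancel₀ _ m1⟩
  have hl0 : l ≠ 0 := by rintro rfl; exact m2 (by linear_combination hl)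
  refine fin l (l * m) (fun h => m3 ?_) (by linear_combination l * hl)
  have h4 : B Q z e + Q z * l = 0 := mul_left_cancel₀ hl0 (by linear_combination h)
  linear_combination (Q z + Q z' * (m * m)) * h4 - Q z * hl

omit [FiniteDimensional F V] in
lemma addSubgroup_eq_top {L : AddSubgroup F} (S : Finset F) (hS : ∀ s ∈ S, s ∈ L)
    (h : Nat.card F < 2 * S.card) : ∀ t, t ∈ L := by
  have h1 : S.card ≤ Nat.card L := by
    rw [← Fintype.card_coe, ← Nat.card_eq_fintype_card]
    exact Nat.card_le_card_of_injective (fun s : S => (⟨s, hS s s.2⟩ : L))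
      fun a b h => Subtype.ext (by simpa using h)
  have h2 := L.card_mul_index
  have h3 : L.index = 1 := by
    have h4 := L.index_ne_zero_of_finite
    by_contra h5
    have : Nat.card L * 2 ≤ Nat.card L * L.index := Nat.mul_le_mul_left _ (by omega)
    omega
  rw [AddSubgroup.index_eq_one] at h3
  intro t; rw [h3]; trivial

theorem gamma {P : Submodule F V} (hP : NdOn Q P) (hd : finrank F P = 2) (hR : Rot Q P)
    (hty : (∀ v ∈ P, Q v = 0 → v = 0) ∨ (5 ≤ Nat.card F ∧ ∃ e ∈ P, e ≠ 0 ∧ Q e = 0))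
    {A : AddSubgroup V} (hA : ∀ a ∈ P, Q a ≠ 0 → ∀ v ∈ P, v ∈ A → refl Q a v ∈ A) {b : V}
    (hb : b ∈ P) (hbA : b ∈ A) (hb0 : b ≠ 0) : ∀ v ∈ P, v ∈ A := by
  classical
  have := Fintype.ofFinite F
  rcases hty with ha | ⟨h5, e, he, he0, hqe⟩
  · have key : ∀ v ∈ P, v ∈ A → v ≠ 0 → ∀ t : F, t • v ∈ A := by
      intro v hv hvA hv0
      have hq : Q v ≠ 0 := fun h => hv0 (ha v hv h)
      obtain ⟨w, hw, z, hz, h1, h2, h3⟩ := hP.exists_line hd.ge hv hv0
      have e1 : ∀ k : F, B Q v (w + k • z) = 1 := fun k => by simp [h1, h2]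
      have e2 : ∀ k : F, Q (w + k • z) ≠ 0 := fun k h => by
        have := e1 k
        rw [ha _ (add_mem hw (P.smul_mem k hz)) h] at this; simp at this
      have c1 := half_le_image (Q w) (B Q z w) (c := Q z) fun h => h3 (ha z hz h)
      refine addSubgroup_eq_top (L := A.comap (LinearMap.toSpanSingleton F V v).toAddMonoidHom)
        (insert 0 ((Finset.univ.image fun k : F => Q w + B Q z w * k + Q z * (k * k)).image
          fun y => (y * Q v)⁻¹)) (fun s hs => ?_) ?_
      · rcases Finset.mem_insert.1 hs with rfl | hs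
        · exact zero_mem _
        obtain ⟨_, hy, rfl⟩ := Finset.mem_image.1 hs
        obtain ⟨k, -, rfl⟩ := Finset.mem_image.1 hy
        have h4 := add_mem hw (P.smul_mem k hz)
        have h5 := hA _ h4 (e2 k) v hv hvA
        have h6 := sub_mem (add_mem hvA hvA)
          (sub_mem h5 (hA v hv hq _ (refl_mem h4 hv) h5))
        rw [refl_apply Q v, sub_sub_cancel, refl_apply, map_sub, map_smul, B_self,
          B_comm Q _ v, e1] at h6
        change ((Q w + B Q z w * k + Q z * (k * k)) * Q v)⁻¹ • v ∈ A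
        convert h6 using 1
        rw [← Q_line]
        have := e2 k
        rw [smul_eq_mul]
        generalize Q (w + k • z) = c at *
        match_scalars; field_simp; ring
      · rw [Finset.card_insert_of_notMem, Finset.card_image_of_injective,
          Nat.card_eq_fintype_card]
        · omega
        · intro a b h
          simpa [hq] using h
        · intro h
          obtain ⟨_, hy, h⟩ := Finset.mem_image.1 h
          obtain ⟨k, -, rfl⟩ := Finset.mem_image.1 hy
          rw [← Q_line] at h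
          simp [hq, e2 k] at h
    obtain ⟨y, hy, hqy, -, h1⟩ := hR b hb fun h => hb0 (ha b hb h)
    intro v hv
    obtain ⟨α, β, rfl⟩ := plane_coord hd hb (refl_mem hy hb) hb0 h1 hv
    exact add_mem (key b hb hbA hb0 α) (key _ (refl_mem hy hb) (hA y hy hqy b hb hbA)
      (fun h => h1 (h ▸ zero_mem _)) β)
  · obtain ⟨s, hs, hsA, hs0, hqs⟩ : ∃ s ∈ P, s ∈ A ∧ s ≠ 0 ∧ Q s = 0 := by
      by_cases hqb : Q b = 0
      · exact ⟨b, hb, hbA, hb0, hqb⟩
      obtain ⟨f, hf, hqf, hef⟩ := exists_partner he hqe (hP.exists_B_ne he he0)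
      obtain ⟨α, β, rfl⟩ := plane_coord hd he hf he0 (hyp_notMem hqe hef) hb
      have hQ : ∀ s t : F, Q (s • e + t • f) = s * t := fun s t => by
        simp [Q_add, Q_smul, hqe, hqf, hef, mul_comm]
      rw [hQ] at hqb
      have h1 : ∀ l : F, l ≠ 0 → l • e + (α * β * l⁻¹) • f ∈ A := by
        intro l hl
        by_cases hla : l = α
        · rwa [hla, show α * β * α⁻¹ = β by field_simp [left_ne_zero_of_mul hqb]]
        have h2 : Q (l • e + (α * β * l⁻¹) • f - (α • e + β • f)) ≠ 0 := by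
          rw [show l • e + (α * β * l⁻¹) • f - (α • e + β • f) =
            (l - α) • e + (α * β * l⁻¹ - β) • f by module, hQ]
          refine mul_ne_zero (sub_ne_zero.2 hla) fun h => hla ?_
          field_simp at h
          have := right_ne_zero_of_mul hqb
          apply mul_left_cancel₀ this
          linear_combination -h
        rw [← refl_sub_apply (by rw [hQ, hQ]; field_simp) h2]
        exact hA _ (sub_mem (add_mem (P.smul_mem _ he) (P.smul_mem _ hf)) hb) h2 _ hb hbA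
      obtain ⟨t, ht⟩ := ((few_zero (F := F)).or ((few_lin (a := 1) (b := 1) (by simp)).or
        (few_quad (a := 1) (b := 1) (c := 1) (by simp)))).exists_not (by omega)
      simp only [not_or, one_mul] at ht
      obtain ⟨t0, t1, t2⟩ := ht
      have h2 := add_mem (add_mem (h1 1 one_ne_zero) (h1 t t0)) (h1 (-t / (1 + t)) (by simp [t0, t1]))
      refine ⟨((1 + t + t * t) / (1 + t)) • e, P.smul_mem _ he, ?_,
        smul_ne_zero (div_ne_zero t2 t1) he0, by rw [Q_smul, hqe, mul_zero]⟩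
      convert h2 using 1
      match_scalars <;> field_simp <;> ring
    obtain ⟨f, hf, hqf, hsf⟩ := exists_partner hs hqs (hP.exists_B_ne hs hs0)
    have key : ∀ s ∈ P, ∀ f ∈ P, Q s = 0 → Q f = 0 → B Q s f = 1 → s ∈ A → ∀ t : F, t • f ∈ A := by
      intro s hs f hf hqs hqf hsf hsA t
      by_cases ht : t = 0
      · rw [ht, zero_smul]; exact zero_mem _
      have h1 : Q (t • f - s) ≠ 0 := by
        simp [Q_sub, Q_smul, hqs, hqf, B_comm Q f s, hsf, ht]
      rw [← refl_sub_apply (by rw [Q_smul, hqs, hqf, mul_zero]) h1]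
      exact hA _ (sub_mem (P.smul_mem _ hf) hs) h1 s hs hsA
    have h1 := key s hs f hf hqs hqf hsf hsA
    have h2 := key f hf s hs hqf hqs (by rw [B_comm, hsf]) (by simpa using h1 1)
    intro v hv
    obtain ⟨α, β, rfl⟩ := plane_coord hd hs hf hs0 (hyp_notMem hqs hsf) hv
    exact add_mem (h2 α) (h1 β)

end Cfsg.Agent.Orth
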