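import Cfsg.Agent.Orth.Ext2

/-! Extension field subgroups `Ω_m(q^r).r` of `Ω_{mr}(q)`, part 3. -/

set_option autoImplicit false
set_option linter.unusedSectionVars false

namespace Cfsg.Agent.Orth

open Module Cfsg.Geo
open scoped Matrix

section
variable {F V : Type*} [Field F] [AddCommGroup V] [Module F V]
  {K : Type*} [Field K] [Algebra F K] [Module K V] [IsScalarTower F K V]

/-- a proper `F`-subspace of `K` cannot contain all the `(1 + k² c)⁻¹` -/
lemma eq_top_of_inv [Finite F] [Finite K] (h3 : 3 ≤ Nat.card F) (Y : Submodule F K) {c : K}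
    (hc : c ≠ 0) (h : ∀ k : K, 1 + k * k * c ≠ 0 → (1 + k * k * c)⁻¹ ∈ Y) : Y = ⊤ := by
  classical
  by_contra hY
  have := Fintype.ofFinite K
  have d1 : finrank F Y < finrank F K := Submodule.finrank_lt hY
  have c1 := Module.natCard_eq_pow_finrank (K := F) (V := K)
  have c2 := Module.natCard_eq_pow_finrank (K := F) (V := Y)
  have c3 : 3 * Nat.card Y ≤ Nat.card K := by
    rw [c1, c2]
    calc 3 * Nat.card F ^ finrank F Y ≤ Nat.card F ^ (finrank F Y + 1) := by
          rw [pow_succ']; exact Nat.mul_le_mul_right _ h3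
      _ ≤ _ := Nat.pow_le_pow_right (by omega) d1
  have key := Finset.card_le_mul_card_image (f := fun k : K => (1 + k * k * c)⁻¹)
    Finset.univ 2 (fun a _ => by
      by_cases he : ∃ k₀ : K, (1 + k₀ * k₀ * c)⁻¹ = a
      · obtain ⟨k₀, hk₀⟩ := he
        refine le_trans (Finset.card_le_card (t := {k₀, -k₀}) fun k hk => ?_) Finset.card_le_two
        have h1 := (Finset.mem_filter.1 hk).2
        rw [← hk₀, inv_inj] at h1
        have : (k - k₀) * (k + k₀) * c = 0 := by linear_combination h1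
        rcases mul_eq_zero.1 ((mul_eq_zero.1 this).resolve_right hc) with h' | h'
        · simp [sub_eq_zero.1 h']
        · simp [eq_neg_of_add_eq_zero_left h']
      · rw [Finset.filter_eq_empty_iff.2 fun k _ hk => he ⟨k, hk⟩]; simp)
  have c4 : (Finset.univ.image fun k : K => (1 + k * k * c)⁻¹).card ≤ Nat.card Y := by
    rw [← SetLike.coe_sort_coe, Nat.card_coe_set_eq, ← Set.ncard_coe_finset]
    refine Set.ncard_le_ncard (fun x hx => ?_)
    obtain ⟨k, -, rfl⟩ := Finset.mem_image.1 hx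
    by_cases h0 : 1 + k * k * c = 0
    · simp [h0]
    · exact h k h0
  rw [Finset.card_univ, ← Nat.card_eq_fintype_card] at key
  have : 0 < Nat.card Y := Nat.card_pos
  omega

namespace XD
variable {Q : QuadraticForm F V} {D : XD Q K}
  [Finite F] [Finite K] [FiniteDimensional F V] [FiniteDimensional K V]
  {M : Subgroup (V ≃ₗ[F] V)}

lemma Star.fix (S : D.Star M) {u : V} (hu : D.QK u = 0) (hu0 : u ≠ 0) {h : V ≃ₗ[F] V}
    (hh : h ∈ M) (hL : ∀ x ∈ KL F K u, h x ∈ KL F K u) {a v : V} (ha : a ∈ KL F K u)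
    (ha0 : a ≠ 0) (hv : v ∈ KL F K u) (hva : v ∉ F ∙ a) {c : F} (h1 : h a = a)
    (h2 : h v = v + c • a) (h3 : c = 0 ∨ ∀ x ∈ KL F K u, h (h x - x) = h x - x) :
    ∀ x ∈ KL F K u, h x = x := by
  have hua := mem_KL_comm ha0 ha
  have hall : ∀ x ∈ KL F K u, ∃ k : K, k • a = x := fun x hx => by
    obtain ⟨k, rfl⟩ := mem_KL.1 hx
    exact mem_KL.1 (KL_smul_mem hua k)
  obtain ⟨k, rfl⟩ := hall v hv
  obtain ⟨b, hb⟩ := S u hu hu0 h hh hL k
  have hbk : b = k + algebraMap F K c := by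
    apply smul_left_injective K ha0
    simp only
    rw [add_smul, algebraMap_smul, ← h2, hb a ha, h1]
  have hc : c = 0 := by
    rcases h3 with h3 | h3
    · exact h3
    have e1 : ∀ x ∈ KL F K u, h (b • x) = (b + algebraMap F K c) • h x := fun x hx => by
      nth_rewrite 1 [hbk]
      rw [add_smul, map_add, hb x hx, algebraMap_smul, map_smul, add_smul, algebraMap_smul]
    have e2 := h3 _ (KL_smul_mem (KL_smul_mem ha k) k)
    rw [map_sub, hb _ (KL_smul_mem ha k), hb a ha, h1, e1 _ (KL_smul_mem ha b), e1 a ha, h1,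
      smul_smul, smul_smul, smul_smul, ← sub_smul, ← sub_smul] at e2
    have e3 := smul_left_injective K ha0 e2
    have e4 : 2 * (algebraMap F K c * algebraMap F K c) = 0 := by
      rw [hbk] at e3; linear_combination e3
    simpa [D.twoK] using e4
  rw [hc, map_zero, add_zero] at hbk
  let T : Subalgebra F K :=
    { carrier := {k | ∀ x ∈ KL F K u, h (k • x) = k • h x}
      mul_mem' := fun {a b} ha hb x hx => by
        rw [mul_smul, ha _ (KL_smul_mem hx b), hb x hx, mul_smul]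
      add_mem' := fun {a b} ha hb x hx => by rw [add_smul, map_add, ha x hx, hb x hx, add_smul]
      algebraMap_mem' := fun c x _ => by rw [algebraMap_smul, algebraMap_smul, map_smul] }
  intro x hx
  obtain ⟨k', rfl⟩ := hall x hx
  rw [subalgebra_eq_top D.prime T (k := k) (fun x hx => by rw [hb x hx, hbk]) (fun α hα => hva
    (Submodule.mem_span_singleton.2 ⟨α, by rw [hα, algebraMap_smul]⟩)) k' a ha, h1]

variable (D) in
/-- `M`-images of singular `K`-points -/
def ML (M : Subgroup (V ≃ₗ[F] V)) (X : Submodule F V) : Prop :=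
  ∃ g ∈ M, ∃ u, D.QK u = 0 ∧ u ≠ 0 ∧ X = (KL F K u).map (g : V →ₗ[F] V)

lemma ML.base {u : V} (hu : D.QK u = 0) (hu0 : u ≠ 0) : D.ML M (KL F K u) :=
  ⟨1, one_mem _, u, hu, hu0, (Submodule.map_id _).symm⟩

lemma ML.map {X : Submodule F V} (hX : D.ML M X) {g : V ≃ₗ[F] V} (hg : g ∈ M) :
    D.ML M (X.map (g : V →ₗ[F] V)) := by
  obtain ⟨h, hh, u, hu, hu0, rfl⟩ := hX
  exact ⟨g * h, mul_mem hg hh, u, hu, hu0, (Submodule.map_comp _ _ _).symm⟩

lemma ML.finrank {X : Submodule F V} (hX : D.ML M X) : finrank F X = finrank F K := by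
  obtain ⟨h, hh, u, hu, hu0, rfl⟩ := hX
  rw [LinearEquiv.finrank_map_eq, finrank_KL hu0]

lemma ML.ts (G : D.Gd M) {X : Submodule F V} (hX : D.ML M X) : TS Q X := by
  obtain ⟨h, hh, u, hu, hu0, rfl⟩ := hX
  rintro _ ⟨x, hx, rfl⟩
  rw [LinearEquiv.coe_coe, G.le hh]; exact D.ts hu x hx

lemma ML.fix (S : D.Star M) {X : Submodule F V} (hX : D.ML M X) {h : V ≃ₗ[F] V}
    (hh : h ∈ M) (hL : ∀ x ∈ X, h x ∈ X) {a v : V} (ha : a ∈ X)
    (ha0 : a ≠ 0) (hv : v ∈ X) (hva : v ∉ F ∙ a) {c : F} (h1 : h a = a)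
    (h2 : h v = v + c • a) (h3 : c = 0 ∨ ∀ x ∈ X, h (h x - x) = h x - x) :
    ∀ x ∈ X, h x = x := by
  obtain ⟨g, hg, u, hu, hu0, rfl⟩ := hX
  obtain ⟨a, ha, rfl⟩ := ha
  obtain ⟨v, hv, rfl⟩ := hv
  simp only [LinearEquiv.coe_coe] at *
  have := S.fix hu hu0 (h := g⁻¹ * h * g) (mul_mem (mul_mem (inv_mem hg) hh) hg)
    (fun x hx => by
      obtain ⟨y, hy, e⟩ := hL _ ⟨x, hx, rfl⟩
      simp only [LinearEquiv.coe_coe] at e
      rwa [mul_app, mul_app, ← e, inv_apply_apply]) ha (by rintro rfl; simp at ha0) hv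
    (fun h' => hva (by
      obtain ⟨c, rfl⟩ := Submodule.mem_span_singleton.1 h'
      exact Submodule.mem_span_singleton.2 ⟨c, by simp⟩)) (c := c)
    (by rw [mul_app, mul_app, h1, inv_apply_apply])
    (by rw [mul_app, mul_app, h2]; simp)
    (h3.imp id fun h3 x hx => by
      have := h3 _ ⟨x, hx, rfl⟩
      simp only [LinearEquiv.coe_coe] at this
      simp only [mul_app, map_sub, apply_inv_apply] at this ⊢
      rw [← map_sub, this]; simp)
  rintro _ ⟨x, hx, rfl⟩
  have h4 := congrArg g (this x hx)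
  simpa [mul_app] using h4

variable (D) in
/-- a pair of `M`-lines with largest possible intersection -/
structure Pair (M : Subgroup (V ≃ₗ[F] V)) (X Y : Submodule F V) : Prop where
  mX : D.ML M X
  mY : D.ML M Y
  ne : X ≠ Y
  pos : X ⊓ Y ≠ ⊥
  max : ∀ X' Y', D.ML M X' → D.ML M Y' → X' ≠ Y' →
    finrank F (X' ⊓ Y' : Submodule F V) ≤ finrank F (X ⊓ Y : Submodule F V)

lemma Pair.symm {X Y : Submodule F V} (P : D.Pair M X Y) : D.Pair M Y X :=
  ⟨P.mY, P.mX, P.ne.symm, by rw [inf_comm]; exact P.pos, by rw [inf_comm]; exact P.max⟩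

lemma Pair.map {X Y : Submodule F V} (P : D.Pair M X Y) {g : V ≃ₗ[F] V} (hg : g ∈ M) :
    D.Pair M (X.map (g : V →ₗ[F] V)) (Y.map (g : V →ₗ[F] V)) := by
  have e := Submodule.map_inf (g : V →ₗ[F] V) g.injective (p := X) (q := Y)
  refine ⟨P.mX.map hg, P.mY.map hg, fun h => P.ne (Submodule.map_injective_of_injective
    g.injective h), fun h => P.pos ?_, ?_⟩
  · rw [← e] at h; exact Submodule.map_eq_bot_iff.1 h
  · rw [← e, LinearEquiv.finrank_map_eq]; exact P.max

lemma Pair.of_le {X Y Y' : Submodule F V} (P : D.Pair M X Y) (hY' : D.ML M Y') (hne : Y ≠ Y')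
    (hle : X ⊓ Y ≤ Y') : D.Pair M Y Y' := by
  have h1 : X ⊓ Y ≤ Y ⊓ Y' := le_inf inf_le_right hle
  refine ⟨P.mY, hY', hne, fun h => P.pos (eq_bot_iff.2 (h ▸ h1)), fun X' Y'' a b c => ?_⟩
  exact (P.max _ _ a b c).trans (Submodule.finrank_mono h1)

lemma Pair.stab {X Y : Submodule F V} (P : D.Pair M X Y) {h : V ≃ₗ[F] V} (hh : h ∈ M)
    (h1 : ∀ x ∈ X, x ∈ Y → h x ∈ Y) {v : V} (hv : v ∈ Y) (hvX : v ∉ X) (h2 : h v ∈ Y) :
    ∀ y ∈ Y, h y ∈ Y := by
  by_contra hc
  have hne : Y.map (h : V →ₗ[F] V) ≠ Y := fun e => hc fun y hy => e ▸ ⟨y, hy, rfl⟩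
  have d1 := P.max _ _ (P.mY.map hh) P.mY hne
  have d2 := Submodule.finrank_sup_span_singleton (p := X ⊓ Y) (v := v) (fun h => hvX h.1)
  have d3 : ((X ⊓ Y) ⊔ F ∙ v).map (h : V →ₗ[F] V) ≤ Y.map (h : V →ₗ[F] V) ⊓ Y := by
    refine le_inf (Submodule.map_mono (sup_le inf_le_right (by simpa using hv))) ?_
    rw [Submodule.map_sup, Submodule.map_span, Set.image_singleton]
    refine sup_le ?_ (by simpa using h2)
    rintro _ ⟨x, hx, rfl⟩; exact h1 x hx.1 hx.2
  have d4 := Submodule.finrank_mono d3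
  rw [LinearEquiv.finrank_map_eq] at d4
  omega

lemma Pair.exists_mem {X Y : Submodule F V} (P : D.Pair M X Y) : ∃ a ∈ X, a ∈ Y ∧ a ≠ 0 := by
  obtain ⟨a, ha, ha0⟩ := Submodule.exists_mem_ne_zero_of_ne_bot P.pos
  exact ⟨a, ha.1, ha.2, ha0⟩

lemma Pair.exists_notMem {X Y : Submodule F V} (P : D.Pair M X Y) : ∃ v ∈ Y, v ∉ X := by
  by_contra h
  push Not at h
  exact P.ne (Submodule.eq_of_le_of_finrank_eq h (by rw [P.mX.finrank, P.mY.finrank])).symm

/-- an element fixing `X ∩ Y` and one more vector of `Y` fixes `Y` pointwise -/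
lemma Pair.fix (S : D.Star M) {X Y : Submodule F V} (P : D.Pair M X Y) {h : V ≃ₗ[F] V}
    (hh : h ∈ M) (h1 : ∀ x ∈ X, x ∈ Y → h x = x) {v : V} (hv : v ∈ Y) (hvX : v ∉ X)
    (h2 : h v = v) : ∀ y ∈ Y, h y = y := by
  obtain ⟨a, haX, haY, ha0⟩ := P.exists_mem
  refine P.mY.fix S hh (P.stab hh (fun x a b => by rwa [h1 x a b]) hv hvX (by rwa [h2])) haY ha0 hv
    (fun h => hvX ((Submodule.span_singleton_le_iff_mem _ _).2 haX h)) (c := 0) (h1 a haX haY)
    (by simpa using h2) (Or.inl rfl)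

lemma Pair.BK_ne (G : D.Gd M) (S : D.Star M) {u : V} (hu : D.QK u = 0) {Y : Submodule F V}
    (P : D.Pair M (KL F K u) Y) {v : V} (hv : v ∈ Y) (hvL : v ∉ KL F K u) : B D.QK u v ≠ 0 := by
  intro huv
  have tL : ∀ w, B D.QK u w = 0 → ∀ x ∈ KL F K u, eich D.QK u w x = x := fun w hw x hx => by
    obtain ⟨k, rfl⟩ := mem_KL.1 hx
    rw [map_smul, eich_apply_self hu hw]
  have hY : ∀ y ∈ Y, B D.QK u y = 0 := by
    intro y hy
    by_contra hne
    have d1 := D.ndK.finrank_perp (Submodule.span K {u, v})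
    have d2 := finrank_span_pair_le (F := K) u v
    have d3 := finrank_span_singleton_le (F := K) u
    have d4 := G.hm
    obtain ⟨w, hw, hwu⟩ := exists_mem_notMem_of_finrank_lt
      (H := perp D.QK (Submodule.span K {u, v})) (X := K ∙ u) (by omega)
    have w1 := mem_perp_span.1 hw u (by simp)
    have w2 := mem_perp_span.1 hw v (by simp)
    have := P.fix S (G.T hu w1) (fun x hx _ => tL w w1 x hx) hv hvL
      (eich_apply_of_perp huv (by rwa [B_comm])) y hy
    rw [res_apply, eich_apply hu w1, add_sub_assoc, add_eq_left, sub_eq_zero] at this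
    exact hwu (mem_KL_of_smul (F := F) hne (this ▸ smul_mem_KL _ _))
  obtain ⟨a, haL, haY, ha0⟩ := P.exists_mem
  obtain ⟨α, rfl⟩ := mem_KL.1 haL
  obtain ⟨w', hw', hne⟩ := D.ndK.exists_perp_B_ne (X := K ∙ u) (a := v) hvL
  set w := (α / B D.QK v w') • w' with hw
  have w1 : B D.QK u w = 0 := by rw [hw, map_smul, mem_perp_span_singleton.1 hw', smul_zero]
  have w2 : B D.QK w v = α := by rw [B_comm, hw, map_smul, smul_eq_mul, div_mul_cancel₀ _ hne]
  have e : eich D.QK u w v = v + (-1 : F) • α • u := by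
    rw [eich_apply_of_perp_left hu w1 huv, w2]; simp [sub_eq_add_neg]
  have := P.mY.fix S (G.T hu w1) (P.stab (G.T hu w1) (fun x a b => by rwa [res_apply, tL w w1 x a])
    hv hvL (by rw [res_apply, e]; exact add_mem hv (Y.smul_mem _ haY))) haY ha0 hv
    (fun h => hvL ((Submodule.span_singleton_le_iff_mem _ _).2 haL h)) (c := -1)
    (tL w w1 _ haL) e (Or.inr fun x hx => tL w w1 _ (by
      rw [res_apply, eich_apply_of_perp_left hu w1 (hY x hx), sub_sub_cancel_left]
      exact neg_mem (smul_mem_KL _ _))) v hv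
  rw [res_apply, e] at this
  simp at this
  simp [this] at ha0

lemma Pair.le_span (G : D.Gd M) (S : D.Star M) {u : V} (hu : D.QK u = 0) {Y : Submodule F V}
    (P : D.Pair M (KL F K u) Y) {v : V} (hv : v ∈ Y) (hvL : v ∉ KL F K u) :
    ∀ y ∈ Y, y ∈ Submodule.span K {u, v} := by
  intro y hy
  have huv := P.BK_ne G S hu hv hvL
  obtain ⟨hN, hd⟩ := G.perp_pair hu huv
  set U := Submodule.span K {u, v} with hU
  obtain ⟨y₁, hy₁, x, hx, rfl⟩ := (ndOn_pair hu huv).exists_decomp y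
  by_cases hx0 : x = 0
  · simpa [hx0] using hy₁
  exfalso
  obtain ⟨b, hb, hqb, hbx⟩ := hN.exists_nonsing_B_ne D.twoK hx hx0
  have hs : K ∙ b ≤ perp D.QK U := by simpa using hb
  have hN1 := hN.inf_perp (NdOn.span_singleton D.twoK hqb) hs
  have d1 := hN.finrank_inf_perp hs
  have d2 := finrank_span_singleton_le (F := K) b
  obtain ⟨w, hw, hqw⟩ := hN1.exists_nonsing le_rfl (by omega)
  have hbw : B D.QK b w = 0 := mem_perp_span_singleton.1 hw.2
  obtain ⟨k, hk0, hk⟩ := exists_ne_sq (F := K) (by have := D.card_K; omega) (-D.QK b / D.QK w)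
  have hqc : D.QK (b + k • w) ≠ 0 := by
    rw [Q_add, Q_smul, map_smul, hbw, smul_zero, add_zero]
    intro h; apply hk; field_simp; linear_combination h
  set b' := refl D.QK (b + k • w) b with hb'
  have hb'N : b' ∈ perp D.QK U := refl_mem (add_mem hb (Submodule.smul_mem _ _ hw.1)) hb
  have hq' : D.QK b = D.QK b' := (refl_mem_O _ _ b).symm
  have hwb' : B D.QK w b' ≠ 0 := by
    rw [hb', refl_apply]
    simp [B_comm D.QK w b, hbw, B_self, hqc, hqb, hqw, hk0, D.twoK]
  have hU' : ∀ z ∈ U, (refl D.QK b * refl D.QK b') z = z := fun z hz => by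
    rw [mul_app, refl_stable_of_perp hb'N z hz, refl_stable_of_perp hb z hz]
  have h1 := P.fix S (G.RR hq') (fun z hz _ => hU' z (by
    obtain ⟨k, rfl⟩ := mem_KL.1 hz
    exact Submodule.smul_mem _ _ (Submodule.subset_span (by simp)))) hv hvL
    (hU' v (Submodule.subset_span (by simp))) _ hy
  rw [res_apply, map_add, hU' _ hy₁, add_right_inj, mul_app] at h1
  have h2 := congrArg (refl D.QK b) h1
  rw [refl_refl, refl_apply, refl_apply, sub_right_inj] at h2
  have h3 := congrArg (B D.QK w) h2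
  rw [map_smul, map_smul, B_comm D.QK w b, hbw, smul_zero, smul_eq_mul,
    mul_eq_zero, or_iff_left hwb'] at h3
  rw [h3, zero_smul] at h2
  have : b ≠ 0 := by rintro rfl; simp at hqb
  simpa [this, hqb, hbx] using h2.symm

/-- transported form of `le_span` -/
lemma Pair.le_span' (G : D.Gd M) (S : D.Star M) {g : V ≃ₗ[F] V} (hg : g ∈ M) {u : V}
    (hu : D.QK u = 0) {Y : Submodule F V} (P : D.Pair M ((KL F K u).map (g : V →ₗ[F] V)) Y)
    {v : V} (hv : v ∈ Y) (hvL : v ∉ (KL F K u).map (g : V →ₗ[F] V)) :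
    B D.QK u (g⁻¹ v) ≠ 0 ∧ ∀ y ∈ Y, g⁻¹ y ∈ Submodule.span K {u, g⁻¹ v} := by
  have P' := P.map (inv_mem hg)
  have e : ((KL F K u).map (g : V →ₗ[F] V)).map ((g⁻¹ : V ≃ₗ[F] V) : V →ₗ[F] V) = KL F K u := by
    rw [← Submodule.map_comp]
    convert Submodule.map_id _
    ext; simp
  rw [e] at P'
  have h1 : g⁻¹ v ∉ KL F K u := fun h => hvL ⟨_, h, by simp⟩
  exact ⟨P'.BK_ne G S hu ⟨v, hv, rfl⟩ h1, fun y hy => P'.le_span G S hu ⟨v, hv, rfl⟩ h1 _ ⟨y, hy, rfl⟩⟩

lemma card_F (D : XD Q K) : 3 ≤ Nat.card F := by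
  classical
  have := Fintype.ofFinite F
  have h := Finset.card_le_univ ({0, 1, -1} : Finset F)
  have h3 : (1 : F) ≠ -1 := fun h => D.two (by linear_combination h)
  rw [Finset.card_eq_three.2 ⟨0, 1, -1, by simp, by simp, h3, rfl⟩] at h
  rwa [Nat.card_eq_fintype_card]

lemma Pair.ratio (G : D.Gd M) (S : D.Star M) {u : V} (hu : D.QK u = 0) (hu0 : u ≠ 0)
    {Y : Submodule F V} (P : D.Pair M (KL F K u) Y) {v₁ v₂ : V} (hv₁ : v₁ ∈ Y)
    (hv₁L : v₁ ∉ KL F K u) (hv₂ : v₂ ∈ Y) :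
    ∃ c : F, B D.QK u v₂ = algebraMap F K c * B D.QK u v₁ := by
  by_contra hc
  push Not at hc
  have hx₁ := P.BK_ne G S hu hv₁ hv₁L
  set x₁ := B D.QK u v₁ with hx₁def
  set x₂ := B D.QK u v₂ with hx₂def
  obtain ⟨a, haL, haY, ha⟩ : ∃ a ∈ KL F K u, a ∈ Y ∧ (x₂ / x₁) • a ∉ Y := by
    by_contra h
    push Not at h
    let T : Subalgebra F K :=
      { carrier := {k | ∀ x ∈ KL F K u, x ∈ Y → k • x ∈ Y}
        mul_mem' := fun {a b} ha hb x hx hy => by
          rw [mul_smul]; exact ha _ (KL_smul_mem hx b) (hb x hx hy)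
        add_mem' := fun {a b} ha hb x hx hy => by
          rw [add_smul]; exact add_mem (ha x hx hy) (hb x hx hy)
        algebraMap_mem' := fun c x _ hy => by rw [algebraMap_smul]; exact Y.smul_mem c hy }
    have hT := subalgebra_eq_top D.prime T (k := x₂ / x₁) h
      (fun α hα => hc α (by rw [← hα]; field_simp))
    obtain ⟨a, haL, haY, ha0⟩ := P.exists_mem
    obtain ⟨v, hv, hvY⟩ := P.symm.exists_notMem
    obtain ⟨k, rfl⟩ := mem_KL.1 hv
    obtain ⟨k', rfl⟩ := mem_KL.1 (mem_KL_comm ha0 haL)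
    exact hvY (by rw [smul_smul]; exact hT _ a haL haY)
  obtain ⟨α, rfl⟩ := mem_KL.1 haL
  have hα : α ≠ 0 := by rintro rfl; simp at ha
  obtain ⟨g, hg, u₀, hu₀, hu₀0, hY⟩ := P.mY
  set U := Submodule.span K {u, v₁} with hU
  have hYU : ∀ y ∈ Y, y ∈ U := P.le_span G S hu hv₁ hv₁L
  have hLU : ∀ y ∈ KL F K u, y ∈ U := fun y hy => by
    obtain ⟨k, rfl⟩ := mem_KL.1 hy
    exact Submodule.smul_mem _ _ (Submodule.subset_span (by simp))
  have hUnd : NdOn D.QK U := ndOn_pair hu hx₁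
  set z := g⁻¹ ((x₂ / x₁) • α • u) with hz
  set U' : Submodule K V := Submodule.span K {u₀, z} with hU'
  have hu₀U' : u₀ ∈ U' := Submodule.subset_span (by simp)
  have hzU' : z ∈ U' := Submodule.subset_span (by simp)
  have hYg : ∀ y ∈ Y, g⁻¹ y ∈ KL F K u₀ := fun y hy => by
    rw [hY] at hy
    obtain ⟨x, hx, rfl⟩ := hy
    simpa using hx
  have hLU' : ∀ y ∈ KL F K u, g⁻¹ y ∈ U' :=
    (Pair.le_span' G S hg hu₀ (hY ▸ P.symm) (KL_smul_mem haL _) (hY ▸ ha)).2
  have hKU' : ∀ y ∈ KL F K u₀, y ∈ U' := fun y hy => by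
    obtain ⟨k, rfl⟩ := mem_KL.1 hy
    exact U'.smul_mem k hu₀U'
  have main : ∀ w ∈ perp D.QK U, D.QK w = α / x₁ → g⁻¹ (x₁ • w) ∈ U' := by
    have aux : ∀ w ∈ perp D.QK U, D.QK w = α / x₁ → ∃ κ : K,
        g⁻¹ (x₂ • w) - z - κ • g⁻¹ (x₁ • w) ∈ KL F K u₀ := by
      intro w hw hq
      have w1 : B D.QK u w = 0 := hw u (hLU u (self_mem_KL u))
      have ht := G.T hu w1
      have e : ∀ y ∈ Y, eich D.QK u w y = y + B D.QK u y • w - (α / x₁ * B D.QK u y) • u := by
        intro y hy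
        rw [eich_apply hu w1, B_comm D.QK w y, hw y (hYU y hy), hq, zero_add]
      have hn : eich D.QK u w v₁ ∉ Y := fun h => by
        have h1 : x₁ • w ∈ U := by
          have := U.sub_mem (U.add_mem (hYU _ h) (hLU _ (smul_mem_KL (α / x₁ * x₁) u)))
            (hYU _ hv₁)
          rw [e v₁ hv₁] at this
          convert this using 1; abel
        have := hUnd _ h1 fun x hx => by rw [map_smul, hw x hx, smul_zero]
        have hw0 : w = 0 := by simpa [hx₁] using this
        rw [hw0, map_zero] at hq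
        exact div_ne_zero hα hx₁ hq.symm
      have P' : D.Pair M Y (Y.map (res F (eich D.QK u w) : V →ₗ[F] V)) :=
        P.of_le (P.mY.map ht) (fun h => hn (by rw [h]; exact ⟨v₁, hv₁, rfl⟩)) fun x hx => by
          refine ⟨x, hx.2, ?_⟩
          obtain ⟨k, rfl⟩ := mem_KL.1 hx.1
          simp [eich_apply_self hu w1]
      obtain ⟨β, κ, h⟩ := Submodule.mem_span_pair.1 ((Pair.le_span' G S hg hu₀ (hY ▸ P')
        (v := eich D.QK u w v₁) (hY ▸ ⟨v₁, hv₁, rfl⟩) (hY ▸ hn)).2 (eich D.QK u w v₂)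
        (hY ▸ ⟨v₂, hv₂, rfl⟩))
      refine ⟨κ, ?_⟩
      rw [e v₁ hv₁, e v₂ hv₂, ← hx₁def, ← hx₂def, div_mul_cancel₀ _ hx₁,
        show (α / x₁ * x₂) • u = (x₂ / x₁) • α • u by rw [smul_smul]; congr 1; ring] at h
      simp only [map_add, map_sub, smul_add, smul_sub, ← hz] at h
      have := sub_mem (add_mem (smul_mem_KL (F := F) β u₀) (sub_mem (KL_smul_mem (hYg _ hv₁) κ)
        (KL_smul_mem (hYg _ haY) κ))) (hYg _ hv₂)
      convert this using 1
      linear_combination (norm := abel) -h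
    intro w hw hq
    obtain ⟨κ, h1⟩ := aux w hw hq
    obtain ⟨κ', h2⟩ := aux (-w) (neg_mem hw) (by rwa [Q_neg])
    have h3 : (κ' - κ) • g⁻¹ (x₁ • w) - (2 : K) • z ∈ KL F K u₀ := by
      have := add_mem h1 h2
      simp only [smul_neg, map_neg] at this
      convert this using 1
      rw [sub_smul, two_smul]; abel
    by_cases hκ : κ' - κ = 0
    · exfalso
      rw [hκ, zero_smul, zero_sub, neg_mem_iff] at h3
      apply ha
      rw [hY]
      exact ⟨z, mem_KL_of_smul D.twoK h3, by simp [hz]⟩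
    · have := U'.smul_mem (κ' - κ)⁻¹ (U'.add_mem (hKU' _ h3) (U'.smul_mem 2 hzU'))
      rwa [sub_add_cancel, smul_smul, inv_mul_cancel₀ hκ, one_smul] at this
  obtain ⟨hN, hd⟩ := G.perp_pair hu hx₁
  obtain ⟨w₀, hw₀, hq₀⟩ := hN.exists_Q_eq le_rfl (by omega) (α / x₁)
  have hq₀' : D.QK w₀ ≠ 0 := by rw [hq₀]; exact div_ne_zero hα hx₁
  have hs : K ∙ w₀ ≤ perp D.QK U := by simpa using hw₀
  have hN1 := hN.inf_perp (NdOn.span_singleton D.twoK hq₀') hs
  have d1 := hN.finrank_inf_perp hs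
  have d2 := finrank_span_singleton_le (F := K) w₀
  obtain ⟨w₁, hw₁, hq₁⟩ := hN1.exists_nonsing le_rfl (by omega)
  have h01 : B D.QK w₀ w₁ = 0 := mem_perp_span_singleton.1 hw₁.2
  let W : Submodule F V := (U'.restrictScalars F).map (g : V →ₗ[F] V)
  have memW : ∀ x, g⁻¹ x ∈ U' → x ∈ W := fun x hx => ⟨_, hx, by simp⟩
  have hT := eq_top_of_inv D.card_F
    (W.comap ((LinearMap.toSpanSingleton K V (x₁ • w₀)).restrictScalars F))
    (c := D.QK w₁ / D.QK w₀) (div_ne_zero hq₁ hq₀') fun k hk => by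
      have e : ∀ k : K, D.QK (w₀ + k • w₁) = D.QK w₀ * (1 + k * k * (D.QK w₁ / D.QK w₀)) :=
        fun k => by rw [Q_add, Q_smul, map_smul, h01]; field_simp; simp
      have m : ∀ k : K, x₁ • refl D.QK (w₀ + k • w₁) w₀ ∈ W := fun k => memW _ (main _
        (refl_mem (add_mem hw₀ (Submodule.smul_mem _ _ hw₁.1)) hw₀) (by rw [refl_mem_O, hq₀]))
      have h1 := W.smul_mem (4 : F)⁻¹ (W.sub_mem (W.smul_mem (2 : F) (memW _ (main _ hw₀ hq₀)))
        (W.add_mem (m k) (m (-k))))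
      change (1 + k * k * (D.QK w₁ / D.QK w₀))⁻¹ • x₁ • w₀ ∈ W
      convert h1 using 1
      have h4 : (4 : K) ≠ 0 := by rw [show (4 : K) = 2 * 2 by norm_num]; simp [D.twoK]
      rw [refl_apply, refl_apply, e, e, neg_mul_neg, ← algebraMap_smul K (4 : F)⁻¹,
        ← algebraMap_smul K (2 : F), map_inv₀, map_ofNat, map_ofNat]
      simp only [map_add, map_smul, LinearMap.add_apply, LinearMap.smul_apply, B_comm D.QK w₁ w₀,
        h01, B_self, smul_zero, add_zero]
      match_scalars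
      · field_simp; ring
      · ring
  have hw₀0 : x₁ • w₀ ≠ 0 := smul_ne_zero hx₁ (by rintro rfl; simp at hq₀')
  have l1 : (KL F K u ⊔ Y) ⊔ KL F K (x₁ • w₀) ≤ W := by
    refine sup_le (sup_le (fun y hy => memW _ (hLU' y hy)) fun y hy => memW _ (hKU' _ (hYg y hy)))
      fun y hy => ?_
    obtain ⟨k, rfl⟩ := mem_KL.1 hy
    have : k ∈ W.comap ((LinearMap.toSpanSingleton K V (x₁ • w₀)).restrictScalars F) := by
      rw [hT]; trivial
    exact this
  have l2 : (KL F K u ⊔ Y) ⊓ KL F K (x₁ • w₀) = ⊥ := by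
    rw [eq_bot_iff]
    rintro y ⟨h1, h2⟩
    obtain ⟨a, ha, b, hb, rfl⟩ := Submodule.mem_sup.1 h1
    obtain ⟨k, hk⟩ := mem_KL.1 h2
    refine hUnd _ (U.add_mem (hLU a ha) (hYU b hb)) fun x hx => ?_
    rw [← hk, map_smul, map_smul, hw₀ x hx]; simp
  have e1 := Submodule.finrank_sup_add_finrank_inf_eq (KL F K u ⊔ Y) (KL F K (x₁ • w₀))
  have e2 := Submodule.finrank_mono l1
  have e3 : finrank F W ≤ 2 * finrank F K := by
    rw [LinearEquiv.finrank_map_eq]
    have : U'.restrictScalars F ≤ KL F K u₀ ⊔ KL F K z := fun x hx => by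
      obtain ⟨a, b, rfl⟩ := Submodule.mem_span_pair.1 hx
      exact Submodule.add_mem_sup (smul_mem_KL _ _) (smul_mem_KL _ _)
    have a1 := Submodule.finrank_mono this
    have a2 := finrank_sup_le (KL F K u₀) (KL F K z)
    have a3 := finrank_KL_le (F := F) (K := K) u₀
    have a4 := finrank_KL_le (F := F) (K := K) z
    omega
  have e4 : finrank F (KL F K u) < finrank F (KL F K u ⊔ Y : Submodule F V) :=
    Submodule.finrank_lt_finrank_of_lt (lt_of_le_of_ne le_sup_left fun h =>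
      hv₁L (h ▸ Submodule.mem_sup_right hv₁))
  rw [l2, finrank_bot, finrank_KL hw₀0] at e1
  rw [finrank_KL hu0] at e4
  omega

theorem Pair.EO_le (G : D.Gd M) (S : D.Star M) {u : V} (hu : D.QK u = 0) (hu0 : u ≠ 0)
    {Y : Submodule F V} (P : D.Pair M (KL F K u) Y) : EO Q ≤ M := by
  obtain ⟨v', hv', hv'L⟩ := P.exists_notMem
  obtain ⟨l₀, hl₀, hl₀Y⟩ := P.symm.exists_notMem
  have dec : ∀ v ∈ Y, v ∉ KL F K u → ∀ y ∈ Y, ∃ c : F, y - c • v ∈ KL F K u := by
    intro v hv hvL y hy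
    obtain ⟨c, hc⟩ := P.ratio G S hu hu0 hv hvL hy
    refine ⟨c, ?_⟩
    by_contra h
    exact P.BK_ne G S hu (Y.sub_mem hy (Y.smul_mem c hv)) h (by rw [map_sub, D.BK_fsmul, hc, sub_self])
  have decL : ∀ l ∈ KL F K u, ∃ c : F, l - c • l₀ ∈ Y := by
    have d1 : Y ≤ (KL F K u ⊓ Y) ⊔ F ∙ v' := fun y hy => by
      obtain ⟨c, hc⟩ := dec v' hv' hv'L y hy
      have := Submodule.add_mem_sup (S := KL F K u ⊓ Y) (T := F ∙ v')
        ⟨hc, Y.sub_mem hy (Y.smul_mem c hv')⟩
        (Submodule.smul_mem _ c (Submodule.mem_span_singleton_self v'))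
      simpa using this
    have d2 := Submodule.finrank_mono d1
    rw [Submodule.finrank_sup_span_singleton (p := KL F K u ⊓ Y) (fun h => hv'L h.1),
      P.mY.finrank] at d2
    have d3 := Submodule.finrank_sup_span_singleton (p := KL F K u ⊓ Y) (v := l₀)
      (fun h => hl₀Y h.2)
    have d4 : (KL F K u ⊓ Y) ⊔ F ∙ l₀ = KL F K u := Submodule.eq_of_le_of_finrank_le
      (sup_le inf_le_left (by simpa using hl₀)) (by rw [finrank_KL hu0]; omega)
    intro l hl
    rw [← d4] at hl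
    obtain ⟨a, ha, _, hb, rfl⟩ := Submodule.mem_sup.1 hl
    obtain ⟨c, rfl⟩ := Submodule.mem_span_singleton.1 hb
    exact ⟨c, by simpa using ha.2⟩
  have tsY := P.mY.ts G
  have tsL := D.ts hu
  have hne : B Q l₀ v' ≠ 0 := by
    intro h
    refine P.BK_ne G S hu hv' hv'L (D.mem_perp.1 fun l hl => ?_)
    obtain ⟨c, hc⟩ := decL l hl
    simpa [h] using tsY.B_eq_zero hc hv'
  obtain ⟨v, hv, hvL, hlv⟩ : ∃ v ∈ Y, v ∉ KL F K u ∧ B Q l₀ v = 1 :=
    ⟨(B Q l₀ v')⁻¹ • v', Y.smul_mem _ hv', fun h => hv'L (by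
      simpa [hne] using Submodule.smul_mem _ (B Q l₀ v') h), by simp [hne]⟩
  have memA : ∀ y ∈ Y, y - B Q l₀ y • v ∈ KL F K u := by
    intro y hy
    obtain ⟨c, hc⟩ := dec v hv hvL y hy
    have := tsL.B_eq_zero hl₀ hc
    rw [map_sub, map_smul, hlv, smul_eq_mul, mul_one, sub_eq_zero] at this
    rwa [this]
  have hx₁ := P.BK_ne G S hu hv hvL
  set x₁ := B D.QK u v with hx₁def
  obtain ⟨g, hg, u₀, hu₀, hu₀0, hY⟩ := P.mY
  set U := Submodule.span K {u, v} with hU
  have hYU : ∀ y ∈ Y, y ∈ U := P.le_span G S hu hv hvL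
  have huU : u ∈ U := Submodule.subset_span (by simp)
  have hLU : ∀ y ∈ KL F K u, y ∈ U := fun y hy => by
    obtain ⟨k, rfl⟩ := mem_KL.1 hy
    exact Submodule.smul_mem _ _ huU
  have hUnd : NdOn D.QK U := ndOn_pair hu hx₁
  obtain ⟨hN, hd⟩ := G.perp_pair hu hx₁
  have hNY : ∀ z ∈ perp D.QK U, z ∈ perp Q Y := fun z hz y hy => D.B_of_BK (hz y (hYU y hy))
  have hκ := (Pair.le_span' G S hg hu₀ (hY ▸ P.symm) hl₀ (hY ▸ hl₀Y)).1
  have hgY : ∀ x ∈ KL F K u₀, g x ∈ Y := fun x hx => by rw [hY]; exact ⟨x, hx, rfl⟩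
  have hgp : ∀ x ∈ perp Q Y, B D.QK u₀ (g⁻¹ x) = 0 := fun x hx => D.mem_perp.1 fun l hl => by
    rw [← O_B_inv (G.le hg)]; exact hx _ (hgY l hl)
  -- the elements of `T_Y`
  have exy : ∀ e ∈ perp D.QK U, Q e = 0 → ∃ y ∈ M, (∀ a ∈ Y, y a = a) ∧
      (∀ z ∈ perp Q Y, y z - z ∈ Y) ∧ (y l₀ - l₀ - e ∈ KL F K u ⊓ Y) := by
    intro e he hqe
    set ω := (B D.QK u₀ (g⁻¹ l₀))⁻¹ • g⁻¹ e with hω
    have hω0 : B D.QK u₀ ω = 0 := by rw [hω, map_smul, hgp e (hNY e he), smul_zero]
    have hy := mul_mem (mul_mem hg (G.T hu₀ hω0)) (inv_mem hg)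
    refine ⟨_, hy, fun a ha => ?_, fun z hz => ?_, ?_⟩
    · rw [hY] at ha
      obtain ⟨x, hx, rfl⟩ := ha
      obtain ⟨k, rfl⟩ := mem_KL.1 hx
      simp [mul_app, eich_apply_self hu₀ hω0]
    · rw [mul_app, mul_app, res_apply, eich_apply_of_perp_left hu₀ hω0 (hgp z hz), map_sub,
        apply_inv_apply, sub_sub_cancel_left]
      exact neg_mem (hgY _ (smul_mem_KL _ _))
    · have h1 := G.le hy l₀
      rw [mul_app, mul_app, res_apply, eich_apply hu₀ hω0] at h1 ⊢
      generalize (B D.QK ω (g⁻¹ l₀) + D.QK ω * B D.QK u₀ (g⁻¹ l₀)) = c at h1 ⊢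
      have h2 := hgY _ (smul_mem_KL c u₀)
      rw [hω, smul_smul, mul_inv_cancel₀ hκ, one_smul, map_sub, map_add, apply_inv_apply,
        apply_inv_apply] at h1 ⊢
      rw [show l₀ + e - g (c • u₀) - l₀ - e = -g (c • u₀) by abel, neg_mem_iff]
      refine ⟨?_, h2⟩
      rw [Q_sub, Q_add, tsL l₀ hl₀, hqe, tsY _ h2, D.B_of_BK (he l₀ (hLU l₀ hl₀)), map_add,
        LinearMap.add_apply, B_comm Q e, hNY e he _ h2] at h1
      have h3 : B Q l₀ (g (c • u₀)) = 0 := by simpa using h1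
      simpa [h3] using memA _ h2
  have key : ∀ e ∈ perp D.QK U, Q e = 0 → ∀ c : K, (B Q e).smulRight c ∈ D.NN M hu := by
    intro e he hqe c
    obtain ⟨y, hyM, y1, y2, y3⟩ := exy e he hqe
    have hyO := G.le hyM
    have d1 := finrank_inf_perp_ge (Q := Q) ((perp D.QK U).restrictScalars F) (F ∙ e)
    have d2 := finrank_span_singleton_le (F := F) e
    have d3 := finrank_KL_le (F := F) (K := K) e
    have d4 : finrank F ((perp D.QK U).restrictScalars F) =
        finrank F K * finrank K (perp D.QK U) := (Module.finrank_mul_finrank F K (perp D.QK U)).symm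
    have d5 := D.two_le
    obtain ⟨w'', hw'', hw''e⟩ := exists_mem_notMem_of_finrank_lt
      (H := (perp D.QK U).restrictScalars F ⊓ perp Q (F ∙ e)) (X := KL F K e) (by nlinarith)
    have hw''N : w'' ∈ perp D.QK U := hw''.1
    have hew'' : B Q e w'' = 0 := mem_perp_span_singleton.1 hw''.2
    obtain ⟨w₂', hw₂', hne₂⟩ := hN.exists_perp_B_ne (X := K ∙ e) (by simpa using he) hw''N hw''e
    obtain ⟨w₂, hw₂N, hw₂e, hw₂⟩ : ∃ w₂ ∈ perp D.QK U, B D.QK w₂ e = 0 ∧ B D.QK w₂ w'' = c :=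
      ⟨(c / B D.QK w'' w₂') • w₂', Submodule.smul_mem _ _ hw₂'.1, by
        rw [B_comm, map_smul, mem_perp_span_singleton.1 hw₂'.2, smul_zero], by
        rw [B_comm, map_smul, smul_eq_mul, div_mul_cancel₀ _ hne₂]⟩
    set w := x₁⁻¹ • w'' with hw
    have hwN : w ∈ perp D.QK U := Submodule.smul_mem _ _ hw''N
    have w1 : B D.QK u w = 0 := hwN u huU
    have htM := G.T hu w1
    set t := res F (eich D.QK u w) with ht
    have tL : ∀ x ∈ KL F K u, t x = x := fun x hx => by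
      obtain ⟨k, rfl⟩ := mem_KL.1 hx
      rw [ht, res_apply, map_smul, eich_apply_self hu w1]
    have hyl : y l₀ = l₀ + e + (y l₀ - l₀ - e) := by abel
    -- `s = y⁻¹ t y` fixes `L` pointwise
    have hsM : y⁻¹ * t * y ∈ M := mul_mem (mul_mem (inv_mem hyM) htM) hyM
    have yi : ∀ a ∈ Y, y⁻¹ a = a := fun a ha => by
      nth_rewrite 1 [← y1 a ha]; simp
    have sA : ∀ a ∈ KL F K u, a ∈ Y → (y⁻¹ * t * y) a = a := fun a ha ha' => by
      rw [mul_app, mul_app, y1 a ha', tL a ha, yi a ha']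
    have hA : B D.QK w e • u ∈ Y := by
      obtain ⟨c', hc'⟩ := decL _ (smul_mem_KL (F := F) (B D.QK w e) u)
      have h1 := tsY.B_eq_zero hc' hv
      rw [map_sub, map_smul _ c', LinearMap.sub_apply, LinearMap.smul_apply, hlv, D.hB_smul,
        ← hx₁def, mul_comm, ← D.hB_smul, hw, smul_smul, mul_inv_cancel₀ hx₁, one_smul, B_comm,
        hew''] at h1
      have : c' = 0 := by simpa using h1
      simpa [this] using hc'
    have sl : (y⁻¹ * t * y) l₀ = l₀ + (-1 : F) • B D.QK w e • u := by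
      rw [mul_app, mul_app, hyl, map_add t, map_add t, tL l₀ hl₀, tL _ y3.1, ht, res_apply,
        eich_apply_of_perp_left hu w1 (he u huU),
        show ∀ a b c d : V, a + (b - c) + d = (a + b + d) - c from fun a b c d => by abel,
        ← hyl, map_sub, inv_apply_apply, yi _ hA]
      simp [sub_eq_add_neg]
    have sL : ∀ x ∈ KL F K u, (y⁻¹ * t * y) x = x := by
      by_cases h0 : B D.QK w e • u = 0
      · refine P.symm.fix S hsM (fun x a b => sA x b a) hl₀ hl₀Y (by rw [sl, h0]; simp)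
      have sub : ∀ x ∈ KL F K u, (y⁻¹ * t * y) x - x ∈ KL F K u ⊓ Y := by
        intro x hx
        obtain ⟨c', hc'⟩ := decL x hx
        have := sA _ (sub_mem hx (Submodule.smul_mem _ c' hl₀)) hc'
        rw [map_sub, map_smul, sl, sub_eq_iff_eq_add] at this
        rw [this, smul_add, show ∀ a b c : V, a - b + (b + c) - a = c from fun a b c => by abel]
        exact Submodule.smul_mem _ _ (Submodule.smul_mem _ _ ⟨smul_mem_KL _ _, hA⟩)
      exact S.fix hu hu0 hsM (fun x hx => by simpa using add_mem (sub x hx).1 hx)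
        (smul_mem_KL _ _) h0 hl₀ (fun h => hl₀Y ((Submodule.span_singleton_le_iff_mem _ _).2 hA h))
        (sA _ (smul_mem_KL _ _) hA) sl (Or.inr fun x hx => sA _ (sub x hx).1 (sub x hx).2)
    set s := y⁻¹ * t * y with hs
    have w21 : B D.QK u w₂ = 0 := hw₂N u huU
    have w2L : ∀ x ∈ KL F K u, B D.QK w₂ x = 0 := fun x hx => by
      rw [B_comm]; exact hw₂N x (hLU x hx)
    have sz : ∀ z ∈ perp D.QK U, B D.QK w₂ (s z - z) = -(B Q e z • c) := by
      intro z hz
      have h1 := y2 z (hNY z hz)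
      have h2 : B Q l₀ (y z - z) = -B Q e z := by
        have := O_B hyO l₀ z
        rw [hyl, show y z = z + (y z - z) by abel] at this
        simp only [map_add, LinearMap.add_apply, D.B_of_BK (hz l₀ (hLU l₀ hl₀)),
          B_comm Q e (y z - z), hNY e he _ h1, hNY z hz _ y3.2, tsY.B_eq_zero y3.2 h1] at this
        linear_combination this
      have h3 := memA _ h1
      rw [h2] at h3
      set c₀ := B Q e z with hc₀
      have h4 : t (y z) - (y z - c₀ • w'') ∈ KL F K u := by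
        have e1 : y z = z + (y z - z - (-c₀) • v) + (-c₀) • v := by abel
        have e2 : t v = v + w'' - (B D.QK w v + D.QK w * x₁) • u := by
          rw [ht, res_apply, eich_apply hu w1, ← hx₁def, hw, smul_smul, mul_inv_cancel₀ hx₁, one_smul]
        have e3 : t z = z - B D.QK w z • u := by
          rw [ht, res_apply, eich_apply_of_perp_left hu w1 (hz u huU)]
        nth_rewrite 1 [e1]
        rw [map_add, map_add, tL _ h3, map_smul, e2, e3]
        have := sub_mem (Submodule.smul_mem _ c₀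
          (smul_mem_KL (F := F) (B D.QK w v + D.QK w * x₁) u)) (smul_mem_KL (B D.QK w z) u)
        convert this using 1
        simp only [smul_sub, smul_add, neg_smul]; abel
      obtain ⟨γ, hγ⟩ := decL _ h4
      have h5 : y⁻¹ w'' - w'' ∈ KL F K u := by
        have a1 := y2 _ (hNY _ hw''N)
        have a2 : B Q l₀ (y w'' - w'') = 0 := by
          have := O_B hyO l₀ w''
          rw [hyl, show y w'' = w'' + (y w'' - w'') by abel] at this
          simp only [map_add, LinearMap.add_apply, D.B_of_BK (hw''N l₀ (hLU l₀ hl₀)),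
            B_comm Q e (y w'' - w''), hNY e he _ a1, hNY _ hw''N _ y3.2,
            tsY.B_eq_zero y3.2 a1, hew''] at this
          linear_combination this
        have a3 := memA _ a1
        rw [a2, zero_smul, sub_zero] at a3
        have a4 := yi _ a1
        rw [map_sub, inv_apply_apply] at a4
        rw [← neg_sub, a4]; exact neg_mem a3
      have h6 : B D.QK w₂ (y⁻¹ l₀) = 0 := by
        have a1 := y2 e (hNY e he)
        have a2 := yi _ a1
        have a3 := yi _ y3.2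
        rw [map_sub, inv_apply_apply] at a2
        rw [map_sub, map_sub, inv_apply_apply] at a3
        have : y⁻¹ l₀ = l₀ - e + (y e - e) - (y l₀ - l₀ - e) := by
          linear_combination (norm := abel) a2 - a3
        have wY : ∀ a ∈ Y, B D.QK w₂ a = 0 := fun a ha => by
          rw [B_comm]; exact hw₂N a (hYU a ha)
        rw [this, map_sub, map_add, map_sub, w2L _ hl₀, hw₂e, wY _ a1, wY _ y3.2]; simp
      have h7 := yi _ hγ
      have h8 : s z - z = (t (y z) - (y z - c₀ • w'') - γ • l₀) + γ • y⁻¹ l₀ -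
          c₀ • (y⁻¹ w'' - w'') - c₀ • w'' := by
        rw [← h7, hs, mul_app, mul_app]
        simp only [map_sub, map_smul, inv_apply_apply, smul_sub]
        abel
      rw [h8, map_sub, map_sub, map_add, w2L _ (sub_mem h4 (Submodule.smul_mem _ γ hl₀)),
        D.BK_fsmul, D.BK_fsmul, D.BK_fsmul, h6, w2L _ h5, hw₂, Algebra.smul_def]
      ring
    have hsL : ∀ x ∈ KL F K u, s⁻¹ x = x := fun x hx => by
      nth_rewrite 1 [← sL x hx]; simp
    have n1 : (B D.QK w₂).restrictScalars F ∘ₗ (s : V →ₗ[F] V) ∈ D.NN M hu := by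
      obtain ⟨-, ρ, hρ, h2⟩ := G.T_NN hu w21
      refine ⟨fun x hx => by simp [sL x hx, w2L x hx], s⁻¹ * ρ * s,
        mul_mem (mul_mem (inv_mem hsM) hρ) hsM, fun x hx => ?_⟩
      rw [mul_app, mul_app, h2 _ (D.mem_perp.1 (perp_stable (G.le hsM)
        (fun x hx => by rwa [sL x hx]) x (D.mem_perp.2 hx))), map_add, inv_apply_apply,
        hsL _ (smul_mem_KL _ _)]
      rfl
    obtain ⟨-, ρ, hρ, h2⟩ := sub_mem (G.T_NN hu w21) n1
    refine ⟨fun x hx => by
      simp [B_comm Q e, D.B_of_BK (he x (hLU x hx))], ρ, hρ, fun x hx => ?_⟩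
    rw [h2 x hx]
    congr 2
    obtain ⟨a, ha, z, hz, rfl⟩ := hUnd.exists_decomp x
    have haL : a ∈ KL F K u := by
      obtain ⟨α, β, rfl⟩ := Submodule.mem_span_pair.1 ha
      have : β = 0 := by simpa [hz u huU, B_self_of_sing _ hu, ← hx₁def, hx₁] using hx
      simpa [this] using smul_mem_KL α u
    have := sz z hz
    rw [map_sub] at this
    simp only [LinearMap.sub_apply, LinearMap.comp_apply, LinearMap.restrictScalars_apply,
      LinearEquiv.coe_coe, map_add, sL a haL, LinearMap.smulRight_apply, B_comm Q e a,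
      D.B_of_BK (he a ha), zero_smul, zero_add]
    linear_combination -this
  refine G.EO_le_of_NN hu hu0 fun w hw c => ?_
  let S' : Submodule F V := Submodule.span F {e | e ∈ perp D.QK U ∧ Q e = 0}
  have hS' : ∀ x ∈ S', ∀ c : K, (B Q x).smulRight c ∈ D.NN M hu := by
    intro x hx
    induction hx using Submodule.span_induction with
    | mem x hx => exact key x hx.1 hx.2
    | zero => intro c; convert zero_mem (D.NN M hu); ext; simp
    | add x y _ _ h1 h2 => intro c; convert add_mem (h1 c) (h2 c) using 1; ext; simp [add_smul]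
    | smul a x _ h1 => intro c; convert h1 (a • c) using 1; ext; simp [mul_smul, smul_comm a]
  have hNF : NdOn Q ((perp D.QK U).restrictScalars F) := fun x hx h => hN x hx fun y hy =>
    tau_nondeg D.hτ fun k => by rw [← D.hB_smul]; exact h _ (Submodule.smul_mem _ k hy)
  have hle : (perp D.QK U).restrictScalars F ≤ S' := by
    by_contra hn
    have d4 : finrank F ((perp D.QK U).restrictScalars F) =
        finrank F K * finrank K (perp D.QK U) := (Module.finrank_mul_finrank F K (perp D.QK U)).symm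
    have d5 := D.two_le
    obtain ⟨e, he, he0, heS⟩ := hNF.exists_sing_notMem le_rfl (by nlinarith) hn
    exact heS (Submodule.subset_span ⟨he, he0⟩)
  obtain ⟨a, ha, z, hz, rfl⟩ := hUnd.exists_decomp w
  have haL : a ∈ KL F K u := by
    obtain ⟨α, β, rfl⟩ := Submodule.mem_span_pair.1 ha
    have : β = 0 := by simpa [hz u huU, B_self_of_sing _ hu, ← hx₁def, hx₁] using hw
    simpa [this] using smul_mem_KL α u
  obtain ⟨n1, ρ, hρ, n2⟩ := hS' z (hle hz) c
  refine ⟨fun x hx => ?_, ρ, hρ, fun x hx => ?_⟩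
  · simpa [tsL.B_eq_zero haL hx] using n1 x hx
  · rw [n2 x hx]; simp [D.mem_perp.2 hx a haL]

end XD
end

end Cfsg.Agent.Orth
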