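import Cfsg.Agent.Orth.Ext3

/-! Extension field subgroups `Ω_m(q^r).r` of `Ω_{mr}(q)`, part 4. -/

set_option autoImplicit false
set_option linter.unusedSectionVars false

namespace Cfsg.Agent.Orth

open Module Cfsg.Geo
open scoped Matrix

section
variable {F V : Type*} [Field F] [AddCommGroup V] [Module F V]
  {K : Type*} [Field K] [Algebra F K] [Module K V] [IsScalarTower F K V]

namespace XD
variable {Q : QuadraticForm F V} {D : XD Q K}
  [Finite F] [Finite K] [FiniteDimensional F V] [FiniteDimensional K V]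
  {M : Subgroup (V ≃ₗ[F] V)}

variable (D) in
lemma scalar_of_sing (hm : 3 ≤ finrank K V) (ψ : V →ₗ[F] V)
    (hψ : ∀ x, D.QK x = 0 → ψ x ∈ KL F K x) : ∃ b : K, ∀ x, ψ x = b • x := by
  obtain ⟨e, -, he0, he⟩ := exists_sing_of_three (Q := D.QK) ⊤ (by rwa [finrank_top])
  obtain ⟨f, hf, hef⟩ := exists_partnerK he he0
  have hfe : B D.QK f e = 1 := by rwa [B_comm]
  have hU := ndOn_pair he (v := f) (by simp [hef])
  set U := Submodule.span K {e, f} with hUdef
  have heU : e ∈ U := Submodule.subset_span (by simp)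
  have hfU : f ∈ U := Submodule.subset_span (by simp)
  have C : ∀ a ∈ perp D.QK U, a ≠ 0 → ∀ t : K, t ≠ 0 → ∃ μ : K, ψ a = μ • a ∧
      ψ (t • e) = μ • t • e ∧ ψ ((D.QK a / t) • f) = μ • (D.QK a / t) • f := by
    intro a ha ha0 t ht
    have ea := ha e heU
    have fa := ha f hfU
    have hs : ∀ t : K, t ≠ 0 → D.QK (t • e + a - (D.QK a / t) • f) = 0 := fun t ht => by
      simp only [Q_sub, Q_add, Q_smul, he, hf, map_smul, map_add, LinearMap.smul_apply,
        LinearMap.add_apply, ea, hef, B_comm D.QK a f, fa, smul_eq_mul]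
      field_simp; ring
    obtain ⟨α', hα'⟩ := mem_KL.1 (hψ (t • e) (by rw [Q_smul, he, mul_zero]))
    obtain ⟨γ', hγ'⟩ := mem_KL.1 (hψ ((D.QK a / t) • f) (by rw [Q_smul, hf, mul_zero]))
    obtain ⟨μ, hμ⟩ := mem_KL.1 (hψ _ (hs t ht))
    obtain ⟨μ', hμ'⟩ := mem_KL.1 (hψ _ (hs (-t) (neg_ne_zero.2 ht)))
    rw [div_neg, neg_smul, neg_smul] at hμ'
    simp only [map_add, map_sub, map_neg, ← hα', ← hγ'] at hμ hμ'
    have h1 : (μ - μ') • a = (2 * α' * t - (μ + μ') * t) • e +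
        ((μ + μ') * (D.QK a / t) - 2 * γ' * (D.QK a / t)) • f := by
      linear_combination (norm := module) hμ - hμ'
    have h2 : (μ - μ') • a = 0 := hU _ (by
      rw [h1]; exact add_mem (U.smul_mem _ heU) (U.smul_mem _ hfU))
      fun x hx => by rw [map_smul, ha x hx, smul_zero]
    have h3 : μ' = μ := (sub_eq_zero.1 ((smul_eq_zero.1 h2).resolve_right ha0)).symm
    rw [h2, h3] at h1
    have h4 := congrArg (B D.QK f) h1
    have h5 := congrArg (B D.QK e) h1
    simp only [map_zero, map_add, map_smul, hfe, hef, B_self_of_sing _ he, B_self_of_sing _ hf,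
      smul_eq_mul, mul_one, mul_zero, add_zero, zero_add] at h4 h5
    have h6 : α' * t = μ * t := mul_left_cancel₀ D.twoK (by linear_combination -h4)
    have h7 : γ' * (D.QK a / t) = μ * (D.QK a / t) :=
      mul_left_cancel₀ D.twoK (by linear_combination h5)
    have e1 : α' • t • e = μ • t • e := by rw [smul_smul, smul_smul, h6]
    have e2 : γ' • (D.QK a / t) • f = μ • (D.QK a / t) • f := by rw [smul_smul, smul_smul, h7]
    refine ⟨μ, ?_, by rw [← hα', e1], by rw [← hγ', e2]⟩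
    rw [e1, e2] at hμ
    linear_combination (norm := module) -hμ
  have d1 := D.ndK.finrank_perp U
  have d2 : finrank K U ≤ 2 := finrank_span_pair_le e f
  obtain ⟨a₀, ha₀, hq₀⟩ := (hU.perp D.ndK).exists_nonsing le_rfl (by omega)
  have ha₀0 : a₀ ≠ 0 := by rintro rfl; simp at hq₀
  obtain ⟨b, hb, -, -⟩ := C a₀ ha₀ ha₀0 1 one_ne_zero
  have E : ∀ t : K, ψ (t • e) = b • t • e := fun t => by
    by_cases ht : t = 0
    · simp [ht]
    obtain ⟨μ, h1, h2, -⟩ := C a₀ ha₀ ha₀0 t ht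
    rwa [smul_left_injective K ha₀0 (hb.symm.trans h1)]
  have Fl : ∀ t : K, ψ (t • f) = b • t • f := fun t => by
    by_cases ht : t = 0
    · simp [ht]
    obtain ⟨μ, h1, -, h2⟩ := C a₀ ha₀ ha₀0 (D.QK a₀ / t) (div_ne_zero hq₀ ht)
    rwa [smul_left_injective K ha₀0 (hb.symm.trans h1), ← div_div_cancel₀ hq₀ (b := t)]
  refine ⟨b, fun x => ?_⟩
  obtain ⟨y, hy, a, ha, rfl⟩ := hU.exists_decomp x
  obtain ⟨s, t, rfl⟩ := Submodule.mem_span_pair.1 hy
  have : ψ a = b • a := by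
    by_cases ha0 : a = 0
    · simp [ha0]
    obtain ⟨μ, h1, h2, -⟩ := C a ha ha0 1 one_ne_zero
    rw [E, one_smul] at h2
    rwa [smul_left_injective K he0 h2]
  rw [map_add, map_add, E, Fl, this, smul_add, smul_add]

lemma Gd.exists_inter (G : D.Gd M) {X : Submodule F V} (hX : D.ML M X)
    (hn : ∀ u, u ≠ 0 → X ≠ KL F K u) :
    ∃ X' Y', D.ML M X' ∧ D.ML M Y' ∧ X' ≠ Y' ∧ X' ⊓ Y' ≠ ⊥ := by
  have hne : ∀ (X' Y' : Submodule F V) (v : V), v ≠ 0 → v ∈ X' → v ∈ Y' → X' ⊓ Y' ≠ ⊥ :=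
    fun X' Y' v h0 h1 h2 h => h0 (by
      have : v ∈ X' ⊓ Y' := ⟨h1, h2⟩
      rwa [h] at this)
  have sing : ∀ v ∈ X, v ≠ 0 → D.QK v = 0 →
      ∃ X' Y', D.ML M X' ∧ D.ML M Y' ∧ X' ≠ Y' ∧ X' ⊓ Y' ≠ ⊥ := fun v hv hv0 hq =>
    ⟨X, _, hX, ML.base hq hv0, hn v hv0, hne _ _ v hv0 hv (self_mem_KL v)⟩
  have d0 := hX.finrank
  have d00 := D.two_le
  obtain ⟨v, hv, hv0⟩ := Submodule.exists_mem_ne_zero_of_ne_bot (p := X)
    (by rintro rfl; simp at d0; omega)
  by_cases hq : D.QK v = 0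
  · exact sing v hv hv0 hq
  by_cases hc : ∃ h ∈ M, h v = v ∧ X.map (h : V →ₗ[F] V) ≠ X
  · obtain ⟨h, hh, h1, h2⟩ := hc
    exact ⟨_, _, hX.map hh, hX, h2, hne _ _ v hv0 ⟨v, hv, h1⟩ hv⟩
  push Not at hc
  obtain ⟨l, hl, hlv⟩ : ∃ l ∈ X, l ∉ KL F K v := by
    by_contra h; push Not at h
    exact hn v hv0 (Submodule.eq_of_le_of_finrank_eq h (by rw [d0, finrank_KL hv0]))
  have hv1 := NdOn.span_singleton D.twoK hq
  have hN := hv1.perp D.ndK
  have d1 := D.ndK.finrank_perp (K ∙ v)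
  have d2 := finrank_span_singleton_le (F := K) v
  have d3 := G.hm
  obtain ⟨y, hy, x, hx, rfl⟩ := hv1.exists_decomp l
  have hx0 : x ≠ 0 := by rintro rfl; exact hlv (by rw [add_zero]; exact hy)
  obtain ⟨e, he, he0, hex⟩ := hN.exists_sing_apply_ne le_rfl (by omega) (B D.QK x)
    (hN.exists_B_ne hx hx0)
  have d4 := finrank_inf_perp_ge (Q := D.QK) (perp D.QK (K ∙ v)) (K ∙ e)
  have d5 := finrank_span_singleton_le (F := K) e
  obtain ⟨w, hw, hqw⟩ := hN.exists_nonsing (H := perp D.QK (K ∙ v) ⊓ perp D.QK (K ∙ e))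
    inf_le_left (by omega)
  have hew : B D.QK e w = 0 := mem_perp_span_singleton.1 hw.2
  have hb : B D.QK e (y + x) ≠ 0 := by
    rwa [map_add, B_comm D.QK e y, he y hy, zero_add, B_comm]
  have m : ∀ w ∈ perp D.QK (K ∙ v), B D.QK e w = 0 → eich D.QK e w (y + x) ∈ X := by
    intro w hw hew
    rw [← hc _ (G.T he0 hew) (eich_apply_of_perp
      (by rw [B_comm]; exact mem_perp_span_singleton.1 he)
      (by rw [B_comm]; exact mem_perp_span_singleton.1 hw))]
    exact ⟨_, hl, rfl⟩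
  have h1 := sub_mem (add_mem hl hl) (add_mem (m w hw.1 hew) (m (-w) (neg_mem hw.1) (by simp [hew])))
  rw [eich_apply he0 hew, eich_apply he0 (by simp [hew]), Q_neg, map_neg, LinearMap.neg_apply] at h1
  refine sing ((2 * D.QK w * B D.QK e (y + x)) • e) (by convert h1 using 1; module)
    (smul_ne_zero (by simp only [ne_eq, mul_eq_zero, D.twoK, hqw, hb]; simp)
      (by rintro rfl; simp at hex)) (by rw [Q_smul, he0, mul_zero])

theorem Gd.max (G : D.Gd M) : (∀ g ∈ M, SemiK K g) ∨ EO Q ≤ M := by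
  by_cases S : D.Star M
  swap
  · exact Or.inr (G.EO_le_of_not_star S)
  by_cases hc : ∀ X, D.ML M X → ∃ u, u ≠ 0 ∧ X = KL F K u
  · left
    intro g hg a
    obtain ⟨b, hb⟩ := D.scalar_of_sing (by have := G.hm; omega)
      ((g : V →ₗ[F] V) ∘ₗ (LinearMap.lsmul K V a).restrictScalars F ∘ₗ (g⁻¹ : V ≃ₗ[F] V))
      (fun x hx => by
        by_cases hx0 : x = 0
        · simp [hx0]
        obtain ⟨u, -, hu⟩ := hc _ ((ML.base hx hx0).map (inv_mem hg))
        have h1 : g⁻¹ x ∈ KL F K u := hu ▸ ⟨x, self_mem_KL x, rfl⟩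
        have h2 := KL_smul_mem h1 a
        rw [← hu] at h2
        obtain ⟨y, hy, e⟩ := h2
        simp only [LinearEquiv.coe_coe] at e
        change g (a • g⁻¹ x) ∈ _
        rwa [← e, apply_inv_apply])
    exact ⟨b, fun x => by simpa using hb (g x)⟩
  right
  push Not at hc
  obtain ⟨X, hX, hn⟩ := hc
  obtain ⟨X', Y', h1, h2, h3, h4⟩ := G.exists_inter hX hn
  haveI : Finite V := Module.finite_of_finite F
  obtain ⟨⟨X₀, Y₀⟩, ⟨a1, a2, a3⟩, hmax⟩ := Set.exists_max_image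
    {p : Submodule F V × Submodule F V | D.ML M p.1 ∧ D.ML M p.2 ∧ p.1 ≠ p.2}
    (fun p => finrank F (p.1 ⊓ p.2 : Submodule F V)) (Set.toFinite _) ⟨(X', Y'), h1, h2, h3⟩
  have P : D.Pair M X₀ Y₀ := ⟨a1, a2, a3, fun h => h4 (by
    have : finrank F (X' ⊓ Y' : Submodule F V) ≤ finrank F (X₀ ⊓ Y₀ : Submodule F V) :=
      hmax (X', Y') ⟨h1, h2, h3⟩
    rw [h, finrank_bot, nonpos_iff_eq_zero] at this
    exact Submodule.finrank_eq_zero.1 this), fun X' Y' a b c => hmax (X', Y') ⟨a, b, c⟩⟩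
  obtain ⟨g, hg, u, hu, hu0, rfl⟩ := a1
  have P' := P.map (inv_mem hg)
  have e : ((KL F K u).map (g : V →ₗ[F] V)).map ((g⁻¹ : V ≃ₗ[F] V) : V →ₗ[F] V) = KL F K u := by
    rw [← Submodule.map_comp]
    convert Submodule.map_id _
    ext; simp
  rw [e] at P'
  exact P'.EO_le G S hu hu0

variable (D) in
include D in
lemma exists_not_semi (hm : 3 ≤ finrank K V) : ∃ g ∈ EO Q, ¬ SemiK K g := by
  obtain ⟨u, -, hu0, hu⟩ := exists_sing_of_three (Q := D.QK) ⊤ (by rwa [finrank_top])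
  have d1 := D.ndK.finrank_perp (K ∙ u)
  have d2 := finrank_span_singleton_le (F := K) u
  obtain ⟨y', hy', hq'⟩ := D.ndK.ndOn_top.exists_nonsing (H := perp D.QK (K ∙ u)) le_top
    (by rw [finrank_top]; omega)
  obtain ⟨c, hc⟩ := D.hτ
  have huy : B D.QK u y' = 0 := mem_perp_span_singleton.1 hy'
  set y := (c / (2 * D.QK y')) • y' with hy
  have hyy : B Q y y' = D.τ c := by
    rw [hy, D.hB_smul, B_self, div_mul_cancel₀ _ (mul_ne_zero D.twoK hq')]
  have hp : y ∈ perp Q (KL F K u) := D.mem_perp.2 (by rw [hy, map_smul, huy, smul_zero])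
  have hqu : Q u = 0 := D.ts hu u (self_mem_KL u)
  obtain ⟨k, hk⟩ : ∃ k : K, k ∉ F ∙ (1 : K) := by
    have := finrank_span_singleton_le (F := F) (1 : K)
    have := D.two_le
    obtain ⟨k, -, hk⟩ := exists_mem_notMem_of_finrank_lt (H := ⊤) (X := F ∙ (1 : K))
      (by rw [finrank_top]; omega)
    exact ⟨k, hk⟩
  refine ⟨eich Q u y, eich_mem_EO _ _, fun h => hk ?_⟩
  obtain ⟨b, hb⟩ := h k
  have fx : ∀ x ∈ KL F K u, eich Q u y x = x := fun x hx =>
    eich_apply_of_perp ((D.ts hu).B_eq_zero (self_mem_KL u) hx) (by rw [B_comm]; exact hp x hx)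
  have h1 := hb u
  rw [fx _ (smul_mem_KL _ _), fx _ (self_mem_KL _)] at h1
  have hbk : k = b := smul_left_injective K hu0 h1
  have h2 := hb y'
  rw [eich_apply_of_perp_left hqu (hp u (self_mem_KL u)) (D.B_of_BK (by simp [huy])),
    eich_apply_of_perp_left hqu (hp u (self_mem_KL u)) (D.B_of_BK huy), hyy, ← hbk, smul_sub,
    sub_right_inj, ← algebraMap_smul K, ← algebraMap_smul K (D.τ c), smul_smul] at h2
  have h3 := smul_left_injective K hu0 h2
  refine Submodule.mem_span_singleton.2 ⟨B Q y (k • y') / D.τ c, ?_⟩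
  rw [← Algebra.algebraMap_eq_smul_one, map_div₀, h3, mul_div_cancel_right₀ _ (by simpa using hc)]

end XD

theorem exists_XD [FiniteDimensional F K] {Q : QuadraticForm F V} (hQ : Nd Q)
    (hp : (finrank F K).Prime) (h2 : (2 : F) ≠ 0)
    (hsa : ∀ (a : K) (x y : V), B Q (a • x) y = B Q x (a • y)) : Nonempty (XD Q K) := by
  obtain ⟨τ, hτ⟩ := Module.Projective.exists_dual_eq_one F (one_ne_zero (α := K))
  have hτ' : ∃ c, τ c ≠ 0 := ⟨1, by simp [hτ]⟩
  have ex : ∀ x y : V, ∃ e : K, ∀ k : K, B Q (k • x) y = τ (e * k) := fun x y =>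
    exists_tau_mul hτ' ((B Q).flip y ∘ₗ (LinearMap.toSpanSingleton K V x).restrictScalars F)
  choose β hβ using ex
  have ext : ∀ a b : K, (∀ k, τ (a * k) = τ (b * k)) → a = b := fun a b h =>
    sub_eq_zero.1 (tau_nondeg hτ' fun k => by rw [mul_sub, map_sub, mul_comm, h, mul_comm, sub_self])
  let bil : V →ₗ[K] V →ₗ[K] K := LinearMap.mk₂ K β
    (fun x x' y => ext _ _ fun k => by
      rw [← hβ, add_mul, map_add, ← hβ, ← hβ, smul_add, map_add, LinearMap.add_apply])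
    (fun c x y => ext _ _ fun k => by
      rw [← hβ, smul_eq_mul, mul_comm c, mul_assoc, ← hβ, smul_smul, mul_comm])
    (fun x y y' => ext _ _ fun k => by rw [← hβ, add_mul, map_add, map_add, ← hβ, ← hβ])
    (fun c x y => ext _ _ fun k => by
      rw [← hβ, smul_eq_mul, mul_comm c, mul_assoc, ← hβ, ← hsa, smul_smul])
  refine ⟨⟨LinearMap.BilinMap.toQuadraticMap ((algebraMap F K 2⁻¹) • bil), τ, hτ', fun x => ?_,
    hp, h2, hQ⟩⟩
  simp only [LinearMap.BilinMap.toQuadraticMap_apply, LinearMap.smul_apply, bil,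
    LinearMap.mk₂_apply, smul_eq_mul]
  rw [mul_comm, ← hβ, algebraMap_smul, map_smul, LinearMap.smul_apply, B_self, smul_eq_mul]
  field_simp

end

lemma two_ne_zero_of_odd {F : Type*} [Field F] [Fintype F] (hodd : Odd (Fintype.card F)) :
    (2 : F) ≠ 0 := by
  intro h
  have : ringChar F = 2 := by
    have := (ringChar.spec F 2).1 (by exact_mod_cast h)
    rcases (Nat.dvd_prime Nat.prime_two).1 this with h1 | h1
    · exact absurd h1 (CharP.ringChar_ne_one)
    · exact h1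
  have := FiniteField.even_card_of_char_two this
  rw [Nat.odd_iff] at hodd; omega

variable {ι : Type} [Fintype ι] [DecidableEq ι] {F : Type*} [Field F] [Fintype F]
  {Q : (ι → F) → F} (hQ : IsNondegenerateQuadraticForm Q)
include hQ

theorem max_ext (hodd : Odd (Fintype.card F)) {r : ℕ} (hr : r.Prime)
    (hd : 3 * r < Fintype.card ι) {K : Subalgebra F (Matrix ι ι F)}
    (hK : IsFieldSubalgebra r K) (hsa : IsSelfAdjointFor (QuadraticMap.polar Q) K) :
    IsMaximalIn (omegaGL Q) (subalgebraNormalizer K ⊓ omegaGL Q) := by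
  haveI : Nonempty ι := Fintype.card_pos_iff.1 (by omega)
  have hN := nd_toQF hQ
  have := hr.two_le
  refine field_bridge hK fun L _ _ _ _ _ hr' h1 h2 hS => ?_
  haveI : FiniteDimensional L (ι → F) := Module.Finite.of_restrictScalars_finite F L _
  obtain ⟨D⟩ := exists_XD (K := L) hN (hr' ▸ hr) (two_ne_zero_of_odd hodd) (fun a x y => by
    obtain ⟨k, hk, ha⟩ := h1 a
    rw [ha, ha]; exact hsa k hk x y)
  have hm : 4 ≤ finrank L (ι → F) := by
    have := Module.finrank_mul_finrank F L (ι → F)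
    rw [hr', finrank_fintype_fun_eq_card] at this
    by_contra h
    have : r * finrank L (ι → F) ≤ r * 3 := Nat.mul_le_mul_left _ (by omega)
    omega
  exact isMaximalIn_of hQ (by omega) _ (SemiK L) (fun g _ => hS g)
    (D.exists_not_semi (by omega)) fun M hM hH => XD.Gd.max (D := D)
      ⟨hM.trans EO_le_O, fun g hg => hH _ hg fun a => ⟨a, fun x => map_smul g a x⟩, hm⟩

end Cfsg.Agent.Orth
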