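import Cfsg.Agent.Orth.FieldBridge

/-! The unitary subgroup `GU_m(q)` of `Ω_{2m}(q)`. -/

set_option autoImplicit false

namespace Cfsg.Agent.Orth

open Module Cfsg.Geo
open scoped Matrix

section abstr
variable {F V : Type*} [Field F] [AddCommGroup V] [Module F V]
  {K : Type*} [Field K] [Algebra F K] [Module K V] [IsScalarTower F K V]

/-- data of a hermitian structure over the quadratic extension `K` -/
structure UD (Q : QuadraticForm F V) (K : Type*) [Field K] [Algebra F K] [Module K V] where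
  k : K
  t : F
  N : F
  span : ∀ a : K, ∃ α β : F, a = algebraMap F K α + algebraMap F K β * k
  notF : ∀ α, k ≠ algebraMap F K α
  kk : k * k = algebraMap F K t * k - algebraMap F K N
  adj : ∀ x y : V, B Q (k • x) y = t * B Q x y - B Q x (k • y)
  sing : ∀ (a : K) (y : V), Q y = 0 → Q (a • y) = 0
  rk : finrank F K = 2

namespace UD
variable {Q : QuadraticForm F V} (D : UD Q K)

lemma smul_eq (α β : F) (x : V) :
    (algebraMap F K α + algebraMap F K β * D.k) • x = α • x + β • D.k • x := by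
  rw [add_smul, mul_smul, algebraMap_smul, algebraMap_smul]

lemma Bkk (x y : V) : B Q (D.k • x) (D.k • y) = D.N * B Q x y := by
  rw [D.adj, smul_smul, D.kk, sub_smul, mul_smul, algebraMap_smul, algebraMap_smul]
  simp

/-- the skew-hermitian form -/
def h (x y : V) : K := algebraMap F K (B Q y x) * D.k - algebraMap F K (B Q (D.k • y) x)

lemma h_add_left (x x' y : V) : D.h (x + x') y = D.h x y + D.h x' y := by
  simp only [h, map_add]; ring

lemma h_add_right (x y y' : V) : D.h x (y + y') = D.h x y + D.h x y' := by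
  simp only [h, map_add, smul_add, LinearMap.add_apply]; ring

lemma h_smul_left (a : K) (x y : V) : D.h (a • x) y = a * D.h x y := by
  obtain ⟨α, β, rfl⟩ := D.span a
  have h1 : B Q y (D.k • x) = D.t * B Q y x - B Q (D.k • y) x := by rw [D.adj]; ring
  simp only [h, D.smul_eq, map_add, map_smul, smul_eq_mul, D.Bkk, h1, map_mul, map_sub]
  linear_combination (-(algebraMap F K β * algebraMap F K (B Q y x))) * D.kk

lemma mem_perp {x y : V} : x ∈ perp Q (KL F K y) ↔ B Q y x = 0 ∧ B Q (D.k • y) x = 0 := by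
  rw [mem_perp_KL]
  refine ⟨fun h => ⟨by simpa using h 1, h _⟩, fun h a => ?_⟩
  obtain ⟨α, β, rfl⟩ := D.span a
  simp [D.smul_eq, h.1, h.2]

lemma h_eq_zero {x y : V} : D.h x y = 0 ↔ x ∈ perp Q (KL F K y) := by
  rw [D.mem_perp]
  refine ⟨fun h0 => ?_, fun h0 => by simp [h, h0.1, h0.2]⟩
  by_cases hb : B Q y x = 0
  · refine ⟨hb, ?_⟩
    simpa [h, hb] using h0
  · exfalso
    refine D.notF (B Q (D.k • y) x / B Q y x) ?_
    have : algebraMap F K (B Q y x) ≠ 0 := by simpa using hb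
    rw [map_div₀, eq_div_iff this]
    simp only [h] at h0
    linear_combination h0

lemma h_ne_zero {x y : V} (hb : B Q y x ≠ 0) : D.h x y ≠ 0 :=
  fun h => hb (D.mem_perp.1 (D.h_eq_zero.1 h)).1

include D in
lemma perp_smul {x y : V} (hx : x ∈ perp Q (KL F K y)) (a : K) : a • x ∈ perp Q (KL F K y) := by
  rw [← D.h_eq_zero] at hx ⊢
  rw [D.h_smul_left, hx, mul_zero]

include D in
lemma perp_comm {x y : V} (hx : x ∈ perp Q (KL F K y)) : y ∈ perp Q (KL F K x) := by
  rw [mem_perp_KL]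
  intro a
  rw [B_comm]; exact D.perp_smul hx a y (self_mem_KL y)

include D in
lemma ts {y : V} (hy : Q y = 0) : TS Q (KL F K y) := by
  intro x hx
  obtain ⟨a, rfl⟩ := mem_KL.1 hx
  exact D.sing a y hy

lemma h_self {y : V} (hy : Q y = 0) (a : K) : D.h y (a • y) = 0 := by
  rw [D.h_eq_zero, mem_perp_KL]
  intro b
  exact (D.ts hy).B_eq_zero (KL_smul_mem (smul_mem_KL a y) b) (self_mem_KL y)

lemma B_k_self {y : V} (hy : Q y = 0) (c : F) : B Q y (c • D.k • y) = 0 := by
  rw [map_smul, (D.ts hy).B_eq_zero (self_mem_KL y) (smul_mem_KL _ y), smul_zero]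

lemma T_apply {y : V} (hy : Q y = 0) (c : F) (x : V) :
    eich Q y (c • D.k • y) x = x + (c • D.h x y) • y := by
  rw [eich_apply hy (D.B_k_self hy c), Q_smul, D.sing _ _ hy, smul_assoc, h, sub_smul, mul_smul,
    algebraMap_smul, algebraMap_smul]
  simp only [map_smul, LinearMap.smul_apply, smul_eq_mul, smul_sub, smul_smul, mul_zero, zero_mul,
    add_zero]
  rw [mul_comm c, mul_comm c]; abel

lemma T_semi {y : V} (hy : Q y = 0) (c : F) : SemiK K (eich Q y (c • D.k • y)) := by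
  refine fun a => ⟨a, fun x => ?_⟩
  rw [D.T_apply hy, D.T_apply hy, D.h_smul_left, smul_add, smul_smul, mul_smul_comm]

variable [Finite F] [FiniteDimensional F V]

omit [Finite F] [FiniteDimensional F V] in
include D in
lemma rk_le (y : V) : finrank F (KL F K y) ≤ 2 := by
  haveI : FiniteDimensional F K := Module.finite_of_finrank_pos (by rw [D.rk]; omega)
  rw [← D.rk]; exact finrank_KL_le y

include D in
lemma exists_sing (hQ : Nd Q) (hd : 7 ≤ finrank F V) (v : V) :
    ∃ y ∈ perp Q (KL F K v), Q y = 0 ∧ y ∉ KL F K v := by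
  have h1 := hQ.finrank_perp (KL F K v)
  have h2 := D.rk_le v
  refine hQ.ndOn_top.exists_sing_notMem le_top (by rw [finrank_top]; omega) fun h => ?_
  have := Submodule.finrank_mono h
  omega

theorem wall (hQ : Nd Q) (hd : 10 ≤ finrank F V) {v : V} (hv : Q v = 0) (A : AddSubgroup V)
    (hA : ∀ y ∈ perp Q (KL F K v), Q y = 0 → ∀ x ∈ A, D.h x y • y ∈ A)
    (hvA : ∀ x ∈ KL F K v, x ∈ A) {w : V} (hw : w ∈ A) (hwv : w ∉ KL F K v) :
    ∀ x ∈ perp Q (KL F K v), x ∈ A := by
  have r1 := D.rk_le v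
  have sp : ∀ (X : Submodule F V) (a : V), finrank F X ≤ 3 → a ∉ X →
      ∃ e ∈ perp Q X, Q e = 0 ∧ B Q e a ≠ 0 := by
    intro X a hX ha
    obtain ⟨e, -, h1, h2, h3⟩ := hQ.ndOn_top.exists_sing_perp_B_ne (X := X) le_top
      (by rw [finrank_top]; omega) trivial ha
    exact ⟨e, h1, h2, by rwa [B_comm]⟩
  obtain ⟨y, hyA, hyp, hy, hyv⟩ : ∃ y ∈ A, y ∈ perp Q (KL F K v) ∧ Q y = 0 ∧ y ∉ KL F K v := by
    obtain ⟨y0, h1, h2, h3, h4⟩ : ∃ y0 ∈ perp Q (KL F K v), Q y0 = 0 ∧ y0 ∉ KL F K v ∧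
        D.h w y0 ≠ 0 := by
      obtain ⟨e, he, he0, hne⟩ := sp _ w (by omega) hwv
      by_cases hev : e ∈ KL F K v
      · obtain ⟨y, hy, hy0, hyv⟩ := D.exists_sing hQ (by omega) v
        by_cases hwy : D.h w y = 0
        · refine ⟨y + e, add_mem hy he, by rw [Q_add, hy0, he0, B_comm, hy e hev]; simp,
            fun h => hyv (by simpa using sub_mem h hev), ?_⟩
          rw [D.h_add_right, hwy, zero_add]; exact D.h_ne_zero hne
        · exact ⟨y, hy, hy0, hyv, hwy⟩
      · exact ⟨e, he, he0, hev, D.h_ne_zero hne⟩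
    exact ⟨_, hA y0 h1 h2 w hw, D.perp_smul h1 _, D.sing _ _ h2,
      fun h => h3 (mem_KL_of_smul h4 h)⟩
  have stepb : ∀ y ∈ A, y ∈ perp Q (KL F K v) → Q y = 0 → ∀ y1 ∈ perp Q (KL F K v), Q y1 = 0 →
      D.h y y1 ≠ 0 → ∀ a : K, a • y1 ∈ A := by
    intro y hyA hyp hy y1 hy1p hy1 hne a
    have hne' : D.h y1 y ≠ 0 := fun h => hne (D.h_eq_zero.2 (D.perp_comm (D.h_eq_zero.1 h)))
    set X := KL F K v ⊔ KL F K y ⊔ KL F K y1 with hX
    have d1 := hQ.finrank_perp X
    have d2 : finrank F X ≤ _ := finrank_sup_le (KL F K v ⊔ KL F K y) (KL F K y1)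
    have d3 := finrank_sup_le (KL F K v) (KL F K y)
    have r2 := D.rk_le y
    have r3 := D.rk_le y1
    have hXv : perp Q X ≤ perp Q (KL F K v) := perp_anti (le_sup_left.trans le_sup_left)
    have hXy : perp Q X ≤ perp Q (KL F K y) := perp_anti (le_sup_right.trans le_sup_left)
    have hXy1 : perp Q X ≤ perp Q (KL F K y1) := perp_anti le_sup_right
    have hrad : perp Q X ⊓ perp Q (perp Q X) ≤ KL F K v := by
      rw [hQ.perp_perp]
      rintro x ⟨hx1, hx2⟩
      obtain ⟨_, h', _, hc, rfl⟩ := Submodule.mem_sup.1 hx2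
      obtain ⟨_, ha, _, hb, rfl⟩ := Submodule.mem_sup.1 h'
      obtain ⟨α, rfl⟩ := mem_KL.1 ha
      obtain ⟨β, rfl⟩ := mem_KL.1 hb
      obtain ⟨γ, rfl⟩ := mem_KL.1 hc
      have e1 := D.h_eq_zero.2 (hXy hx1)
      have e2 := D.h_eq_zero.2 (hXy1 hx1)
      have v1 := D.h_eq_zero.2 (D.perp_comm hyp)
      have v2 := D.h_eq_zero.2 (D.perp_comm hy1p)
      have s1 : D.h y y = 0 := by simpa using D.h_self hy 1
      have s2 : D.h y1 y1 = 0 := by simpa using D.h_self hy1 1
      simp only [D.h_add_left, D.h_smul_left, v1, v2, s1, s2, mul_zero, zero_add, add_zero,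
        mul_eq_zero, hne, hne', or_false] at e1 e2
      rw [e1, e2]; simpa using ha
    have d4 := Submodule.finrank_mono hrad
    set b := a / (D.h y y1 * D.h y y1) with hb
    obtain ⟨z, hz, hqz⟩ := exists_Q_eq (Q := Q) (H := perp Q X) (by omega) (-B Q (b • y) y1)
    have zy : B Q (b • y) z = 0 := hXy hz _ (smul_mem_KL _ _)
    have zy1 : B Q y1 z = 0 := hXy1 hz _ (self_mem_KL _)
    have hq : Q (b • y + y1 + z) = 0 := by
      rw [Q_add, Q_add, D.sing _ _ hy, hy1, hqz, map_add, LinearMap.add_apply, zy, zy1]; ring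
    have hp : b • y + y1 + z ∈ perp Q (KL F K v) :=
      add_mem (add_mem (D.perp_smul hyp b) hy1p) (hXv hz)
    have h1 := hA _ hy1p hy1 _ (hA _ hp hq y hyA)
    have s2 : D.h y1 y1 = 0 := by simpa using D.h_self hy1 1
    rw [D.h_smul_left, D.h_add_right, D.h_add_right, D.h_self hy,
      D.h_eq_zero.2 (D.perp_comm (hXy hz)), D.h_add_left, D.h_add_left, D.h_smul_left, s2,
      D.h_eq_zero.2 (hXy1 hz)] at h1
    convert h1 using 2
    rw [hb]; field_simp; ring
  have stepc : ∀ y1 ∈ perp Q (KL F K v), Q y1 = 0 → y1 ∈ A := by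
    intro y1 hy1p hy1
    by_cases hc : y1 ∈ KL F K v ⊔ KL F K y
    · obtain ⟨a, ha, _, hb, rfl⟩ := Submodule.mem_sup.1 hc
      obtain ⟨β, rfl⟩ := mem_KL.1 hb
      obtain ⟨e, he, he0, hne⟩ := sp _ y (by omega) hyv
      have h1 := stepb y hyA hyp hy e he he0 (D.h_ne_zero hne) 1
      rw [one_smul] at h1
      exact add_mem (hvA a ha) (stepb e h1 he he0 y hyp hy (D.h_ne_zero (by rwa [B_comm])) β)
    · have d1 := finrank_sup_le (KL F K v) (F ∙ (y - y1))
      have d2 := finrank_span_singleton_le (F := F) (y - y1)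
      obtain ⟨e, he, he0, hne⟩ := sp (KL F K v ⊔ F ∙ (y - y1)) y (by omega) (fun h => by
        obtain ⟨a, ha, _, hb, he⟩ := Submodule.mem_sup.1 h
        obtain ⟨c, rfl⟩ := Submodule.mem_span_singleton.1 hb
        have hc0 : c ≠ 0 := by rintro rfl; exact hyv (by rw [← he]; simpa using ha)
        apply hc
        have : y1 = c⁻¹ • a + (y - c⁻¹ • y) := by
          nth_rewrite 2 [← he]
          rw [smul_add, smul_smul, inv_mul_cancel₀ hc0, one_smul]; abel
        rw [this]
        exact Submodule.add_mem_sup (Submodule.smul_mem _ _ ha)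
          (sub_mem (self_mem_KL y) (Submodule.smul_mem _ _ (self_mem_KL y))))
      have hev : e ∈ perp Q (KL F K v) := perp_anti le_sup_left he
      have h0 := he _ (Submodule.mem_sup_right (Submodule.mem_span_singleton_self _))
      rw [map_sub, LinearMap.sub_apply, sub_eq_zero] at h0
      have h1 := stepb y hyA hyp hy e hev he0 (D.h_ne_zero hne) 1
      rw [one_smul] at h1
      simpa using stepb e h1 hev he0 y1 hy1p hy1 (D.h_ne_zero (by rwa [← h0, B_comm])) 1
  let S : Submodule F V := Submodule.span F {y | y ∈ perp Q (KL F K v) ∧ Q y = 0}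
  have hS : ∀ x ∈ S, ∀ c : F, c • x ∈ A := by
    intro x hx
    induction hx using Submodule.span_induction with
    | mem x hx => exact fun c => stepc _ (Submodule.smul_mem _ c hx.1) (by rw [Q_smul, hx.2, mul_zero])
    | zero => intro c; simp
    | add x y _ _ h1 h2 => intro c; rw [smul_add]; exact add_mem (h1 c) (h2 c)
    | smul a x _ h1 => intro c; rw [smul_smul]; exact h1 _
  have hle : perp Q (KL F K v) ≤ S := by
    by_contra hn
    have h1 := hQ.finrank_perp (KL F K v)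
    obtain ⟨e, he, he0, heS⟩ := hQ.ndOn_top.exists_sing_notMem le_top
      (by rw [finrank_top]; omega) hn
    exact heS (Submodule.subset_span ⟨he, he0⟩)
  intro x hx
  simpa using hS x (hle hx) 1

omit [Finite F] [FiniteDimensional F V] in
lemma not_lin {v y z : V} (hv : Q v = 0) (hv0 : v ≠ 0) (hy : y ∈ perp Q (KL F K v))
    (hz : z ∈ perp Q (KL F K v)) (hyz : B Q y z ≠ 0) :
    (∀ a : K, eich Q v y (D.k • z) ≠ a • eich Q v y z) ∧
      ∀ a : K, D.k • eich Q v y z ≠ eich Q v y (a • z) := by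
  have hvy : B Q v y = 0 := hy v (self_mem_KL v)
  have e1 : ∀ a : K, eich Q v y (a • z) = a • z - B Q y (a • z) • v := fun a =>
    eich_apply_of_perp_left hv hvy (D.perp_smul hz a v (self_mem_KL v))
  have e0 : eich Q v y z = z - B Q y z • v := by simpa using e1 1
  have hzv : z ∉ KL F K v := fun h => hyz (by rw [B_comm]; exact hy z h)
  have key : eich Q v y (D.k • z) ≠ D.k • eich Q v y z := by
    intro h
    rw [e1, e0, smul_sub, sub_right_inj, ← algebraMap_smul K, ← algebraMap_smul K (B Q y z),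
      smul_smul] at h
    have := smul_left_injective K hv0 h
    refine D.notF (B Q y (D.k • z) / B Q y z) ?_
    rw [map_div₀, this, eq_div_iff (by simpa using hyz)]
  constructor
  · intro a h
    by_cases ha : a = D.k
    · exact key (ha ▸ h)
    rw [e1, e0, smul_sub] at h
    refine hzv (mem_KL_of_smul (sub_ne_zero.2 ha) ?_)
    have : (a - D.k) • z = a • B Q y z • v - B Q y (D.k • z) • v := by
      rw [sub_smul]; linear_combination (norm := abel) -h
    rw [this]
    exact sub_mem (KL_smul_mem (Submodule.smul_mem _ _ (self_mem_KL v)) a)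
      (Submodule.smul_mem _ _ (self_mem_KL v))
  · intro a h
    by_cases ha : a = D.k
    · exact key (ha ▸ h.symm)
    rw [e1, e0, smul_sub] at h
    refine hzv (mem_KL_of_smul (sub_ne_zero.2 ha) ?_)
    have : (a - D.k) • z = B Q y (a • z) • v - D.k • B Q y z • v := by
      rw [sub_smul]; linear_combination (norm := abel) -h
    rw [this]
    exact sub_mem (Submodule.smul_mem _ _ (self_mem_KL v))
      (KL_smul_mem (Submodule.smul_mem _ _ (self_mem_KL v)) _)

include D in
lemma exists_yz (hQ : Nd Q) (hd : 7 ≤ finrank F V) (v : V) :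
    ∃ y ∈ perp Q (KL F K v), Q y = 0 ∧ ∃ z ∈ perp Q (KL F K v), Q z = 0 ∧ B Q y z ≠ 0 := by
  obtain ⟨y, hy, hy0, hyv⟩ := D.exists_sing hQ hd v
  have := D.rk_le v
  obtain ⟨e, -, h1, h2, h3⟩ := hQ.ndOn_top.exists_sing_perp_B_ne (X := KL F K v) le_top
    (by rw [finrank_top]; omega) trivial hyv
  exact ⟨y, hy, hy0, e, h1, h2, h3⟩

include D in
lemma exists_not_semi (hQ : Nd Q) (hd : 7 ≤ finrank F V) : ∃ g ∈ EO Q, ¬ SemiK K g := by
  obtain ⟨v, -, hv0, hv⟩ := exists_sing_of_three (Q := Q) ⊤ (by rw [finrank_top]; omega)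
  obtain ⟨y, hy, -, z, hz, -, hyz⟩ := D.exists_yz hQ hd v
  refine ⟨eich Q v y, eich_mem_EO _ _, fun h => ?_⟩
  obtain ⟨b, hb⟩ := h D.k
  exact (D.not_lin hv hv0 hy hz hyz).1 b (hb z)

include D in
/-- a linear map preserving the `K`-lines through singular vectors is a scalar -/
lemma scalar_of_sing (hQ : Nd Q) (hd : 7 ≤ finrank F V) (ψ : V →ₗ[F] V)
    (hψ : ∀ x, Q x = 0 → ψ x ∈ KL F K x) : ∃ b : K, ∀ x, ψ x = b • x := by
  obtain ⟨x0, -, hx00, hx0⟩ := exists_sing_of_three (Q := Q) ⊤ (by rw [finrank_top]; omega)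
  have pair : ∀ x z (b b' : K), x ≠ 0 → Q x = 0 → Q z = 0 → B Q x z = 0 → z ∉ KL F K x →
      ψ x = b • x → ψ z = b' • z → b = b' := by
    intro x z b b' hx0 hx hz hxz hzx h1 h2
    obtain ⟨μ, hμ⟩ := mem_KL.1 (hψ (x + z) (by rw [Q_add, hx, hz, hxz]; simp))
    rw [map_add, h1, h2, smul_add] at hμ
    have h3 : (μ - b') • z = (b - μ) • x := by
      rw [sub_smul, sub_smul]; linear_combination (norm := abel) hμ
    by_cases hm : μ = b'
    · rw [hm, sub_self, zero_smul] at h3
      exact sub_eq_zero.1 ((smul_eq_zero.1 h3.symm).resolve_right hx0)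
    · exact absurd (mem_KL_of_smul (sub_ne_zero.2 hm) (h3 ▸ smul_mem_KL _ _)) hzx
  obtain ⟨b, hb⟩ := mem_KL.1 (hψ x0 hx0)
  have hsing : ∀ x, Q x = 0 → ψ x = b • x := by
    intro x hx
    by_cases hx' : x = 0
    · simp [hx']
    obtain ⟨b', hb'⟩ := mem_KL.1 (hψ x hx)
    have d1 := hQ.finrank_perp (Submodule.span F {x0, x})
    have d2 := finrank_span_pair_le (F := F) x0 x
    have d3 := finrank_sup_le (KL F K x0) (KL F K x)
    have d4 := D.rk_le x0
    have d5 := D.rk_le x
    obtain ⟨z, hz, hz0, hzn⟩ := hQ.ndOn_top.exists_sing_notMem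
      (H := perp Q (Submodule.span F {x0, x})) (Y := KL F K x0 ⊔ KL F K x) le_top
      (by rw [finrank_top]; omega) (fun h => by have := Submodule.finrank_mono h; omega)
    obtain ⟨c, hc⟩ := mem_KL.1 (hψ z hz0)
    have e1 := pair x0 z b c hx00 hx0 hz0 (mem_perp_span.1 hz x0 (by simp))
      (fun h => hzn (Submodule.mem_sup_left h)) hb.symm hc.symm
    have e2 := pair x z b' c hx' hx hz0 (mem_perp_span.1 hz x (by simp))
      (fun h => hzn (Submodule.mem_sup_right h)) hb'.symm hc.symm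
    rw [e1, ← e2, hb']
  refine ⟨b, fun x => ?_⟩
  let φ : V →ₗ[F] V := ψ - (LinearMap.lsmul K V b).restrictScalars F
  have : (⊤ : Submodule F V) ≤ LinearMap.ker φ := by
    by_contra hn
    obtain ⟨e, -, he0, he⟩ := hQ.ndOn_top.exists_sing_notMem (H := ⊤) le_top
      (by rw [finrank_top]; omega) hn
    exact he (by simp [φ, hsing e he0])
  simpa [φ, sub_eq_zero] using this (x := x) trivial

theorem gu_max (hQ : Nd Q) (hd : 10 ≤ finrank F V) {M : Subgroup (V ≃ₗ[F] V)} (hM : M ≤ O Q)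
    (hH : ∀ y, Q y = 0 → ∀ c : F, eich Q y (c • D.k • y) ∈ M) :
    (∀ g ∈ M, SemiK K g) ∨ EO Q ≤ M := by
  have hKA : ∀ v, Q v = 0 → ∀ x ∈ KL F K v, x ∈ AU Q M v := by
    intro v hv x hx
    obtain ⟨a, rfl⟩ := mem_KL.1 hx
    obtain ⟨α, β, rfl⟩ := D.span a
    rw [D.smul_eq]
    exact add_mem (smul_self_mem_AU hv α) ⟨D.B_k_self hv β, hH v hv β⟩
  have hT : ∀ y x, Q y = 0 → D.h x y • y = eich Q y ((1 : F) • D.k • y) x - x := by
    intro y x hy
    rw [D.T_apply hy]; simp
  have W : ∀ v, Q v = 0 → ∀ w ∈ AU Q M v, w ∉ KL F K v → ∀ x ∈ perp Q (KL F K v),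
      x ∈ AU Q M v := by
    intro v hv w hw hwv
    refine D.wall hQ hd hv _ (fun y hy hy0 x hx => ?_) (hKA v hv) hw hwv
    have hp := D.mem_perp.1 (D.perp_comm hy)
    rw [hT y x hy0]
    exact sub_mem (AU_fix hM (hH y hy0 1) (eich_apply_of_perp hp.1 (by simp [hp.2])) hx) hx
  by_cases hc : ∀ v, Q v = 0 → v ≠ 0 → ∀ w ∈ AU Q M v, w ∈ KL F K v
  · left
    intro g hg a
    obtain ⟨b, hb⟩ := D.scalar_of_sing hQ (by omega)
      ((g : V →ₗ[F] V) ∘ₗ (LinearMap.lsmul K V a).restrictScalars F ∘ₗ (g⁻¹ : V ≃ₗ[F] V))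
      (fun x hx => by
        by_cases hx0 : x = 0
        · simp [hx0]
        have h1 : Q (g⁻¹ x) = 0 := by rw [hM (inv_mem hg), hx]
        have := AU_map hM hg (hKA _ h1 _ (smul_mem_KL a _))
        rw [apply_inv_apply] at this
        exact hc x hx hx0 _ this)
    exact ⟨b, fun x => by simpa using hb (g x)⟩
  right
  push Not at hc
  obtain ⟨v, hv, hv0, w, hw, hwv⟩ := hc
  have hv' := W v hv w hw hwv
  obtain ⟨y, hy, hy0, z, hz, hz0, hyz⟩ := D.exists_yz hQ (by omega) v
  have hzv : z ∉ KL F K v := fun h => hyz (by rw [B_comm]; exact hy z h)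
  have hz' := W z hz0 v (AU_swap hv hz0 (hv' z hz)) (fun h => hzv (mem_KL_comm hv0 h))
  obtain ⟨n1, n2⟩ := D.not_lin hv hv0 hy hz hyz
  set g := eich Q v y with hg
  have hgM : g ∈ M := (hv' y hy).2
  have hgz : Q (g z) = 0 := by rw [hM hgM, hz0]
  have hgz' := W (g z) hgz (g (D.k • z)) (AU_map hM hgM (hKA z hz0 _ (smul_mem_KL _ _)))
    (fun h => by obtain ⟨a, ha⟩ := mem_KL.1 h; exact n1 a ha.symm)
  obtain ⟨w0, hw0, hne⟩ := hQ.exists_perp_B_ne (X := (KL F K z).map (g : V →ₗ[F] V))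
    (a := D.k • g z) (by
      rintro ⟨_, hx, h⟩
      obtain ⟨a, rfl⟩ := mem_KL.1 hx
      exact n2 a h.symm)
  have hfull : Full Q M (g z) := by
    intro x hx
    have hw1 : ∀ c : F, c • w0 ∈ AU Q M (g z) := by
      intro c
      have := Submodule.smul_mem _ c hw0
      rw [perp_map (hM hgM)] at this
      obtain ⟨u, hu, h⟩ := this
      rw [← h]; exact AU_map hM hgM (hz' u hu)
    set c := B Q (D.k • g z) x / B Q (D.k • g z) w0 with hc
    have h1 := hgz' (x - c • w0) (D.mem_perp.2 ⟨by rw [map_sub, hx, (hw1 c).1, sub_zero], by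
      rw [map_sub, map_smul _ c w0, smul_eq_mul, hc]; field_simp; ring⟩)
    simpa using (add_mem h1 (hw1 c)).2
  by_contra hE
  have hall : ∀ h ∈ M, B Q (g z) (h (g z)) = 0 := fun h hh => by
    by_contra hne
    exact hE (EO_le_of_full_of_move hQ (by omega) hM hgz hfull hh hne)
  let A : AddSubgroup V :=
    { carrier := {x | ∀ h ∈ M, B Q (g z) (h x) = 0}
      add_mem' := fun ha hb h hh => by simp [ha h hh, hb h hh]
      zero_mem' := fun h _ => by simp
      neg_mem' := fun ha h hh => by simp [ha h hh] }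
  have hgz0 : g z ≠ 0 := by
    intro h; apply hyz; simp [g.map_eq_zero_iff.1 h]
  have := D.wall hQ hd (v := 0) (by simp) A (fun y _ hy0 x hx => by
      rw [hT y x hy0]
      exact sub_mem (fun h hh => hx _ (mul_mem hh (hH y hy0 1))) hx)
    (fun x hx => by obtain ⟨a, rfl⟩ := mem_KL.1 hx; simp) (w := g z) hall
    (fun h => by obtain ⟨a, ha⟩ := mem_KL.1 h; exact hgz0 (by simpa using ha.symm))
  refine hgz0 (hQ _ fun x => ?_)
  rw [B_comm]
  exact this x (mem_perp_KL.2 fun a => by simp) 1 (one_mem _)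

end UD

/-- hermitian data from an adjoint-closed, not self-adjoint quadratic field of similarities -/
theorem exists_UD [Nontrivial V] {Q : QuadraticForm F V} (hQ : Nd Q) (hr : finrank F K = 2)
    (hac : ∀ a : K, ∃ a' : K, ∀ x y : V, B Q (a • x) y = B Q x (a' • y))
    (hns : ¬ ∀ (a : K) (x y : V), B Q (a • x) y = B Q x (a • y))
    (hsc : ∀ a : K, ∃ c : F, ∀ x : V, Q (a • x) = c * Q x) : Nonempty (UD Q K) := by
  push Not at hns
  obtain ⟨k, x0, y0, hk⟩ := hns
  obtain ⟨k', hk'⟩ := hac k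
  have hext : ∀ a b : K, (∀ x y : V, B Q x (a • y) = B Q x (b • y)) → a = b := by
    intro a b h
    obtain ⟨y, hy⟩ := exists_ne (0 : V)
    refine smul_left_injective K hy (sub_eq_zero.1 (hQ _ fun x => ?_))
    simp [h x y]
  have notF : ∀ α, k ≠ algebraMap F K α := by
    rintro α rfl; exact hk (by simp)
  have span : ∀ a : K, ∃ α β : F, a = algebraMap F K α + algebraMap F K β * k := by
    haveI : FiniteDimensional F K := Module.finite_of_finrank_pos (by omega)
    have h1 : k ∉ F ∙ (1 : K) := fun h => by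
      obtain ⟨c, hc⟩ := Submodule.mem_span_singleton.1 h
      exact notF c (by rw [← hc, Algebra.algebraMap_eq_smul_one])
    have h2 := Submodule.finrank_sup_span_singleton h1
    rw [finrank_span_singleton one_ne_zero] at h2
    have h3 := Submodule.eq_top_of_finrank_eq (h2.trans hr.symm)
    intro a
    have : a ∈ (F ∙ (1 : K)) ⊔ F ∙ k := by rw [h3]; trivial
    obtain ⟨_, ha, _, hb, rfl⟩ := Submodule.mem_sup.1 this
    obtain ⟨α, rfl⟩ := Submodule.mem_span_singleton.1 ha
    obtain ⟨β, rfl⟩ := Submodule.mem_span_singleton.1 hb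
    exact ⟨α, β, by rw [Algebra.algebraMap_eq_smul_one, Algebra.smul_def β]⟩
  obtain ⟨t, β, ht⟩ := span (k + k')
  have hsa : ∀ x y : V, B Q ((k + k') • x) y = B Q x ((k + k') • y) := by
    intro x y
    rw [add_smul, add_smul, map_add, LinearMap.add_apply, map_add, hk', B_comm Q (k' • x),
      ← hk' y x, B_comm Q (k • y)]
    ring
  have hβ : β = 0 := by
    by_contra hβ
    have := hsa x0 y0
    simp only [ht, add_smul, mul_smul, algebraMap_smul, map_add, map_smul, LinearMap.add_apply,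
      LinearMap.smul_apply, smul_eq_mul, add_right_inj] at this
    exact hk (mul_left_cancel₀ hβ this)
  rw [hβ, map_zero, zero_mul, add_zero] at ht
  obtain ⟨N, hN⟩ := hsc k
  have hkk : k' * k = algebraMap F K N := hext _ _ fun x y => by
    have := hN (x + y)
    rw [smul_add, Q_add, Q_add, hN, hN, hk'] at this
    rw [mul_smul, algebraMap_smul, map_smul _ N y, smul_eq_mul]
    linear_combination this
  refine ⟨⟨k, t, N, span, notF, by rw [← ht, ← hkk]; ring, fun x y => ?_, fun a y hy => ?_, hr⟩⟩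
  · rw [hk', show k' = algebraMap F K t - k by rw [← ht]; ring, sub_smul, algebraMap_smul]
    simp
  · obtain ⟨c, hc⟩ := hsc a
    rw [hc, hy, mul_zero]

end abstr

variable {ι : Type} [Fintype ι] [DecidableEq ι] {F : Type*} [Field F] [Fintype F]
  {Q : (ι → F) → F} (hQ : IsNondegenerateQuadraticForm Q)
include hQ

theorem max_gu (hd : 10 ≤ Fintype.card ι) {K : Subalgebra F (Matrix ι ι F)}
    (hK : IsFieldSubalgebra 2 K) (hac : IsAdjointClosedFor (QuadraticMap.polar Q) K)
    (hnsa : ¬ IsSelfAdjointFor (QuadraticMap.polar Q) K)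
    (hsc : ∀ k ∈ K, ∃ c : F, ∀ v, Q (k *ᵥ v) = c * Q v) :
    IsMaximalIn (omegaGL Q) (subalgebraNormalizer K ⊓ omegaGL Q) := by
  haveI : Nonempty ι := Fintype.card_pos_iff.1 (by omega)
  have hN := nd_toQF hQ
  have hd' : 10 ≤ finrank F (ι → F) := by simpa using hd
  refine field_bridge hK fun L _ _ _ _ _ hr h1 h2 hS => ?_
  obtain ⟨D⟩ := exists_UD (K := L) hN hr (fun a => by
      obtain ⟨k, hk, ha⟩ := h1 a
      obtain ⟨k', hk', h⟩ := hac k hk
      obtain ⟨a', ha'⟩ := h2 k' hk'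
      exact ⟨a', fun x y => by rw [ha, ha']; exact h x y⟩)
    (fun h => hnsa fun k hk x y => by
      obtain ⟨a, ha⟩ := h2 k hk
      rw [← ha, ← ha]; exact h a x y)
    (fun a => by
      obtain ⟨k, hk, ha⟩ := h1 a
      obtain ⟨c, hc⟩ := hsc k hk
      exact ⟨c, fun x => by rw [ha]; exact hc x⟩)
  exact isMaximalIn_of hQ (by omega) _ (SemiK L) (fun g _ => hS g)
    (D.exists_not_semi hN (by omega)) fun M hM hH => D.gu_max hN hd' (hM.trans EO_le_O)
      fun y hy c => hH _ (eich_mem_EO _ _) (D.T_semi hy c)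

end Cfsg.Agent.Orth
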