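import Cfsg.Agent.Orth.C2f

/-! Reducible subgroups in low dimensions. -/

set_option autoImplicit false

namespace Cfsg.Agent.Orth

open Module Cfsg Cfsg.Geo

variable {ι : Type} [Fintype ι] [DecidableEq ι] {F : Type*} [Field F] [Fintype F]
  {Q : (ι → F) → F} (hQ : IsNondegenerateQuadraticForm Q)
include hQ

theorem max_nd_small {W U : Submodule F (ι → F)} (hU : NdOn (toQF hQ) U)
    (hWU : U = W ∨ perp (toQF hQ) U = W) (h4 : 4 ≤ finrank F U)
    (h3 : finrank F U + 3 ≤ Fintype.card ι)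
    (hex : ¬ (finrank F U = 4 ∧ Fintype.card F = 2 ∧ IsPlusTypeOn Q U))
    (hq : finrank F U + 4 ≤ Fintype.card ι ∨ 3 ≤ Fintype.card F)
    (hni : ∀ g ∈ O (toQF hQ), ¬ ∀ v ∈ U, g v ∈ perp (toQF hQ) U) :
    IsMaximalIn (omegaGL Q) (subspaceStabilizer W ⊓ omegaGL Q) := by
  have hN := nd_toQF hQ
  have h1 := hN.finrank_perp U
  rw [finrank_fintype_fun_eq_card] at h1
  have hd' : 5 ≤ finrank F (ι → F) := by rw [finrank_fintype_fun_eq_card]; omega
  have hiff : ∀ g ∈ O (toQF hQ), (∀ v ∈ W, g v ∈ W) ↔ ∀ v ∈ U, g v ∈ U := by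
    intro g hg
    rcases hWU with rfl | rfl
    · rfl
    · refine ⟨fun h => ?_, perp_stable hg⟩
      have := perp_stable hg h
      rwa [hN.perp_perp] at this
  have hW : 0 < finrank F W ∧ finrank F W < Fintype.card ι := by
    rcases hWU with rfl | rfl <;> omega
  refine isMaximalIn_of hQ (by omega) _ (fun g => ∀ v ∈ W, g v ∈ W)
    (fun g _ => mem_subspaceStabilizer')
    (exists_EO_not_stab hN hd' (by rintro rfl; simp at hW) (by rintro rfl; simp at hW))
    fun M hM hH => ?_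
  rcases nd_max_small hN hU h4 (by omega) (sgood_of_four hQ hU h4 hex)
    (hq.imp (fun h => by omega) fun h => by rwa [Nat.card_eq_fintype_card]) hni
    (hM.trans EO_le_O) (fun g hg h => hH g hg ((hiff g (EO_le_O hg)).2 h)) with h | h
  · exact Or.inl fun g hg => (hiff g (EO_le_O (hM hg))).2 (h g hg)
  · exact Or.inr h

/-- even-dimensional non-degenerate subspaces in odd dimension `≥ 7` -/
theorem max_nd_odd (hodd : Odd (Fintype.card F)) (h7 : 7 ≤ Fintype.card ι)
    (ho : Odd (Fintype.card ι)) {W : Submodule F (ι → F)} (hW0 : W ≠ ⊥)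
    (hev : Even (finrank F W)) (hW : IsNondegenerateOn (QuadraticMap.polar Q) W)
    (hex : ¬ (Fintype.card F = 3 ∧ finrank F W = 2 ∧ IsPlusTypeOn Q W)) :
    IsMaximalIn (omegaGL Q) (subspaceStabilizer W ⊓ omegaGL Q) := by
  obtain ⟨j, hj⟩ := hev
  obtain ⟨m, hm⟩ := ho
  have h1 := Fintype.one_lt_card (α := F)
  rw [Nat.odd_iff] at hodd
  by_cases h : finrank F W = 4 ∧ Fintype.card ι = 7
  · have hN := nd_toQF hQ
    have h2 := hN.finrank_perp W
    rw [finrank_fintype_fun_eq_card] at h2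
    refine max_nd_small hQ ((ndOn_toQF hQ).1 hW) (Or.inl rfl) (by omega) (by omega) (by omega)
      (by omega) fun g _ hg => ?_
    have : finrank F W ≤ finrank F (perp (toQF hQ) W) := by
      rw [← LinearEquiv.finrank_map_eq g W]
      exact Submodule.finrank_mono (by rintro _ ⟨v, hv, rfl⟩; exact hg v hv)
    omega
  refine max_nd hQ hW0 ?_ hW (by omega) ?_ (by omega)
  · rintro rfl
    rw [finrank_top, finrank_fintype_fun_eq_card] at hj; omega
  · rintro ⟨h3, U, a, -, b, rfl | ⟨-, c⟩⟩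
    · exact hex ⟨by omega, a, b⟩
    · omega

/-- `4 + 4` in minus type -/
theorem max_nd_eight (h8 : Fintype.card ι = 8) (hminus : ¬ IsPlusTypeOn Q ⊤)
    {W : Submodule F (ι → F)} (h4 : finrank F W = 4)
    (hW : IsNondegenerateOn (QuadraticMap.polar Q) W) :
    IsMaximalIn (omegaGL Q) (subspaceStabilizer W ⊓ omegaGL Q) := by
  have hN := nd_toQF hQ
  have hW' := (ndOn_toQF hQ).1 hW
  have h2 := hN.finrank_perp W
  rw [finrank_fintype_fun_eq_card] at h2
  by_cases hp : IsPlusTypeOn Q W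
  · refine max_nd_small hQ (hW'.perp hN) (Or.inr (hN.perp_perp W)) (by omega) (by omega) ?_
      (by omega) (not_swap_of_minus hQ hminus ((ndOn_toQF hQ).2 (hW'.perp hN))
        (by rw [show finrank F (perp (toQF hQ) W) = 4 by omega]; decide) (by omega))
    rintro ⟨-, -, T', hT', hs', hd'⟩
    obtain ⟨T, hT, hs, hd⟩ := hp
    refine hminus ⟨T ⊔ T', le_top, fun y hy => ?_, ?_⟩
    · obtain ⟨a, ha, b, hb, rfl⟩ := Submodule.mem_sup.1 hy
      have := Q_add (toQF hQ) a b
      rw [hT' hb a (hT ha)] at this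
      simpa [hs a ha, hs' b hb] using this
    · have h3 := Submodule.finrank_sup_add_finrank_inf_eq T T'
      rw [((ndOn_iff_disjoint.1 hW').mono hT hT').eq_bot, finrank_bot] at h3
      rw [finrank_top, finrank_fintype_fun_eq_card]; omega
  · exact max_nd_small hQ hW' (Or.inl rfl) (by omega) (by omega) (fun h => hp h.2.2) (by omega)
      (not_swap_of_minus hQ hminus hW (by rw [h4]; decide) (by omega))

theorem max_nd_oddDim (h8 : 8 ≤ Fintype.card ι) (he : Even (Fintype.card ι))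
    {W : Submodule F (ι → F)} (hW0 : W ≠ ⊥) (hW1 : W ≠ ⊤) (ho : Odd (finrank F W))
    (hd : 2 * finrank F W ≠ Fintype.card ι) (hW : IsNondegenerateOn (QuadraticMap.polar Q) W) :
    IsMaximalIn (omegaGL Q) (subspaceStabilizer W ⊓ omegaGL Q) := by
  obtain ⟨j, hj⟩ := he
  obtain ⟨m, hm⟩ := ho
  refine max_nd hQ hW0 hW1 hW (by omega) ?_ (by omega)
  rintro ⟨-, U, a, -, -, rfl | ⟨-, c⟩⟩ <;> omega

theorem max_nd_plane (h7 : 7 ≤ Fintype.card ι) {W : Submodule F (ι → F)} (h2 : finrank F W = 2)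
    (hW : IsNondegenerateOn (QuadraticMap.polar Q) W)
    (hex : ¬ IsPlusTypeOn Q W ∨ 4 ≤ Fintype.card F) :
    IsMaximalIn (omegaGL Q) (subspaceStabilizer W ⊓ omegaGL Q) := by
  refine max_nd hQ (by rintro rfl; simp at h2) ?_ hW (by omega) ?_ (by omega)
  · rintro rfl
    rw [finrank_top, finrank_fintype_fun_eq_card] at h2; omega
  · rintro ⟨h3, U, a, -, b, rfl | ⟨-, c⟩⟩
    · exact hex.elim (fun h => h b) (by omega)
    · omega

theorem max_nd_four (h9 : 9 ≤ Fintype.card ι) {W : Submodule F (ι → F)} (h2 : finrank F W = 4)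
    (hW : IsNondegenerateOn (QuadraticMap.polar Q) W) :
    IsMaximalIn (omegaGL Q) (subspaceStabilizer W ⊓ omegaGL Q) := by
  refine max_nd hQ (by rintro rfl; simp at h2) ?_ hW (by omega) ?_ (by omega)
  · rintro rfl
    rw [finrank_top, finrank_fintype_fun_eq_card] at h2; omega
  · rintro ⟨h3, U, a, -, b, rfl | ⟨-, c⟩⟩ <;> omega

theorem max_nd_six (h12 : Fintype.card ι = 12) (hminus : ¬ IsPlusTypeOn Q ⊤)
    {W : Submodule F (ι → F)} (h2 : finrank F W = 6)
    (hW : IsNondegenerateOn (QuadraticMap.polar Q) W) :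
    IsMaximalIn (omegaGL Q) (subspaceStabilizer W ⊓ omegaGL Q) := by
  refine max_nd hQ (by rintro rfl; simp at h2) ?_ hW (by omega) ?_
    fun h => not_swap_of_minus hQ hminus hW (by rw [h2]; decide) h
  · rintro rfl
    rw [finrank_top, finrank_fintype_fun_eq_card] at h2; omega
  · rintro ⟨h3, U, a, -, b, rfl | ⟨-, c⟩⟩ <;> omega

omit [DecidableEq ι] [Fintype F] in
theorem plus_of_all {t k : ℕ} {D : Fin t → Submodule F (ι → F)}
    (hD : IsNondegenerateMDecomposition (QuadraticMap.polar Q) k D)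
    (hp : ∀ i, IsPlusTypeOn Q (D i)) : IsPlusTypeOn Q ⊤ := by
  classical
  choose T hT hs hd using hp
  have hind : iSupIndep T := hD.decomp.indep.mono hT
  refine ⟨iSup T, le_top, ?_, ?_⟩
  · rw [Submodule.iSup_eq_span]
    refine ts_span (Q := toQF hQ) (fun s hs' => ?_) fun s hs' t ht => ?_
    · obtain ⟨i, hi⟩ := Set.mem_iUnion.1 hs'
      exact hs i s hi
    · obtain ⟨i, hi⟩ := Set.mem_iUnion.1 hs'
      obtain ⟨j, hj⟩ := Set.mem_iUnion.1 ht
      by_cases h : i = j
      · subst h; exact TS.B_eq_zero (Q := toQF hQ) (hs i) hi hj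
      · exact hD.orthogonal i j h s (hT i hi) t (hT j hj)
  · have h2 : finrank F (iSup T : Submodule F (ι → F)) = ∑ i, finrank F (T i) := by
      rw [← finrank_directSum]
      have h3 := hind.dfinsupp_lsum_injective
      rw [Submodule.iSup_eq_range_dfinsupp_lsum]
      exact LinearMap.finrank_range_of_inj h3
    rw [h2, finrank_top, finrank_fintype_fun_eq_card, card_eq_mul hQ hD.decomp, Finset.mul_sum]
    simp [hd, hD.decomp.finrank_eq]

end Cfsg.Agent.Orth
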