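import Mathlib

/-! `O ⊗ O` in `Ω`, part 1: coprime action of a group of order `p²`. -/

set_option autoImplicit false
set_option linter.unusedSimpArgs false
set_option linter.unusedSectionVars false

namespace Cfsg.Agent.Orth.OO

open scoped Pointwise

section Act

variable (E : Type*) [Group E] {J : Type*} [Group J] [MulDistribMulAction E J]

/-- action on an invariant subgroup -/
@[reducible] def subAct (N : Subgroup J) (hN : ∀ e : E, ∀ x ∈ N, e • x ∈ N) :
    MulDistribMulAction E N where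
  smul e x := ⟨e • x.1, hN e _ x.2⟩
  one_smul x := Subtype.ext (one_smul E x.1)
  mul_smul a b x := Subtype.ext (mul_smul a b x.1)
  smul_mul a x y := Subtype.ext (smul_mul' a x.1 y.1)
  smul_one a := Subtype.ext (smul_one a)

/-- action on a quotient -/
@[reducible] def quotAct (K : Subgroup J) [K.Normal] (hK : ∀ e : E, ∀ x ∈ K, e • x ∈ K) :
    MulDistribMulAction E (J ⧸ K) where
  smul e := QuotientGroup.map K K (MulDistribMulAction.toMonoidHom J e) (fun x hx => hK e x hx)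
  one_smul x := by
    induction x using QuotientGroup.induction_on with
    | H x => exact congrArg (QuotientGroup.mk (s := K)) (one_smul E x)
  mul_smul a b x := by
    induction x using QuotientGroup.induction_on with
    | H x => exact congrArg (QuotientGroup.mk (s := K)) (mul_smul a b x)
  smul_mul a x y := map_mul (QuotientGroup.map K K (MulDistribMulAction.toMonoidHom J a) _) x y
  smul_one a := map_one (QuotientGroup.map K K (MulDistribMulAction.toMonoidHom J a) _)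

end Act

/-- data of an elementary abelian group of order `p²` -/
structure PP (p : ℕ) {E : Type*} [Group E] (a b : E) : Prop where
  comm : Commute a b
  ha : a ^ p = 1
  hb : b ^ p = 1
  gen : ∀ e : E, ∃ i j : ℕ, e = a ^ i * b ^ j

variable {p : ℕ} {E : Type*} [Group E] {a b : E}

theorem PP.pow (h : PP p a b) (e : E) : e ^ p = 1 := by
  obtain ⟨i, j, rfl⟩ := h.gen e
  rw [(h.comm.pow_pow i j).mul_pow, ← pow_mul, ← pow_mul, mul_comm i, mul_comm j, pow_mul, pow_mul,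
    h.ha, h.hb, one_pow, one_pow, one_mul]

theorem PP.isPGroup (h : PP p a b) : IsPGroup p E := fun e => ⟨1, by simpa using h.pow e⟩

theorem comm_pow_eq_one [Fact p.Prime] (h : PP p a b) {Z : Type*} [CommGroup Z]
    [MulDistribMulAction E Z]
    (hf : ∀ i j : ℕ, ¬ (p ∣ i ∧ p ∣ j) → ∀ x : Z, (a ^ i * b ^ j) • x = x → x = 1) (x : Z) :
    x ^ p = 1 := by
  have hp : 0 < p := (Fact.out : p.Prime).pos
  have norm : ∀ i j : ℕ, ¬ (p ∣ i ∧ p ∣ j) → ∀ x : Z,
      ∏ k ∈ Finset.range p, ((a ^ i * b ^ j) ^ k) • x = 1 := by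
    intro i j hij x
    refine hf i j hij _ ?_
    set e := a ^ i * b ^ j
    rw [Finset.smul_prod']
    have h1 := Finset.prod_range_succ (fun k => (e ^ k) • x) p
    have h2 := Finset.prod_range_succ' (fun k => (e ^ k) • x) p
    rw [h1, h.pow, pow_zero] at h2
    rw [mul_right_cancel h2]
    exact Finset.prod_congr rfl fun k _ => by rw [← mul_smul, pow_succ']
  have h1 : ∏ i ∈ Finset.range p, ∏ k ∈ Finset.range p, ((a ^ i * b ^ 1) ^ k) • x = 1 :=
    Finset.prod_eq_one fun i _ => norm i 1 (fun h => (Fact.out : p.Prime).one_lt.ne'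
      (Nat.dvd_one.1 h.2)) x
  rw [Finset.prod_comm, ← Finset.mul_prod_erase _ _ (Finset.mem_range.2 hp),
    Finset.prod_eq_one (s := (Finset.range p).erase 0), mul_one] at h1
  · simpa using h1
  · intro k hk
    obtain ⟨hk0, hk⟩ := Finset.mem_erase.1 hk
    have := norm k 0 (fun h => hk0 (Nat.eq_zero_of_dvd_of_lt h.1 (Finset.mem_range.1 hk)))
      ((b ^ k) • x)
    rw [← this]
    refine Finset.prod_congr rfl fun i _ => ?_
    rw [← mul_smul, pow_zero, mul_one, pow_one, ((h.comm.pow_left i)).mul_pow, ← pow_mul, ← pow_mul,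
      mul_comm i k]

theorem subsingleton_of_fpf [Fact p.Prime] (h : PP p a b) {A : Type*} [Group A] [Finite A]
    [MulDistribMulAction E A] {r : ℕ} [Fact r.Prime] (hA : IsPGroup r A)
    (hf : ∀ i j : ℕ, ¬ (p ∣ i ∧ p ∣ j) → ∀ x : A, (a ^ i * b ^ j) • x = x → x = 1) :
    Subsingleton A := by
  by_contra hn
  haveI : Nontrivial A := not_subsingleton_iff_nontrivial.1 hn
  by_cases hr : r = p
  · subst hr
    obtain ⟨n, hn⟩ := IsPGroup.iff_card.1 hA
    have hd : r ∣ Nat.card A := by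
      rw [hn]
      refine dvd_pow_self _ ?_
      rintro rfl
      have := Finite.one_lt_card (α := A)
      simp at hn; omega
    obtain ⟨c, hc, hc1⟩ := h.isPGroup.exists_fixed_point_of_prime_dvd_card_of_fixed_point A hd
      (a := 1) (fun e => smul_one e)
    exact hc1 (hf 1 0 (fun h => (Fact.out : r.Prime).one_lt.ne' (Nat.dvd_one.1 h.1)) c (hc _)).symm
  haveI := hA.center_nontrivial
  letI := subAct E (Subgroup.center A) (fun e x hx => Subgroup.mem_center_iff.2 fun g => by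
    have := congrArg (e • ·) (Subgroup.mem_center_iff.1 hx (e⁻¹ • g))
    simpa [smul_mul'] using this)
  obtain ⟨x, hx⟩ := exists_ne (1 : Subgroup.center A)
  letI : CommGroup (Subgroup.center A) :=
    { (inferInstance : Group (Subgroup.center A)) with
      mul_comm := fun x y => Subtype.ext (Subgroup.mem_center_iff.1 y.2 x.1) }
  have h1 := comm_pow_eq_one h (Z := Subgroup.center A)
    (fun i j hij x hx => Subtype.ext (hf i j hij x.1 (congrArg Subtype.val hx))) x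
  obtain ⟨k, hk⟩ := hA x.1
  have h2 : x ^ (r ^ k) = 1 := Subtype.ext hk
  have h3 := Nat.dvd_gcd (orderOf_dvd_of_pow_eq_one h1) (orderOf_dvd_of_pow_eq_one h2)
  rw [((Nat.coprime_primes Fact.out Fact.out).2 (Ne.symm hr)).pow_right k] at h3
  exact hx (orderOf_eq_one_iff.1 (Nat.dvd_one.1 h3))

theorem eq_top_of_isPGroup [Fact p.Prime] (h : PP p a b) {A : Type*} [Group A] [Finite A]
    [MulDistribMulAction E A] {r : ℕ} [Fact r.Prime] (hA : IsPGroup r A) (H : Subgroup A)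
    (hH : ∀ e : E, ∀ x ∈ H, e • x ∈ H)
    (hf : ∀ i j : ℕ, ¬ (p ∣ i ∧ p ∣ j) → ∀ x : A, x⁻¹ * (a ^ i * b ^ j) • x ∈ H → x ∈ H) :
    H = ⊤ := by
  by_contra hne
  haveI := hA.isNilpotent
  have hlt := normalizerCondition_of_isNilpotent H (lt_top_iff_ne_top.2 hne)
  have hH' : ∀ e : E, ∀ x, e • x ∈ H ↔ x ∈ H := fun e x =>
    ⟨fun hx => by simpa using hH e⁻¹ _ hx, hH e x⟩
  letI := subAct E (Subgroup.normalizer (H : Set A)) (fun e x hx => Subgroup.mem_normalizer_iff.2 fun g => by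
    rw [← hH' e⁻¹ g, Subgroup.mem_normalizer_iff.1 hx, ← hH' e]
    simp [smul_mul', smul_inv'])
  letI := quotAct E (H.subgroupOf (Subgroup.normalizer (H : Set A))) (fun e x hx => hH e _ hx)
  have := subsingleton_of_fpf h
    (A := Subgroup.normalizer (H : Set A) ⧸ H.subgroupOf (Subgroup.normalizer (H : Set A)))
    ((hA.to_subgroup _).to_quotient _) (fun i j hij x hx => by
      induction x using QuotientGroup.induction_on with
      | H x =>
        refine (QuotientGroup.eq_one_iff _).2 (hf i j hij x.1 ?_)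
        exact (QuotientGroup.eq (s := H.subgroupOf (Subgroup.normalizer (H : Set A)))
          (a := x) (b := (a ^ i * b ^ j) • x)).1 hx.symm)
  obtain ⟨x, hx, hx'⟩ := SetLike.exists_of_lt hlt
  exact hx' ((QuotientGroup.eq_one_iff (N := H.subgroupOf (Subgroup.normalizer (H : Set A)))
    (⟨x, hx⟩ : Subgroup.normalizer (H : Set A))).1 (Subsingleton.elim _ _))

theorem eq_top_of_coprime [Fact p.Prime] (h : PP p a b) {J : Type*} [Group J] [Finite J]
    [MulDistribMulAction E J] (H : Subgroup J) (hH : ∀ e : E, ∀ x ∈ H, e • x ∈ H)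
    (hf : ∀ i j : ℕ, ¬ (p ∣ i ∧ p ∣ j) → ∀ x : J, x⁻¹ * (a ^ i * b ^ j) • x ∈ H → x ∈ H)
    (hp : ∀ x ∈ H, x ^ p = 1 → x = 1) : H = ⊤ := by
  have key : ∀ (r : ℕ) [Fact r.Prime], ¬ p ∣ Nat.card (Sylow r J) →
      ∃ P : Sylow r J, (P : Subgroup J) ≤ H := by
    intro r _ hr
    obtain ⟨P, hP⟩ := h.isPGroup.nonempty_fixed_point_of_prime_not_dvd_card (Sylow r J) hr
    have hP' : ∀ e : E, ∀ x ∈ (P : Subgroup J), e • x ∈ (P : Subgroup J) := fun e x hx => by
      have h1 : e • (P : Subgroup J) = P := congrArg Sylow.toSubgroup (hP e)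
      rw [← h1]
      exact Subgroup.smul_mem_pointwise_smul _ _ _ hx
    letI := subAct E (P : Subgroup J) hP'
    refine ⟨P, Subgroup.subgroupOf_eq_top.1 (eq_top_of_isPGroup h P.isPGroup' _
      (fun e x hx => hH e _ hx) fun i j hij x hx => hf i j hij x.1 hx)⟩
  have hJ : ¬ p ∣ Nat.card J := by
    intro hd
    obtain ⟨P, hP⟩ := key p (not_dvd_card_sylow p J)
    obtain ⟨x, hx⟩ := exists_prime_orderOf_dvd_card' (G := (P : Subgroup J)) p (by
      rw [P.card_eq_multiplicity]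
      exact dvd_pow_self _ ((Fact.out : p.Prime).factorization_pos_of_dvd Nat.card_pos.ne' hd).ne')
    have h1 := hp x.1 (hP x.2) (congrArg Subtype.val (orderOf_dvd_iff_pow_eq_one.1 hx.dvd : x ^ p = 1))
    have : x = 1 := Subtype.ext h1
    rw [this, orderOf_one] at hx
    exact (Fact.out : p.Prime).one_lt.ne hx
  rw [← Subgroup.index_eq_one]
  by_contra hne
  obtain ⟨r, hr, hd⟩ := Nat.exists_prime_and_dvd hne
  haveI : Fact r.Prime := ⟨hr⟩
  obtain ⟨P, hP⟩ := key r fun h => hJ (h.trans ((Sylow.card_dvd_index (default : Sylow r J)).trans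
    (Subgroup.index_dvd_card _)))
  exact P.not_dvd_index (hd.trans (Subgroup.index_dvd_of_le hP))

section Rel

variable {G : Type*} [Group G] [Finite G] [Fact p.Prime] {x y : G}

omit [Finite G] in
theorem pp_closure (hc : Commute x y) (hx : x ^ p = 1) (hy : y ^ p = 1) :
    PP p (⟨x, Subgroup.subset_closure (by simp)⟩ : Subgroup.closure {x, y})
      ⟨y, Subgroup.subset_closure (by simp)⟩ := by
  refine ⟨Subtype.ext hc, Subtype.ext hx, Subtype.ext hy, ?_⟩
  rintro ⟨e, he⟩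
  suffices ∃ i j : ℕ, e = x ^ i * y ^ j by
    obtain ⟨i, j, h⟩ := this
    exact ⟨i, j, Subtype.ext h⟩
  have hp : 0 < p := (Fact.out : p.Prime).pos
  induction he using Subgroup.closure_induction with
  | mem z hz =>
    rcases hz with rfl | rfl
    · exact ⟨1, 0, by simp⟩
    · exact ⟨0, 1, by simp⟩
  | one => exact ⟨0, 0, by simp⟩
  | mul u v _ _ hu hv =>
    obtain ⟨i, j, rfl⟩ := hu
    obtain ⟨k, l, rfl⟩ := hv
    refine ⟨i + k, j + l, ?_⟩
    rw [pow_add, pow_add, mul_assoc, mul_assoc, ← mul_assoc (y ^ j), ← (hc.pow_pow k j).eq,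
      mul_assoc]
  | inv u _ hu =>
    obtain ⟨i, j, rfl⟩ := hu
    refine ⟨i * (p - 1), j * (p - 1), inv_eq_of_mul_eq_one_right ?_⟩
    rw [mul_assoc, ← mul_assoc (y ^ j), ← (hc.pow_pow _ j).eq, mul_assoc, ← mul_assoc, ← pow_add,
      ← pow_add]
    have : ∀ i, i + i * (p - 1) = p * i := fun i => by
      obtain ⟨p, rfl⟩ := Nat.exists_eq_succ_of_ne_zero hp.ne'
      simp; ring
    rw [this, this, pow_mul, pow_mul, hx, hy]; simp

theorem le_of_pp (hc : Commute x y) (hx : x ^ p = 1) (hy : y ^ p = 1) (H N K : Subgroup G)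
    (hxH : x ∈ H) (hyH : y ∈ H) (hxN : ∀ c ∈ N, x * c * x⁻¹ ∈ N) (hyN : ∀ c ∈ N, y * c * y⁻¹ ∈ N)
    (hxK : ∀ c ∈ K, x * c * x⁻¹ ∈ K) (hyK : ∀ c ∈ K, y * c * y⁻¹ ∈ K) (hKH : K ≤ H)
    (hKN : ∀ c ∈ N, ∀ k ∈ K, c * k * c⁻¹ ∈ K)
    (hf : ∀ i j : ℕ, ¬ (p ∣ i ∧ p ∣ j) → ∀ c ∈ N, c⁻¹ * (x ^ i * y ^ j) * c ∈ H → c ∈ H)
    (hp : (∀ c ∈ N, c ∈ H → c ^ p ∈ K → c ∈ K) ∨ ∀ c ∈ N, c ^ p ∈ K) : N ≤ H := by
  have h := pp_closure (G := ConjAct G) (p := p) (x := ConjAct.toConjAct x)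
    (y := ConjAct.toConjAct y) hc hx hy
  set E : Subgroup (ConjAct G) := Subgroup.closure {ConjAct.toConjAct x, ConjAct.toConjAct y}
  have inv : ∀ L : Subgroup G, (∀ c ∈ L, x * c * x⁻¹ ∈ L) → (∀ c ∈ L, y * c * y⁻¹ ∈ L) →
      ∀ e : E, ∀ c ∈ L, e • c ∈ L := by
    intro L h1 h2 e
    obtain ⟨i, j, rfl⟩ := h.gen e
    have h3 : ∀ (z : E), (∀ c ∈ L, z • c ∈ L) → ∀ n : ℕ, ∀ c ∈ L, (z ^ n) • c ∈ L := by
      intro z hz n
      induction n with
      | zero => simp
      | succ n ih => intro c hc; rw [pow_succ, mul_smul]; exact ih _ (hz c hc)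
    intro c hc
    rw [mul_smul]
    exact h3 _ h1 _ _ (h3 _ h2 _ _ hc)
  have hEH : ∀ e : E, ConjAct.ofConjAct e.1 ∈ H := fun e => by
    obtain ⟨i, j, rfl⟩ := h.gen e
    exact H.mul_mem (H.pow_mem hxH i) (H.pow_mem hyH j)
  letI := subAct E N (inv N hxN hyN)
  haveI : (K.subgroupOf N).Normal := ⟨fun k hk c => hKN c.1 c.2 k.1 hk⟩
  letI := quotAct E (K.subgroupOf N) (fun e c hc => inv K hxK hyK e _ hc)
  have hm : ∀ c : N, (c : N ⧸ K.subgroupOf N) ∈ (H.subgroupOf N).map (QuotientGroup.mk' _) ↔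
      c.1 ∈ H := fun c => by
    refine ⟨?_, fun hc => ⟨c, hc, rfl⟩⟩
    rintro ⟨d, hd, h1⟩
    have h2 : d.1⁻¹ * c.1 ∈ K := (QuotientGroup.eq (s := K.subgroupOf N) (a := d) (b := c)).1 h1
    simpa using H.mul_mem hd (hKH h2)
  have h1 : ∀ e : E, ∀ c ∈ (H.subgroupOf N).map (QuotientGroup.mk' (K.subgroupOf N)),
      e • c ∈ (H.subgroupOf N).map (QuotientGroup.mk' _) := by
    rintro e _ ⟨c, hc, rfl⟩
    exact ⟨e • c, H.mul_mem (H.mul_mem (hEH e) hc) (H.inv_mem (hEH e)), rfl⟩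
  have h2 : ∀ i j : ℕ, ¬ (p ∣ i ∧ p ∣ j) → ∀ c : N ⧸ K.subgroupOf N, c⁻¹ *
      ((⟨ConjAct.toConjAct x, Subgroup.subset_closure (by simp)⟩ : E) ^ i *
        (⟨ConjAct.toConjAct y, Subgroup.subset_closure (by simp)⟩ : E) ^ j) • c ∈
      (H.subgroupOf N).map (QuotientGroup.mk' _) →
        c ∈ (H.subgroupOf N).map (QuotientGroup.mk' _) := by
    intro i j hij c hc
    induction c using QuotientGroup.induction_on with
    | H c =>
      set e := (⟨ConjAct.toConjAct x, Subgroup.subset_closure (by simp)⟩ : E) ^ i *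
        (⟨ConjAct.toConjAct y, Subgroup.subset_closure (by simp)⟩ : E) ^ j
      have h3 : c.1⁻¹ * ((x ^ i * y ^ j) * c.1 * (x ^ i * y ^ j)⁻¹) ∈ H := (hm (c⁻¹ * e • c)).1 hc
      refine (hm c).2 (hf i j hij c.1 c.2 ?_)
      have h4 := H.mul_mem h3 (H.mul_mem (H.pow_mem hxH i) (H.pow_mem hyH j))
      simpa [mul_assoc] using h4
  have h3 : (H.subgroupOf N).map (QuotientGroup.mk' (K.subgroupOf N)) = ⊤ := by
    rcases hp with hp | hp
    · refine eq_top_of_coprime h _ h1 h2 ?_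
      rintro _ ⟨c, hc, rfl⟩ h4
      rw [← map_pow] at h4
      exact (QuotientGroup.eq_one_iff (N := K.subgroupOf N) c).2
        (hp c.1 c.2 hc ((QuotientGroup.eq_one_iff (N := K.subgroupOf N) (c ^ p)).1 h4))
    · refine eq_top_of_isPGroup (r := p) h (fun c => ⟨1, ?_⟩) _ h1 h2
      induction c using QuotientGroup.induction_on with
      | H c => rw [pow_one]; exact (QuotientGroup.eq_one_iff (c ^ p)).2 (hp c.1 c.2)
  intro c hc
  exact (hm ⟨c, hc⟩).1 (h3 ▸ Subgroup.mem_top _)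

end Rel

/-- dihedral groups with product of even order -/
theorem dih_even' {G : Type*} [Group G] [Finite G] {s t : G} (hs : s * s = 1) (ht : t * t = 1)
    (h : Even (orderOf (s * t))) :
    ∃ m j : ℕ, (s * t) ^ m ≠ 1 ∧ (s * t) ^ m * s = s * (s * t) ^ m ∧
      (s * t) ^ m * t = t * (s * t) ^ m ∧
      (((s * t) ^ m * s = (s * t) ^ j * s * ((s * t) ^ j)⁻¹ ∧
        (s * t) ^ m * t = (s * t) ^ j * t * ((s * t) ^ j)⁻¹) ∨
      ((s * t) ^ m * s = (s * t) ^ (j + 1) * t * ((s * t) ^ (j + 1))⁻¹ ∧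
        (s * t) ^ m * t = (s * t) ^ j * s * ((s * t) ^ j)⁻¹)) := by
  obtain ⟨m, hm⟩ := h
  set c := s * t with hc
  have hpos := orderOf_pos c
  have hs' : s⁻¹ = s := inv_eq_of_mul_eq_one_right hs
  have ht' : t⁻¹ = t := inv_eq_of_mul_eq_one_right ht
  have e1 : ∀ j : ℕ, s * (c ^ j)⁻¹ = c ^ j * s := fun j => by
    have : s * c⁻¹ * s⁻¹ = c := by
      rw [hc, mul_inv_rev, hs', ht', mul_assoc, mul_assoc, hs, mul_one]
    rw [← inv_pow, ← this, conj_pow, this, hs', mul_assoc, hs, mul_one]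
  have e2 : ∀ j : ℕ, t * (c ^ j)⁻¹ = c ^ j * t := fun j => by
    have : t * c⁻¹ * t⁻¹ = c := by
      rw [hc, mul_inv_rev, hs', ht', ← mul_assoc, ht, one_mul]
    rw [← inv_pow, ← this, conj_pow, this, ht', mul_assoc, ht, mul_one]
  have hmm : (c ^ m)⁻¹ = c ^ m := inv_eq_of_mul_eq_one_right (by
    rw [← pow_add, ← hm, pow_orderOf_eq_one])
  have hne : c ^ m ≠ 1 := fun h1 => by
    have := Nat.le_of_dvd (by omega) (orderOf_dvd_of_pow_eq_one h1)
    omega
  have hct : c * t = s := by rw [hc, mul_assoc, ht, mul_one]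
  obtain ⟨j, rfl | rfl⟩ := Nat.even_or_odd' m
  · refine ⟨2 * j, j, hne, by rw [← e1, hmm], by rw [← e2, hmm], Or.inl ⟨?_, ?_⟩⟩
    · rw [mul_assoc, e1, ← mul_assoc, ← pow_add, two_mul]
    · rw [mul_assoc, e2, ← mul_assoc, ← pow_add, two_mul]
  · refine ⟨2 * j + 1, j, hne, by rw [← e1, hmm], by rw [← e2, hmm], Or.inr ⟨?_, ?_⟩⟩
    · rw [mul_assoc, e2, ← mul_assoc, ← pow_add, ← hct, ← mul_assoc, ← pow_succ]
      congr 2; ring
    · rw [mul_assoc, e1, ← mul_assoc, ← pow_add, pow_succ, mul_assoc, hct, two_mul]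

end Cfsg.Agent.Orth.OO
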