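import Cfsg.Agent.Orth.Ext1
import Cfsg.Agent.Orth.OO1
import Cfsg.Agent.H9.Sp.Ten7

/-! `O ⊗ O` in `Ω`, part 2: linear algebra in one orthogonal space. -/

set_option autoImplicit false
set_option linter.unusedSimpArgs false
set_option linter.unusedSectionVars false

namespace Cfsg.Agent.Orth.OO

open Module Cfsg.Agent.H6
open Cfsg.Agent.H9.Sp (exists_ne_ne)

attribute [-simp] LinearEquiv.coe_inv Submodule.mem_map_equiv

variable {F : Type*} [Field F] {U : Type*} [AddCommGroup U] [Module F U]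

theorem smul_of_sq (h2 : (2 : F) ≠ 0) (S : AddSubgroup U)
    (h : ∀ c : F, c ≠ 0 → ∀ x ∈ S, (c * c) • x ∈ S) (c : F) {x : U} (hx : x ∈ S) : c • x ∈ S := by
  have h' : ∀ c : F, (c * c) • x ∈ S := fun c => by
    by_cases hc : c = 0
    · simp [hc]
    · exact h c hc x hx
  convert S.sub_mem (h' ((c + 1) / 2)) (h' ((c - 1) / 2)) using 1
  rw [← sub_smul]; congr 1; field_simp; ring

/-- `x ∧ y` -/
def wd (Q : QuadraticForm F U) (x y : U) : U →ₗ[F] U := rk (B Q y) x - rk (B Q x) y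

/-- `x ∘ y` -/
def sy (Q : QuadraticForm F U) (x y : U) : U →ₗ[F] U := rk (B Q y) x + rk (B Q x) y

variable {Q : QuadraticForm F U}

@[simp] theorem wd_apply (x y z : U) : wd Q x y z = B Q y z • x - B Q x z • y := rfl

@[simp] theorem sy_apply (x y z : U) : sy Q x y z = B Q y z • x + B Q x z • y := rfl

section Nil

theorem exists_fixed {n : U →ₗ[F] U} (hn : IsNilpotent n) {K : Submodule F U}
    (hK : ∀ x ∈ K, n x ∈ K) {x : U} (hx : x ∈ K) (hx0 : x ≠ 0) : ∃ y ∈ K, y ≠ 0 ∧ n y = 0 := by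
  obtain ⟨k, hk⟩ := hn
  have : ∀ k : ℕ, ∀ x ∈ K, x ≠ 0 → (n ^ k) x = 0 → ∃ y ∈ K, y ≠ 0 ∧ n y = 0 := by
    intro k
    induction k with
    | zero => intro x _ h0 h; exact absurd h h0
    | succ k ih =>
      intro x hx h0 h
      by_cases h1 : n x = 0
      · exact ⟨x, hx, h0, h1⟩
      · exact ih _ (hK x hx) h1 (by rwa [pow_succ] at h)
  exact this k x hx hx0 (by simp [hk])

theorem nakayama {n : U →ₗ[F] U} (hn : IsNilpotent n) {K : Submodule F U}
    (hK : ∀ x ∈ K, n x ∈ K) (h : ∀ x, ∃ y, x - n y ∈ K) (x : U) : x ∈ K := by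
  obtain ⟨k, hk⟩ := hn
  have : ∀ k : ℕ, ∀ x, (n ^ k) x ∈ K → ∀ j, j ≤ k → ∀ x, ∃ y, x - (n ^ j) y ∈ K := by
    intro k _ _ j _
    induction j with
    | zero => exact fun x => ⟨x, by simp⟩
    | succ j ih =>
      intro x
      obtain ⟨y, hy⟩ := h x
      obtain ⟨z, hz⟩ := ih (by omega) y
      refine ⟨z, ?_⟩
      convert K.add_mem hy (hK _ hz) using 1
      rw [pow_succ']; simp
  obtain ⟨y, hy⟩ := this k 0 (by simp) k le_rfl x
  simpa [hk] using hy

theorem coe_pow' (A : U ≃ₗ[F] U) (n : ℕ) : ((A ^ n : U ≃ₗ[F] U) : U →ₗ[F] U) = (A : End F U) ^ n :=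
  map_pow (LinearEquiv.automorphismGroup.toLinearMapMonoidHom (R := F) (M := U)) A n

theorem nil_of_pow {p : ℕ} [Fact p.Prime] [CharP F p] {A : U ≃ₗ[F] U} (h : A ^ p = 1) :
    IsNilpotent ((A : U →ₗ[F] U) - 1) := by
  rcases subsingleton_or_nontrivial U with hU | hU
  · exact ⟨1, Subsingleton.elim _ _⟩
  haveI : CharP (End F U) p := charP_of_injective_algebraMap (algebraMap F (End F U)).injective p
  refine ⟨p, ?_⟩
  rw [sub_pow_char_of_commute p (Commute.one_right (A : End F U)), one_pow, sub_eq_zero]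
  rw [← coe_pow', h]; rfl

theorem pow_char_eq_one {p : ℕ} [Fact p.Prime] [CharP F p] (h2 : (2 : F) ≠ 0) {A : U ≃ₗ[F] U}
    (h : ∀ x, ((A : U →ₗ[F] U) - 1) (((A : U →ₗ[F] U) - 1) (((A : U →ₗ[F] U) - 1) x)) = 0) :
    A ^ p = 1 := by
  rcases subsingleton_or_nontrivial U with hU | hU
  · exact Subsingleton.elim _ _
  haveI : CharP (End F U) p := charP_of_injective_algebraMap (algebraMap F (End F U)).injective p
  have hp : 3 ≤ p := by
    have := (Fact.out : p.Prime).two_le
    have : p ≠ 2 := by rintro rfl; exact h2 (by exact_mod_cast CharP.cast_eq_zero F 2)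
    omega
  have h1 : ((A : End F U) - 1) ^ p = 0 := pow_eq_zero_of_le hp (by ext x; simpa [pow_succ] using h x)
  rw [sub_pow_char_of_commute p (Commute.one_right (A : End F U)), one_pow, sub_eq_zero,
    ← coe_pow'] at h1
  exact LinearEquiv.toLinearMap_injective h1

theorem odd_char {p : ℕ} [Fact p.Prime] [CharP F p] (h2 : (2 : F) ≠ 0) : Odd p :=
  (Fact.out : p.Prime).odd_of_ne_two (by
    rintro rfl; exact h2 (by exact_mod_cast CharP.cast_eq_zero F 2))

end Nil

theorem exists_conj_refl (h2 : (2 : F) ≠ 0) {x y : U} (hx : Q x ≠ 0) (h : Q x = Q y) :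
    ∃ g ∈ O Q, refl Q y = g * refl Q x * g⁻¹ := by
  by_cases h1 : Q (y - x) = 0
  · have h3 : Q (-y - x) ≠ 0 := by
      rw [Q_sub, Q_neg, map_neg, LinearMap.neg_apply]
      rw [Q_sub] at h1
      intro h3
      exact hx (by
        have : 2 * (2 * Q x) = 0 := by linear_combination h1 + h3 + 2 * h
        simpa [h2] using this)
    refine ⟨_, refl_mem_O Q (-y - x), ?_⟩
    rw [conj_refl (refl_mem_O _ _), refl_sub_apply (by rw [Q_neg, h]) h3, refl_neg]
  · refine ⟨_, refl_mem_O Q (y - x), ?_⟩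
    rw [conj_refl (refl_mem_O _ _), refl_sub_apply h h1]

theorem B_ext (hQ : Nd Q) {x y : U} (h : ∀ z, B Q z x = B Q z y) : x = y :=
  sub_eq_zero.1 (hQ _ fun z => by rw [map_sub, h, sub_self])

theorem B_ne_zero (hQ : Nd Q) {x : U} (hx : x ≠ 0) : B Q x ≠ 0 := by
  obtain ⟨y, hy⟩ := hQ.exists_B_ne hx
  intro h; simp [h] at hy

theorem range_perp_ker {A : U ≃ₗ[F] U} (hA : A ∈ O Q) {x : U} (hx : A x = x) (y : U) :
    B Q x (A y - y) = 0 := by
  rw [map_sub]; nth_rewrite 1 [← hx]; rw [O_B hA, sub_self]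

variable [FiniteDimensional F U]

theorem exists_B_eq (hQ : Nd Q) (φ : Dual F U) : ∃ x, B Q x = φ :=
  ⟨((B Q).toDual hQ.nondeg).symm φ, by
    ext y; exact LinearMap.BilinForm.apply_toDual_symm_apply φ y⟩

theorem two_le_rank (hQ : Nd Q) (h2 : (2 : F) ≠ 0) {A : U ≃ₗ[F] U} (hA : A ∈ O Q)
    (hn : IsNilpotent ((A : U →ₗ[F] U) - 1)) (h1 : A ≠ 1) :
    2 ≤ finrank F (LinearMap.range ((A : U →ₗ[F] U) - 1)) := by
  by_contra hlt
  obtain ⟨x, hx⟩ : ∃ x, A x - x ≠ 0 := by
    by_contra! h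
    exact h1 (LinearEquiv.ext fun x => sub_eq_zero.1 (h x))
  obtain ⟨r, hr, hr0, hr1⟩ := exists_fixed hn (K := LinearMap.range ((A : U →ₗ[F] U) - 1))
    (fun x _ => ⟨x, rfl⟩) ⟨x, rfl⟩ hx
  replace hr1 : A r = r := sub_eq_zero.1 hr1
  have h3 : ∀ y, ∃ c : F, A y - y = c • r := fun y => by
    by_contra! h
    have := Submodule.finrank_mono (s := Submodule.span F {r, A y - y})
      (t := LinearMap.range ((A : U →ₗ[F] U) - 1))
      (Submodule.span_le.2 (by rintro _ (rfl | rfl); exacts [hr, ⟨y, rfl⟩]))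
    have h4 : LinearIndependent F ![r, A y - y] :=
      (LinearIndependent.pair_iff' hr0).2 fun c hc => h c hc.symm
    have h5 := finrank_span_eq_card h4
    rw [Matrix.range_cons_cons_empty] at h5
    simp only [Fintype.card_fin] at h5
    omega
  have hr2 : Q r = 0 := by
    obtain ⟨y, hy⟩ := hr
    have := range_perp_ker hA hr1 y
    rw [show A y - y = r from hy, B_self] at this
    simpa [h2] using this
  obtain ⟨θ, hθ⟩ := exists_dual_one' (F := F) hr0
  obtain ⟨s, -, h4, h5⟩ := exists_ne_ne (S := ⊤) (θ ∘ₗ ((A : U →ₗ[F] U) - 1)) (B Q r)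
    (by
      obtain ⟨c, hc⟩ := h3 x
      refine ⟨x, trivial, ?_⟩
      have : c ≠ 0 := by rintro rfl; exact hx (by simpa using hc)
      simpa [hc, hθ] using this)
    (by obtain ⟨y, hy⟩ := hQ.exists_B_ne hr0; exact ⟨y, trivial, hy⟩)
  obtain ⟨c, hc⟩ := h3 s
  have h6 := hA s
  rw [sub_eq_iff_eq_add.1 hc, Q_add, Q_smul, hr2, map_smul, LinearMap.smul_apply] at h6
  simp [hc, hθ] at h4
  simp [h4, h5] at h6

theorem det_sq (hQ : Nd Q) {A : U →ₗ[F] U} {μ : F} (h : ∀ x y, B Q (A x) (A y) = μ * B Q x y) :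
    LinearMap.det A ^ 2 = μ ^ finrank F U := by
  classical
  let b := finBasis F U
  have h1 : (B Q).comp A A = μ • B Q := by ext x y; simp [h]
  have h2 := LinearMap.BilinForm.toMatrix_comp b b (B Q) A A
  rw [h1, map_smul] at h2
  have h3 := congrArg Matrix.det h2
  rw [Matrix.det_smul, Matrix.det_mul, Matrix.det_mul, Matrix.det_transpose,
    LinearMap.det_toMatrix, Fintype.card_fin] at h3
  have h4 := (LinearMap.BilinForm.nondegenerate_iff_det_ne_zero b).1 hQ.nondeg
  apply mul_right_cancel₀ h4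
  linear_combination -h3

theorem mult_sq (hQ : Nd Q) (ha : Odd (finrank F U)) {A : U →ₗ[F] U} {μ : F} (hμ : μ ≠ 0)
    (h : ∀ x y, B Q (A x) (A y) = μ * B Q x y) : ∃ c : F, c ≠ 0 ∧ μ = c * c := by
  obtain ⟨k, hk⟩ := ha
  have h1 := det_sq hQ h
  rw [hk] at h1
  refine ⟨LinearMap.det A / μ ^ k, fun h0 => ?_, ?_⟩
  · rw [div_eq_zero_iff] at h0
    rcases h0 with h0 | h0
    · rw [h0] at h1; exact pow_ne_zero (2 * k + 1) hμ (by rw [← h1]; simp)
    · exact pow_ne_zero _ hμ h0
  · field_simp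
    rw [h1]; ring

theorem sq_ne_neg (hQ : Nd Q) (h2 : (2 : F) ≠ 0) (ha : Odd (finrank F U)) {A : U ≃ₗ[F] U}
    (hA : A ∈ O Q) : ¬ ∀ x, A (A x) = -x := by
  intro h
  have h1 := det_sq hQ (A := A) (μ := 1) (fun x y => by simpa using O_B hA x y)
  have h3 : (A : U →ₗ[F] U) ∘ₗ (A : U →ₗ[F] U) = (-1 : F) • LinearMap.id := by ext x; simp [h]
  have h4 := congrArg LinearMap.det h3
  rw [LinearMap.det_comp, LinearMap.det_smul, ha.neg_one_pow, LinearMap.det_id] at h4
  exact h2 (by linear_combination h4 - h1 + (2 - 1 ^ finrank F U) * (one_pow (M := F) (finrank F U)))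

variable [Finite F]

theorem odd_mem_EO (hQ : Nd Q) (hd : 5 ≤ finrank F U) {g : U ≃ₗ[F] U} (hg : g ∈ O Q) {n : ℕ}
    (hn : Odd n) (h : g ^ n = 1) : g ∈ EO Q := by
  obtain ⟨k, rfl⟩ := hn
  have := hQ.sq_mem_EO hd ((O Q).pow_mem hg (k + 1))
  rwa [← pow_add, show k + 1 + (k + 1) = 2 * k + 1 + 1 by ring, pow_succ, h, one_mul] at this

theorem exists_neg (hQ : Nd Q) (h2 : (2 : F) ≠ 0) (Γ : Subgroup (U ≃ₗ[F] U))
    (hΓ : ∀ x y, Q x ≠ 0 → Q x = Q y → refl Q x * refl Q y ∈ Γ) (R : Submodule F U)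
    (hR : NdOn Q R) (ho : Odd (finrank F R)) :
    ∃ u ∈ R, Q u ≠ 0 ∧ ∃ A ∈ Γ, (∀ x ∈ R, refl Q u (A x) = -x) ∧ ∀ x ∈ perp Q R, A x = x := by
  obtain ⟨k, hk⟩ := ho
  induction k generalizing R with
  | zero =>
    obtain ⟨u, hu, hu0⟩ := hR.exists_nonsing le_rfl (by omega)
    refine ⟨u, hu, hu0, 1, one_mem _, fun x hx => ?_, fun _ _ => rfl⟩
    have : R = F ∙ u := (Submodule.eq_of_le_of_finrank_le ((Submodule.span_singleton_le_iff_mem _ _).2 hu)
      (by rw [finrank_span_singleton (by rintro rfl; simp at hu0)]; omega)).symm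
    rw [this] at hx
    obtain ⟨c, rfl⟩ := Submodule.mem_span_singleton.1 hx
    rw [one_app, map_smul, refl_self hu0, smul_neg]
  | succ k ih =>
    obtain ⟨u₁, hu₁, h1⟩ := hR.exists_Q_eq le_rfl (by omega) 1
    have n1 : NdOn Q (F ∙ u₁) := by
      intro v hv h
      obtain ⟨c, rfl⟩ := Submodule.mem_span_singleton.1 hv
      have := h u₁ (Submodule.mem_span_singleton_self _)
      simp [B_self, h1, h2] at this
      simp [this]
    have l1 : (F ∙ u₁) ≤ R := (Submodule.span_singleton_le_iff_mem _ _).2 hu₁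
    have e1 := hR.finrank_inf_perp l1
    rw [finrank_span_singleton (by rintro rfl; simp at h1)] at e1
    have hR1 := hR.inf_perp n1 l1
    obtain ⟨u₂, hu₂, h3⟩ := hR1.exists_Q_eq le_rfl (by omega) 1
    have n2 : NdOn Q (F ∙ u₂) := by
      intro v hv h
      obtain ⟨c, rfl⟩ := Submodule.mem_span_singleton.1 hv
      have := h u₂ (Submodule.mem_span_singleton_self _)
      simp [B_self, h3, h2] at this
      simp [this]
    have l2 : (F ∙ u₂) ≤ R ⊓ perp Q (F ∙ u₁) := (Submodule.span_singleton_le_iff_mem _ _).2 hu₂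
    have e2 := hR1.finrank_inf_perp l2
    rw [finrank_span_singleton (by rintro rfl; simp at h3)] at e2
    obtain ⟨u, hu, hu0, A, hA, h4, h5⟩ := ih _ (hR1.inf_perp n2 l2) (by omega)
    have b12 : B Q u₁ u₂ = 0 := mem_perp_span_singleton.1 hu₂.2
    have b1 : B Q u₁ u = 0 := mem_perp_span_singleton.1 hu.1.2
    have b2 : B Q u₂ u = 0 := mem_perp_span_singleton.1 hu.2
    have f1 : A u₁ = u₁ := h5 _ fun x hx => by rw [B_comm]; exact mem_perp_span_singleton.1 hx.1.2
    have f2 : A u₂ = u₂ := h5 _ fun x hx => by rw [B_comm]; exact mem_perp_span_singleton.1 hx.2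
    refine ⟨u, hu.1.1, hu0, refl Q u₁ * refl Q u₂ * A,
      mul_mem (hΓ _ _ (by simp [h1]) (by rw [h1, h3])) hA, fun x hx => ?_, fun x hx => ?_⟩
    · set y := x - (B Q u₁ x / 2) • u₁ - (B Q u₂ x / 2) • u₂ with hy
      have c1 : B Q u₁ y = 0 := by simp [hy, B_self, h1, b12, h2]
      have c2 : B Q u₂ y = 0 := by simp [hy, B_self, h3, B_comm Q u₂ u₁, b12, h2]
      have h6 := h4 y ⟨⟨R.sub_mem (R.sub_mem hx (R.smul_mem _ hu₁)) (R.smul_mem _ hu₂.1),
        mem_perp_span_singleton.2 c1⟩, mem_perp_span_singleton.2 c2⟩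
      have h7 : A y = refl Q u (-y) := by rw [← h6, refl_refl]
      have h8 : x = y + (B Q u₁ x / 2) • u₁ + (B Q u₂ x / 2) • u₂ := by rw [hy]; abel
      rw [h8]
      simp only [mul_app, map_add, map_smul, f1, f2, h7, refl_apply, map_sub, map_neg, c1, c2, b1,
        b2, b12, B_comm Q u₂ u₁, B_comm Q u u₁, B_comm Q u u₂, B_self, h1, h3, smul_eq_mul]
      match_scalars <;> field_simp <;> ring
    · rw [mul_app, mul_app, h5 x (perp_anti (inf_le_left.trans inf_le_left) hx),
        refl_of_perp (hx _ hu₂.1), refl_of_perp (hx _ hu₁)]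

/-- a conjugation invariant space of families of endomorphisms is an `so(U)`-module -/
theorem so_closed (hQ : Nd Q) (h2 : (2 : F) ≠ 0) (ha : 3 ≤ finrank F U)
    (hq : 5 ≤ finrank F U ∨ ∃ t : F, t ≠ 0 ∧ t * t ≠ 1) {Z : Type*}
    (P : Submodule F (Z → (U →ₗ[F] U)))
    (hP : ∀ u v, Q u = 0 → B Q u v = 0 → ∀ S ∈ P, (fun z => cj (eich Q u v) (S z)) ∈ P)
    (x y : U) {S : Z → (U →ₗ[F] U)} (hS : S ∈ P) :
    (fun z => wd Q x y ∘ₗ S z - S z ∘ₗ wd Q x y) ∈ P := by
  let J : Submodule F (U →ₗ[F] U) :=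
    { carrier := {N | ∀ S ∈ P, (fun z => N ∘ₗ S z - S z ∘ₗ N) ∈ P}
      add_mem' := fun {a b} ha hb S hS => by
        convert P.add_mem (ha S hS) (hb S hS) using 1
        ext z v; simp; abel
      zero_mem' := fun S hS => by convert P.zero_mem using 1; ext z v; simp
      smul_mem' := fun c a ha S hS => by
        convert P.smul_mem c (ha S hS) using 1
        ext z v; simp [smul_sub] }
  have k1 : ∀ u v, Q u = 0 → B Q u v = 0 → (Q v = 0 ∨ ∃ t : F, t ≠ 0 ∧ t * t ≠ 1) →
      wd Q u v ∈ J := by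
    intro u v hu hv h S hS
    have hD : ∀ t : F, (fun z => cj (eich Q u (t • v)) (S z) - cj (eich Q u ((-t) • v)) (S z))
        ∈ P := fun t => P.sub_mem (hP u _ hu (by simp [hv]) S hS) (hP u _ hu (by simp [hv]) S hS)
    have hb : ∀ t : F, B Q u (t • v) = 0 := fun t => by simp [hv]
    have hb' : ∀ t : F, B Q u (-(t • v)) = 0 := fun t => by simp [hv]
    rcases h with h | ⟨t, ht, ht1⟩
    · convert P.smul_mem (-(2 : F)⁻¹) (hD 1) using 1
      ext z x
      simp only [LinearMap.sub_apply, LinearMap.comp_apply, wd_apply, Pi.smul_apply,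
        LinearMap.smul_apply, cj_apply, eich_inv hu (hb _), eich_apply hu (hb _),
        eich_apply hu (hb' _), Q_neg, Q_smul, h, map_add, map_sub, map_smul, map_neg,
        LinearMap.neg_apply, smul_eq_mul]
      match_scalars <;> field_simp <;> ring
    · have h3 : 2 * t * (1 - t * t) ≠ 0 :=
        mul_ne_zero (mul_ne_zero h2 ht) (sub_ne_zero.2 ht1.symm)
      have := P.sub_mem (P.smul_mem (t * t * t) (hD 1)) (hD t)
      suffices h4 : (2 * t * (1 - t * t)) • (fun z => wd Q u v ∘ₗ S z - S z ∘ₗ wd Q u v) ∈ P by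
        exact (P.smul_mem_iff h3).1 h4
      convert this using 1
      ext z x
      simp only [LinearMap.sub_apply, LinearMap.comp_apply, wd_apply, Pi.smul_apply, Pi.sub_apply,
        LinearMap.smul_apply, cj_apply, eich_inv hu (hb _), eich_apply hu (hb _),
        eich_apply hu (hb' _), Q_neg, Q_smul, map_add, map_sub, map_smul, map_neg,
        LinearMap.neg_apply, smul_eq_mul]
      module
  let T : U → Submodule F U := fun u =>
    { carrier := {v | wd Q u v ∈ J}
      add_mem' := fun {a b} ha hb => by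
        change wd Q u _ ∈ J
        convert J.add_mem ha hb using 1
        ext v; simp [add_smul]; abel
      zero_mem' := by change wd Q u _ ∈ J; convert J.zero_mem using 1; ext v; simp
      smul_mem' := fun c a ha => by
        change wd Q u _ ∈ J
        convert J.smul_mem c ha using 1
        ext v; simp [smul_sub, smul_smul, mul_comm] }
  have hsk : ∀ u v, wd Q u v ∈ J → wd Q v u ∈ J := fun u v h => by
    convert J.neg_mem h using 1; ext x; simp
  have k2 : ∀ u v, Q u = 0 → B Q u v = 0 → wd Q u v ∈ J := by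
    intro u v hu hv
    rcases hq with hq | hq
    · by_contra hn
      have := finrank_perp_ge (Q := Q) (F ∙ u)
      have := finrank_span_singleton_le (F := F) u
      obtain ⟨e, he, he0, he1⟩ := hQ.ndOn_top.exists_sing_notMem (H := perp Q (F ∙ u)) (Y := T u)
        le_top (by rw [finrank_top]; omega) (fun h => hn (h (mem_perp_span_singleton.2 hv)))
      exact he1 (k1 u e hu (mem_perp_span_singleton.1 he) (Or.inl he0))
    · exact k1 u v hu hv (Or.inr hq)
  have k3 : ∀ u v, Q u = 0 → wd Q u v ∈ J := by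
    intro u v hu
    by_cases hu0 : u = 0
    · exact k2 u v hu (by simp [hu0])
    obtain ⟨e, -, he, hue⟩ := exists_partner (H := ⊤) trivial hu
      (by obtain ⟨y, hy⟩ := hQ.exists_B_ne hu0; exact ⟨y, trivial, hy⟩)
    have := finrank_perp_ge (Q := Q) (Submodule.span F {u, e})
    have := Orth.finrank_span_pair_le (F := F) u e
    have hN : NdOn Q (Submodule.span F {u, e}) := by
      intro v hv h
      obtain ⟨a, b, rfl⟩ := Submodule.mem_span_pair.1 hv
      have h3 := h u (Submodule.subset_span (by simp))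
      have h4 := h e (Submodule.subset_span (by simp))
      simp [B_self, hu, he, hue, B_comm Q e u] at h3 h4
      simp [h3, h4]
    obtain ⟨s, hs, hs0⟩ := (hN.perp hQ).exists_nonsing le_rfl (by omega)
    have b1 : B Q u s = 0 := mem_perp_span.1 hs u (by simp)
    have b2 : B Q e s = 0 := mem_perp_span.1 hs e (by simp)
    have h3 : wd Q u e ∈ J := by
      have h4 := k2 (s + u - Q s • e) (s + (2 : F) • u)
        (by simp [Q_sub, Q_add, Q_smul, hu, he, hue, B_comm Q s, b1, b2])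
        (by simp [B_self, hu, B_comm Q s, B_comm Q e u, hue, b1, b2]; ring)
      convert J.smul_mem (2 * Q s)⁻¹ (J.add_mem (J.add_mem h4 (k2 u s hu b1))
        (J.smul_mem (Q s) (k2 e s he b2))) using 1
      ext x
      simp only [wd_apply, LinearMap.smul_apply, LinearMap.add_apply, map_add, map_sub, map_smul,
        LinearMap.sub_apply, smul_eq_mul]
      match_scalars <;> field_simp <;> ring
    have h4 : v = (v - B Q u v • e) + B Q u v • e := by abel
    rw [h4]
    exact (T u).add_mem (k2 u _ hu (by simp [hue])) ((T u).smul_mem _ h3)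
  have k4 : wd Q y x ∈ J := by
    by_contra hn
    obtain ⟨e, -, he0, he1⟩ := hQ.ndOn_top.exists_sing_notMem (H := ⊤) (Y := T y)
      le_top (by rw [finrank_top]; omega) (fun h => hn (h trivial))
    exact he1 (hsk _ _ (k3 e y he0))
  exact hsk _ _ k4 S hS

end Cfsg.Agent.Orth.OO
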