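import Cfsg.Agent.Orth.OO2

/-! `O ⊗ O` in `Ω`, part 3: the set-up. -/

set_option autoImplicit false
set_option linter.unusedSimpArgs false
set_option linter.unusedSectionVars false

namespace Cfsg.Agent.Orth.OO

open Module Cfsg.Agent.H6
open Cfsg.Agent.H9.Sp (exists_ne_ne kron_mul kron_inv)

attribute [-simp] LinearEquiv.coe_inv Submodule.mem_map_equiv

variable {F : Type*} [Field F] {U : Type*} [AddCommGroup U] [Module F U]
  {W : Type*} [AddCommGroup W] [Module F W]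

theorem sq_or [Finite F] {a b : F} (ha : a ≠ 0) (hb : b ≠ 0) :
    IsSquare a ∨ IsSquare b ∨ IsSquare (a * b) := by
  classical
  have := Fintype.ofFinite F
  rcases quadraticChar_dichotomy ha with h | h
  · exact Or.inl ((quadraticChar_one_iff_isSquare ha).1 h)
  rcases quadraticChar_dichotomy hb with h' | h'
  · exact Or.inr (Or.inl ((quadraticChar_one_iff_isSquare hb).1 h'))
  exact Or.inr (Or.inr ((quadraticChar_one_iff_isSquare (mul_ne_zero ha hb)).1 (by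
    rw [map_mul, h, h']; norm_num)))

theorem ratio_of_sq {a b : F} (ha : a ≠ 0) (hb : b ≠ 0) (h : IsSquare (a * b)) :
    ∃ c, c ≠ 0 ∧ a = c * c * b := by
  obtain ⟨r, hr⟩ := h
  have hr0 : r ≠ 0 := by rintro rfl; simp [ha, hb] at hr
  exact ⟨r * b⁻¹, mul_ne_zero hr0 (inv_ne_zero hb), by field_simp; linear_combination hr⟩

/-- pure tensors -/
def pt (Q₂ : QuadraticForm F W) : W →ₗ[F] U →ₗ[F] (W →ₗ[F] U) :=
  LinearMap.smulRightₗ ∘ₗ B Q₂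

@[simp] theorem pt_apply (Q₂ : QuadraticForm F W) (w : W) (u : U) (z : W) :
    pt Q₂ w u z = B Q₂ w z • u := rfl

theorem pt_eq (Q₂ : QuadraticForm F W) (w : W) (u : U) : pt Q₂ w u = rk (B Q₂ w) u := rfl

theorem kr_mul (A A' : U ≃ₗ[F] U) (C C' : W ≃ₗ[F] W) : kr A C * kr A' C' = kr (A * A') (C' * C) := by
  ext X y; simp

theorem kr_one : kr (1 : U ≃ₗ[F] U) (1 : W ≃ₗ[F] W) = 1 := by ext X y; simp

theorem kr_inv (A : U ≃ₗ[F] U) (C : W ≃ₗ[F] W) : (kr A C)⁻¹ = kr A⁻¹ C⁻¹ := by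
  ext X y; simp

theorem kr_pow (A : U ≃ₗ[F] U) (C : W ≃ₗ[F] W) (n : ℕ) : kr A C ^ n = kr (A ^ n) (C ^ n) := by
  induction n with
  | zero => simp [kr_one]
  | succ n ih => rw [pow_succ, ih, kr_mul, pow_succ, pow_succ']

theorem Kron.eq {g : (W →ₗ[F] U) ≃ₗ[F] (W →ₗ[F] U)} (h : Kron g) : ∃ A C, g = kr A C := by
  obtain ⟨A, C, h⟩ := h
  exact ⟨A, C, LinearEquiv.ext fun X => LinearMap.ext fun y => h X y⟩

variable (F U W) in
/-- the group of Kronecker products -/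
def KG : Subgroup ((W →ₗ[F] U) ≃ₗ[F] (W →ₗ[F] U)) where
  carrier := {g | Kron g}
  mul_mem' := fun ha hb => by
    obtain ⟨A, C, rfl⟩ := Kron.eq ha
    obtain ⟨A', C', rfl⟩ := Kron.eq hb
    exact kr_mul A A' C C' ▸ kr_kron _ _
  one_mem' := ⟨1, 1, fun _ _ => rfl⟩
  inv_mem' := fun ha => by
    obtain ⟨A, C, rfl⟩ := Kron.eq ha
    exact kr_inv A C ▸ kr_kron _ _

theorem mem_KG {g : (W →ₗ[F] U) ≃ₗ[F] (W →ₗ[F] U)} : g ∈ KG F U W ↔ Kron g := Iff.rfl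

theorem kr_mem_KG (A : U ≃ₗ[F] U) (C : W ≃ₗ[F] W) : kr A C ∈ KG F U W := kr_kron A C

/-- `-1` -/
def ng (F : Type*) [Field F] (V : Type*) [AddCommGroup V] [Module F V] : V ≃ₗ[F] V :=
  LinearEquiv.neg F

@[simp] theorem ng_apply (x : U) : ng F U x = -x := rfl

theorem ng_mul_self : ng F U * ng F U = 1 := by ext x; simp [mul_app]

theorem ng_comm (g : U ≃ₗ[F] U) : ng F U * g = g * ng F U := by ext x; simp [mul_app]

theorem ng_mem_O (Q : QuadraticForm F U) : ng F U ∈ O Q := fun x => Q_neg Q x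

theorem ng_eq_kr : ng F (W →ₗ[F] U) = kr (ng F U) (1 : W ≃ₗ[F] W) := by ext X y; simp

theorem ng_eq_kr' : ng F (W →ₗ[F] U) = kr (1 : U ≃ₗ[F] U) (ng F W) := by ext X y; simp

/-- `± M` -/
def PM (M : Subgroup (U ≃ₗ[F] U)) : Subgroup (U ≃ₗ[F] U) where
  carrier := {g | g ∈ M ∨ ng F U * g ∈ M}
  mul_mem' := by
    rintro a b (ha | ha) (hb | hb)
    · exact Or.inl (mul_mem ha hb)
    · refine Or.inr ?_
      convert mul_mem ha hb using 1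
      ext x; simp [mul_app]
    · exact Or.inr (by rw [← mul_assoc]; exact mul_mem ha hb)
    · refine Or.inl ?_
      convert mul_mem ha hb using 1
      ext x; simp [mul_app]
  one_mem' := Or.inl (one_mem _)
  inv_mem' := by
    rintro a (ha | ha)
    · exact Or.inl (inv_mem ha)
    · refine Or.inr ?_
      convert inv_mem ha using 1
      rw [eq_inv_iff_mul_eq_one]
      ext x; simp [mul_app]

theorem le_PM (M : Subgroup (U ≃ₗ[F] U)) : M ≤ PM M := fun _ h => Or.inl h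

theorem ng_mem_PM (M : Subgroup (U ≃ₗ[F] U)) : ng F U ∈ PM M :=
  Or.inr (by rw [ng_mul_self]; exact one_mem _)

theorem PM_le {M N : Subgroup (U ≃ₗ[F] U)} (h : M ≤ N) (h1 : ng F U ∈ N) : PM M ≤ N := by
  rintro g (hg | hg)
  · exact h hg
  · simpa [← mul_assoc, ng_mul_self] using mul_mem h1 (h hg)

theorem sq_mem_of_PM {M : Subgroup (U ≃ₗ[F] U)} {g : U ≃ₗ[F] U} (hg : g ∈ PM M) : g * g ∈ M := by
  rcases hg with hg | hg
  · exact mul_mem hg hg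
  · convert mul_mem hg hg using 1
    ext x; simp [mul_app]

theorem mem_O_of_B {Q : QuadraticForm F U} (h2 : (2 : F) ≠ 0) {g : U ≃ₗ[F] U}
    (h : ∀ x y, B Q (g x) (g y) = B Q x y) : g ∈ O Q := fun x =>
  mul_left_cancel₀ h2 (by rw [← B_self, h, B_self])

variable (W) in
/-- `R ⊗ W` -/
def TT (R : Submodule F U) : Submodule F (W →ₗ[F] U) where
  carrier := {v | ∀ z, v z ∈ R}
  add_mem' ha hb z := R.add_mem (ha z) (hb z)
  zero_mem' _ := R.zero_mem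
  smul_mem' c _ ha z := R.smul_mem c (ha z)

theorem mem_TT {R : Submodule F U} {v : W →ₗ[F] U} : v ∈ TT W R ↔ ∀ z, v z ∈ R := Iff.rfl

theorem TT_mono {R S : Submodule F U} (h : R ≤ S) : TT W R ≤ TT W S := fun _ hv z => h (hv z)

theorem kr_fix {A : U ≃ₗ[F] U} {C : W ≃ₗ[F] W} [Nontrivial W] {r : U} (hr : r ≠ 0)
    (h : ∀ φ : Dual F W, kr A C (rk φ r) = rk φ r) :
    ∃ c : F, A r = c • r ∧ ∀ y, c • C y = y := by
  obtain ⟨y₀, hy₀⟩ := exists_ne (0 : W)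
  obtain ⟨φ₀, h0⟩ := exists_dual_one' (F := F) (C.map_ne_zero_iff.2 hy₀)
  have h1 : A r = φ₀ y₀ • r := by simpa [h0] using LinearMap.congr_fun (h φ₀) y₀
  refine ⟨_, h1, fun y => sub_eq_zero.1 (eq_zero_of_forall_dual (F := F) fun φ => ?_)⟩
  have := LinearMap.congr_fun (h φ) y
  simp only [kr_apply, rk_apply, map_smul, h1, smul_smul] at this
  rw [map_sub, map_smul, smul_eq_mul, mul_comm, smul_left_injective F hr this, sub_self]

variable [FiniteDimensional F U] [FiniteDimensional F W]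

theorem finrank_TT (R : Submodule F U) : finrank F (TT W R) = finrank F W * finrank F R := by
  rw [← finrank_linearMap F F W R]
  have : TT W R = LinearMap.range (LinearMap.compRight (M := W) F R.subtype) := by
    ext v
    exact ⟨fun hv => ⟨v.codRestrict R hv, rfl⟩, by rintro ⟨x, rfl⟩ z; exact (x z).2⟩
  rw [this]
  exact LinearMap.finrank_range_of_inj fun x y h => by
    ext z; exact LinearMap.congr_fun h z

/-- a quadratic form on `U ⊗ W` attached to two quadratic forms -/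
structure St (Q₁ : QuadraticForm F U) (Q₂ : QuadraticForm F W)
    (Q : QuadraticForm F (W →ₗ[F] U)) : Prop where
  h2 : (2 : F) ≠ 0
  n1 : Nd Q₁
  n2 : Nd Q₂
  nd : Nd Q
  hB : ∀ w u v, B Q (pt Q₂ w u) v = B Q₁ u (v w)
  ha : 3 ≤ finrank F U
  odd : Odd (finrank F U)
  hq : 5 ≤ finrank F U ∨ ∃ t : F, t ≠ 0 ∧ t * t ≠ 1
  hb : 4 ≤ finrank F W
  hW : ∀ T, TS Q₂ T → 2 * finrank F T ≠ finrank F W
  hab : finrank F U < finrank F W ∨ Even (finrank F W)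

variable {Q₁ : QuadraticForm F U} {Q₂ : QuadraticForm F W} {Q : QuadraticForm F (W →ₗ[F] U)}

namespace St

theorem hB' (hT : St Q₁ Q₂ Q) (w : W) (u : U) (v : W →ₗ[F] U) :
    B Q v (pt Q₂ w u) = B Q₁ u (v w) := by rw [B_comm, hT.hB]

theorem Q_pt (hT : St Q₁ Q₂ Q) (w : W) (u : U) : Q (pt Q₂ w u) = 2 * Q₁ u * Q₂ w :=
  mul_left_cancel₀ hT.h2 (by rw [← B_self, hT.hB]; simp [B_self]; ring)

theorem dim (hT : St Q₁ Q₂ Q) : 5 ≤ finrank F (W →ₗ[F] U) := by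
  rw [finrank_linearMap]; nlinarith [hT.ha, hT.hb]

theorem ntU (hT : St Q₁ Q₂ Q) : Nontrivial U := finrank_pos_iff.1 (by have := hT.ha; omega : 0 < finrank F U)

theorem ntW (hT : St Q₁ Q₂ Q) : Nontrivial W := finrank_pos_iff.1 (by have := hT.hb; omega : 0 < finrank F W)

theorem TT_ind (hT : St Q₁ Q₂ Q) {R : Submodule F U} (Z : Submodule F (W →ₗ[F] U))
    (h : ∀ w, ∀ r ∈ R, pt Q₂ w r ∈ Z) : TT W R ≤ Z := fun v hv => by
  rw [sum_rk v]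
  refine Submodule.sum_mem _ fun i _ => ?_
  obtain ⟨w, hw⟩ := exists_B_eq hT.n2 ((finBasis F W).coord i)
  rw [← hw]; exact h _ _ (hv _)

theorem ext_pt (hT : St Q₁ Q₂ Q) {Z : Type*} [AddCommGroup Z] [Module F Z]
    {a b : (W →ₗ[F] U) →ₗ[F] Z} (h : ∀ w u, a (pt Q₂ w u) = b (pt Q₂ w u)) : a = b :=
  ext_rk fun φ u => by
    obtain ⟨w, rfl⟩ := exists_B_eq hT.n2 φ
    exact h w u

theorem pt_mem_TT {R : Submodule F U} (w : W) {r : U} (hr : r ∈ R) : pt Q₂ w r ∈ TT W R :=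
  fun _ => R.smul_mem _ hr

theorem perp_TT (hT : St Q₁ Q₂ Q) (R : Submodule F U) : perp Q (TT W R) = TT W (perp Q₁ R) := by
  ext v
  constructor
  · intro h z r hr
    rw [← hT.hB]; exact h _ (pt_mem_TT z hr)
  · intro h x hx
    exact hT.TT_ind (LinearMap.ker ((B Q).flip v)) (fun w r hr => by
      change B Q _ v = 0
      rw [hT.hB]; exact h w r hr) hx

theorem eq_pt_of_TT (hT : St Q₁ Q₂ Q) {u : U} {v : W →ₗ[F] U} (hv : v ∈ TT W (F ∙ u)) :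
    ∃ z, v = pt Q₂ z u :=
  hT.TT_ind (LinearMap.range ((pt Q₂).flip u)) (fun w r hr => by
    obtain ⟨c, rfl⟩ := Submodule.mem_span_singleton.1 hr
    exact ⟨c • w, by simp⟩) hv |>.imp fun _ h => h.symm

theorem pt_inj (hT : St Q₁ Q₂ Q) {w : W} (hw : w ≠ 0) {u u' : U} (h : pt Q₂ w u = pt Q₂ w u') :
    u = u' := rk_injective (B_ne_zero hT.n2 hw) h

theorem pt_inj' (hT : St Q₁ Q₂ Q) {u : U} (hu : u ≠ 0) {w w' : W} (h : pt Q₂ w u = pt Q₂ w' u) :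
    w = w' := B_ext hT.n2 fun z => by
  rw [B_comm, B_comm Q₂ z]
  exact smul_left_injective F hu (LinearMap.congr_fun h z)

theorem mem_O (hT : St Q₁ Q₂ Q) {g : (W →ₗ[F] U) ≃ₗ[F] (W →ₗ[F] U)}
    (h1 : ∀ w u v, B Q (g (pt Q₂ w u)) (g v) = B Q₁ u (v w)) : g ∈ O Q :=
  mem_O_of_B hT.h2 fun x v => by
    have := hT.ext_pt (a := (B Q).flip (g v) ∘ₗ (g : (W →ₗ[F] U) →ₗ[F] (W →ₗ[F] U)))
      (b := (B Q).flip v) fun w u => by
        change B Q (g _) (g v) = B Q _ v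
        rw [h1, hT.hB]
    exact LinearMap.congr_fun this x

omit [FiniteDimensional F U] [FiniteDimensional F W] in
theorem kr_pt {A : U ≃ₗ[F] U} {C : W ≃ₗ[F] W} (hC : C ∈ O Q₂) (w : W) (u : U) :
    kr A C (pt Q₂ w u) = pt Q₂ (C⁻¹ w) (A u) := by
  ext y; simp [O_B_inv ((O Q₂).inv_mem hC)]

theorem kr_mem_O (hT : St Q₁ Q₂ Q) {A : U ≃ₗ[F] U} {C : W ≃ₗ[F] W} (hA : A ∈ O Q₁)
    (hC : C ∈ O Q₂) : kr A C ∈ O Q :=
  hT.mem_O fun w u v => by rw [kr_pt hC, hT.hB, kr_apply, O_B hA]; simp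

theorem kron_norm (hT : St Q₁ Q₂ Q) {g : (W →ₗ[F] U) ≃ₗ[F] (W →ₗ[F] U)} (hg : g ∈ O Q)
    (hk : Kron g) : ∃ A ∈ O Q₁, ∃ C ∈ O Q₂, g = kr A C := by
  obtain ⟨A, C, rfl⟩ := Kron.eq hk
  haveI := hT.ntW
  haveI := hT.ntU
  obtain ⟨w₀, hw₀⟩ := exists_ne (0 : W)
  obtain ⟨w₀', h0⟩ := exists_apply_eq_one (B_ne_zero hT.n2 hw₀)
  have h1 : ∀ (A : U ≃ₗ[F] U) (C : W ≃ₗ[F] W) w, ∃ w', ∀ u, kr A C (pt Q₂ w u) = pt Q₂ w' (A u) :=
    fun A C w => by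
      obtain ⟨w', hw'⟩ := exists_B_eq hT.n2 (B Q₂ w ∘ₗ (C : W →ₗ[F] W))
      exact ⟨w', fun u => by ext y; simp [hw']⟩
  obtain ⟨w₁, h3⟩ := h1 A C w₀
  obtain ⟨w₁', h4⟩ := h1 A C w₀'
  have h5 : ∀ u u', B Q₂ w₁' w₁ * B Q₁ (A u) (A u') = B Q₁ u u' := fun u u' => by
    have := O_B hg (pt Q₂ w₀ u) (pt Q₂ w₀' u')
    rw [h3, h4, hT.hB, hT.hB] at this
    simpa [B_comm Q₂ w₀', h0] using this
  have h6 : B Q₂ w₁' w₁ ≠ 0 := fun h => by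
    obtain ⟨u, hu⟩ := exists_ne (0 : U)
    obtain ⟨u', hu'⟩ := hT.n1.exists_B_ne hu
    exact hu' (by rw [← h5, h, zero_mul])
  obtain ⟨c, hc, h7⟩ := mult_sq hT.n1 hT.odd (A := A) (inv_ne_zero h6) fun x y => by
    rw [← h5 x y]; field_simp; rfl
  let A' := A * LinearEquiv.smulOfNeZero F U c⁻¹ (inv_ne_zero hc)
  let C' := C * LinearEquiv.smulOfNeZero F W c hc
  have hA' : A' ∈ O Q₁ := mem_O_of_B hT.h2 fun x y => by
    rw [← h5 x y, ← inv_inv (B Q₂ w₁' w₁), h7]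
    simp [A', mul_app]; ring
  have e1 : kr A C = kr A' C' := by ext X y; simp [A', C', mul_app, smul_smul, hc]
  refine ⟨A', hA', C', ?_, e1⟩
  have h8 : kr (1 : U ≃ₗ[F] U) C' ∈ O Q := by
    have := mul_mem (inv_mem (hT.kr_mem_O hA' (one_mem _))) hg
    rwa [e1, kr_inv, kr_mul, inv_mul_cancel, inv_one, mul_one] at this
  refine mem_O_of_B hT.h2 fun x y => ?_
  obtain ⟨x', h9⟩ := h1 1 C' (C' x)
  obtain ⟨u, hu⟩ := exists_ne (0 : U)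
  obtain ⟨u', hu'⟩ := hT.n1.exists_B_ne hu
  have h10 : x' = x := C'.injective (B_ext hT.n2 fun z => by
    have := O_B h8 (pt Q₂ (C' x) u) (pt Q₂ z u')
    rw [h9, hT.hB, hT.hB] at this
    simpa [hu'] using this)
  have := LinearMap.congr_fun (h9 u) y
  simp only [kr_apply, pt_apply, map_smul, h10] at this
  exact smul_left_injective F hu this

theorem kron_fix (hT : St Q₁ Q₂ Q) {g : (W →ₗ[F] U) ≃ₗ[F] (W →ₗ[F] U)} (hg : g ∈ O Q)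
    (hk : Kron g) {S : Submodule F U} (hS : S ≠ ⊥) (h : ∀ v ∈ TT W S, g v = v) :
    ∃ A ∈ O Q₁, g = kr A 1 ∧ ∀ x ∈ S, A x = x := by
  obtain ⟨A, hA, C, hC, rfl⟩ := hT.kron_norm hg hk
  haveI := hT.ntW
  obtain ⟨r, hr, hr0⟩ := Submodule.exists_mem_ne_zero_of_ne_bot hS
  obtain ⟨c, -, h2⟩ := kr_fix hr0 fun φ => h _ fun z => S.smul_mem _ hr
  have key : ∀ A : U ≃ₗ[F] U, (∀ v ∈ TT W S, kr A 1 v = v) → ∀ x ∈ S, A x = x := fun A h x hx => by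
    obtain ⟨w, hw⟩ := exists_ne (0 : W)
    refine hT.pt_inj hw ?_
    rw [← h _ (pt_mem_TT w hx)]
    ext; simp
  obtain ⟨y, -, hy⟩ := hT.n2.ndOn_top.exists_nonsing le_rfl (by have := hT.hb; simp; omega)
  have h3 : c * c = 1 := by
    have := congrArg Q₂ (h2 y)
    rw [Q_smul, hC] at this
    exact mul_right_cancel₀ hy (by rw [this, one_mul])
  rcases mul_self_eq_one_iff.1 h3 with rfl | rfl
  · have : C = 1 := LinearEquiv.ext fun y => by simpa using h2 y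
    subst this
    exact ⟨A, hA, rfl, key A h⟩
  · have e1 : kr A C = kr (ng F U * A) 1 := by
      ext X y
      have : C y = -y := by rw [← neg_eq_iff_eq_neg]; simpa using h2 y
      simp [this, mul_app]
    exact ⟨_, mul_mem (ng_mem_O _) hA, e1, key _ (e1 ▸ h)⟩

theorem ts_L (hT : St Q₁ Q₂ Q) {w : W} (hw : Q₂ w = 0) : TS Q (TL U (B Q₂ w)) := by
  rintro _ ⟨u, rfl⟩; exact (hT.Q_pt w u).trans (by simp [hw])

theorem mem_perp_L (hT : St Q₁ Q₂ Q) {w : W} {v : W →ₗ[F] U} :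
    v ∈ perp Q (TL U (B Q₂ w)) ↔ v w = 0 := by
  constructor
  · intro h
    exact hT.n1 _ fun u => by rw [← hT.hB]; exact h _ (rk_mem_TL _ u)
  · rintro h _ ⟨u, rfl⟩
    exact (hT.hB w u v).trans (by simp [h])

theorem mem_L (hT : St Q₁ Q₂ Q) {w : W} {v : W →ₗ[F] U}
    (h : ∀ x : W →ₗ[F] U, x w = 0 → B Q x v = 0) : ∃ u, v = pt Q₂ w u := by
  have : v ∈ TL U (B Q₂ w) := by
    rw [← hT.nd.perp_perp (TL U (B Q₂ w))]
    exact fun x hx => h x (hT.mem_perp_L.1 hx)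
  exact this.imp fun _ h => h.symm

/-- `L^⊥` is spanned by pure tensors -/
theorem perp_ind (hT : St Q₁ Q₂ Q) {w : W} (hw : w ≠ 0) (Z : Submodule F (W →ₗ[F] U))
    (h : ∀ z u, B Q₂ w z = 0 → pt Q₂ z u ∈ Z) {v : W →ₗ[F] U} (hv : v w = 0) : v ∈ Z := by
  rw [← hT.nd.perp_perp Z]
  refine perp_anti (U := perp Q Z) (W := TL U (B Q₂ w)) (fun x hx => ?_) (hT.mem_perp_L.2 hv)
  exact mem_TL_of (B_ne_zero hT.n2 hw) fun z hz => hT.n1 _ fun u => by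
    rw [← hT.hB]; exact hx _ (h z u hz)

theorem partner (hT : St Q₁ Q₂ Q) {w : W} (hw : Q₂ w = 0) (hw0 : w ≠ 0) :
    ∃ w', Q₂ w' = 0 ∧ B Q₂ w w' = 1 := by
  obtain ⟨e, -, h⟩ := exists_partner (H := ⊤) trivial hw
    (by obtain ⟨y, hy⟩ := hT.n2.exists_B_ne hw0; exact ⟨y, trivial, hy⟩)
  exact ⟨e, h⟩

end St

omit [FiniteDimensional F U] in
theorem ndOn_hyp {u e : U} (hu : Q₁ u = 0) (he : Q₁ e = 0) (hue : B Q₁ u e ≠ 0) :
    NdOn Q₁ (Submodule.span F {u, e}) := by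
  intro v hv h
  obtain ⟨a, b, rfl⟩ := Submodule.mem_span_pair.1 hv
  have h3 := h u (Submodule.subset_span (by simp))
  have h4 := h e (Submodule.subset_span (by simp))
  simp [B_self, hu, he, hue, B_comm Q₁ e u] at h3 h4
  simp [h3, h4]

omit [FiniteDimensional F U] in
theorem ndOn_one (h2 : (2 : F) ≠ 0) {u : U} (hu : Q₁ u ≠ 0) : NdOn Q₁ (F ∙ u) := by
  intro v hv h
  obtain ⟨c, rfl⟩ := Submodule.mem_span_singleton.1 hv
  have := h u (Submodule.mem_span_singleton_self _)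
  simp [B_self, hu, h2] at this
  simp [this]

omit [FiniteDimensional F U] in
theorem ndOn_two (h2 : (2 : F) ≠ 0) {u e : U} (hu : Q₁ u ≠ 0) (he : Q₁ e ≠ 0)
    (hue : B Q₁ u e = 0) : NdOn Q₁ (Submodule.span F {u, e}) := by
  intro v hv h
  obtain ⟨a, b, rfl⟩ := Submodule.mem_span_pair.1 hv
  have h3 := h u (Submodule.subset_span (by simp))
  have h4 := h e (Submodule.subset_span (by simp))
  simp [B_self, hu, he, hue, B_comm Q₁ e u, h2] at h3 h4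
  simp [h3, h4]

theorem eich_pow {u w : U} (hu : Q₁ u = 0) (hw : B Q₁ u w = 0) (n : ℕ) :
    eich Q₁ u w ^ n = eich Q₁ u ((n : F) • w) := by
  induction n with
  | zero => simp [eich_zero]
  | succ n ih => rw [pow_succ, ih, eich_mul hu (by simp [hw]) hw]; simp [add_smul]

theorem eich_pow_char {p : ℕ} [CharP F p] (u w : U) : eich Q₁ u w ^ p = 1 := by
  by_cases h : Q₁ u = 0 ∧ B Q₁ u w = 0
  · rw [eich_pow h.1 h.2]; simp [eich_zero]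
  · rw [eich_of_not h, one_pow]

variable [Finite F]

namespace St

/-- `{A | A ⊗ 1 ∈ Ω}` -/
def G1 (Q₁ : QuadraticForm F U) (Q : QuadraticForm F (W →ₗ[F] U)) : Subgroup (U ≃ₗ[F] U) where
  carrier := {A | A ∈ O Q₁ ∧ kr A (1 : W ≃ₗ[F] W) ∈ EO Q}
  mul_mem' := fun {a b} ha hb => ⟨mul_mem ha.1 hb.1, by
    simpa [kr_mul] using mul_mem ha.2 hb.2⟩
  one_mem' := ⟨one_mem _, by rw [kr_one]; exact one_mem _⟩
  inv_mem' := fun {a} ha => ⟨inv_mem ha.1, by simpa [kr_inv] using inv_mem ha.2⟩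

/-- `{C | 1 ⊗ C ∈ Ω}` -/
def G2 (Q₂ : QuadraticForm F W) (Q : QuadraticForm F (W →ₗ[F] U)) : Subgroup (W ≃ₗ[F] W) where
  carrier := {C | C ∈ O Q₂ ∧ kr (1 : U ≃ₗ[F] U) C ∈ EO Q}
  mul_mem' := fun {a b} ha hb => ⟨mul_mem ha.1 hb.1, by
    simpa [kr_mul] using mul_mem hb.2 ha.2⟩
  one_mem' := ⟨one_mem _, by rw [kr_one]; exact one_mem _⟩
  inv_mem' := fun {a} ha => ⟨inv_mem ha.1, by simpa [kr_inv] using inv_mem ha.2⟩

theorem refl_G1 (hT : St Q₁ Q₂ Q) (x y : U) (hx : Q₁ x ≠ 0) (h : Q₁ x = Q₁ y) :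
    refl Q₁ x * refl Q₁ y ∈ G1 Q₁ Q := by
  obtain ⟨g, hg, h1⟩ := exists_conj_refl hT.h2 hx h
  refine ⟨mul_mem (refl_mem_O _ _) (refl_mem_O _ _), ?_⟩
  have := hT.nd.commutator_mem_EO hT.dim (hT.kr_mem_O (refl_mem_O _ x) (one_mem _))
    (hT.kr_mem_O hg (one_mem _))
  simpa [kr_mul, kr_inv, h1, refl_inv, mul_assoc] using this

theorem refl_G2 (hT : St Q₁ Q₂ Q) (x y : W) (hx : Q₂ x ≠ 0) (h : Q₂ x = Q₂ y) :
    refl Q₂ x * refl Q₂ y ∈ G2 Q₂ Q := by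
  obtain ⟨g, hg, h1⟩ := exists_conj_refl hT.h2 hx h
  refine ⟨mul_mem (refl_mem_O _ _) (refl_mem_O _ _), ?_⟩
  have := hT.nd.commutator_mem_EO hT.dim (hT.kr_mem_O (one_mem _) (inv_mem hg))
    (hT.kr_mem_O (one_mem _) (refl_mem_O _ x))
  simpa [kr_mul, kr_inv, h1, refl_inv, mul_assoc] using this

theorem eich_G1 (hT : St Q₁ Q₂ Q) (x y : U) : eich Q₁ x y ∈ G1 Q₁ Q := by
  obtain ⟨p, hp⟩ := CharP.exists F
  haveI : Fact p.Prime := ⟨CharP.char_is_prime F p⟩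
  exact ⟨eich_mem_O _ _, odd_mem_EO hT.nd hT.dim (hT.kr_mem_O (eich_mem_O _ _) (one_mem _))
    (odd_char (p := p) hT.h2) (by rw [kr_pow, eich_pow_char, one_pow, kr_one])⟩

theorem eich_G2 (hT : St Q₁ Q₂ Q) (x y : W) : eich Q₂ x y ∈ G2 Q₂ Q := by
  obtain ⟨p, hp⟩ := CharP.exists F
  haveI : Fact p.Prime := ⟨CharP.char_is_prime F p⟩
  exact ⟨eich_mem_O _ _, odd_mem_EO hT.nd hT.dim (hT.kr_mem_O (one_mem _) (eich_mem_O _ _))
    (odd_char (p := p) hT.h2) (by rw [kr_pow, eich_pow_char, one_pow, kr_one])⟩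

theorem sq_G2 (hT : St Q₁ Q₂ Q) {C : W ≃ₗ[F] W} (hC : C ∈ O Q₂) : C * C ∈ G2 Q₂ Q :=
  ⟨mul_mem hC hC, by
    simpa [kr_mul] using hT.nd.sq_mem_EO hT.dim (hT.kr_mem_O (one_mem _) hC)⟩

theorem hyp_perp (hT : St Q₁ Q₂ Q) {w w' : W} (hw : Q₂ w = 0) (hw' : Q₂ w' = 0)
    (h : B Q₂ w w' ≠ 0) (c : F) : ∃ x, B Q₂ w x = 0 ∧ B Q₂ w' x = 0 ∧ Q₂ x = c := by
  have := finrank_perp_ge (Q := Q₂) (Submodule.span F {w, w'})
  have := Orth.finrank_span_pair_le (F := F) w w'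
  have := hT.hb
  obtain ⟨x, hx, h1⟩ := ((ndOn_hyp hw hw' h).perp hT.n2).exists_Q_eq le_rfl (by omega) c
  exact ⟨x, mem_perp_span.1 hx w (by simp), mem_perp_span.1 hx w' (by simp), h1⟩

theorem sing_trans (hT : St Q₁ Q₂ Q) {w₁ w₂ : W} (h1 : Q₂ w₁ = 0) (h2 : Q₂ w₂ = 0)
    (h3 : w₁ ≠ 0) (h4 : w₂ ≠ 0) : ∃ C ∈ G2 Q₂ Q, C w₁ = w₂ := by
  have key : ∀ w₁ w₂ : W, Q₂ w₁ = 0 → Q₂ w₂ = 0 → B Q₂ w₁ w₂ ≠ 0 → ∃ C ∈ G2 Q₂ Q, C w₁ = w₂ := by
    intro w₁ w₂ h1 h2 h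
    have h3 : Q₂ (w₂ - w₁) ≠ 0 := by simpa [Q_sub, h1, h2, B_comm Q₂ w₂] using h
    obtain ⟨x, -, h5, h6⟩ := hT.hyp_perp h1 h2 h (Q₂ (w₂ - w₁))
    refine ⟨_, hT.refl_G2 x (w₂ - w₁) (h6 ▸ h3) h6, ?_⟩
    rw [mul_app, refl_sub_apply (h1.trans h2.symm) h3, refl_of_perp (by rw [B_comm, h5])]
  obtain ⟨e, he, h5, h6⟩ : ∃ e, Q₂ e = 0 ∧ B Q₂ w₁ e ≠ 0 ∧ B Q₂ e w₂ ≠ 0 := by
    obtain ⟨e, he, h5⟩ := hT.partner h1 h3
    by_cases h6 : B Q₂ e w₂ = 0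
    · by_cases h7 : B Q₂ w₁ w₂ = 0
      · obtain ⟨f, hf, hf0, h8⟩ := exists_partner (H := perp Q₂ (Submodule.span F {w₁, e}))
          (mem_perp_span.2 (by rintro _ (rfl | rfl) <;> assumption)) h2
          (((ndOn_hyp h1 he (by simp [h5])).perp hT.n2).exists_B_ne
            (mem_perp_span.2 (by rintro _ (rfl | rfl) <;> assumption)) h4)
        have b1 : B Q₂ w₁ f = 0 := mem_perp_span.1 hf w₁ (by simp)
        have b2 : B Q₂ e f = 0 := mem_perp_span.1 hf e (by simp)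
        exact ⟨e + f, by simp [Q_add, he, hf0, b2], by simp [h5, b1],
          by simp [h6, B_comm Q₂ f, h8]⟩
      · obtain ⟨x, h8, h9, h10⟩ := hT.hyp_perp h1 h2 h7 (-B Q₂ w₁ w₂)
        exact ⟨x + w₁ + w₂, by simp [Q_add, h1, h2, h10, B_comm Q₂ x, h8, h9],
          by simp [h8, B_self, h1, h7], by simp [B_comm Q₂ x, h9, B_self, h2, h7]⟩
    · exact ⟨e, he, by simp [h5], h6⟩
  obtain ⟨C, hC, h7⟩ := key _ _ h1 he h5
  obtain ⟨D, hD, h8⟩ := key _ _ he h2 h6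
  exact ⟨D * C, mul_mem hD hC, by rw [mul_app, h7, h8]⟩

theorem exists_sing (hT : St Q₁ Q₂ Q) : ∃ w, Q₂ w = 0 ∧ w ≠ 0 := by
  obtain ⟨s, -, h1, h2⟩ := exists_sing_of_three (Q := Q₂) ⊤ (by have := hT.hb; simp; omega)
  exact ⟨s, h2, h1⟩

theorem good1 (hT : St Q₁ Q₂ Q) :
    ∃ c : F, c ≠ 0 ∧ ∀ u, Q₁ u = c → kr (refl Q₁ u) (1 : W ≃ₗ[F] W) ∈ PM (EO Q) := by
  obtain ⟨u, -, hu, A, hA, h1, -⟩ := exists_neg hT.n1 hT.h2 (G1 Q₁ Q) hT.refl_G1 ⊤ hT.n1.ndOn_top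
    (by simpa using hT.odd)
  refine ⟨_, hu, fun u' hu' => Or.inr ?_⟩
  convert (mul_mem (inv_mem hA) (hT.refl_G1 u u' hu hu'.symm)).2 using 1
  rw [ng_eq_kr, kr_mul, ← mul_assoc]
  congr 2
  rw [eq_inv_mul_iff_mul_eq]
  ext x
  rw [mul_app, ng_apply, ← refl_refl Q₁ u (A _), h1 _ trivial, neg_neg]

theorem good2 (hT : St Q₁ Q₂ Q) (hb : Odd (finrank F W)) :
    ∃ c : F, c ≠ 0 ∧ ∀ x, Q₂ x = c → kr (1 : U ≃ₗ[F] U) (refl Q₂ x) ∈ PM (EO Q) := by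
  obtain ⟨u, -, hu, A, hA, h1, -⟩ := exists_neg hT.n2 hT.h2 (G2 Q₂ Q) hT.refl_G2 ⊤ hT.n2.ndOn_top
    (by simpa using hb)
  refine ⟨_, hu, fun u' hu' => Or.inr ?_⟩
  convert (mul_mem (inv_mem hA) (hT.refl_G2 u u' hu hu'.symm)).2 using 1
  rw [ng_eq_kr', kr_mul, ← mul_assoc, ← ng_comm]
  congr 2
  rw [eq_inv_mul_iff_mul_eq]
  ext x
  rw [mul_app, ng_apply, ← refl_refl Q₂ u (A _), h1 _ trivial, neg_neg]

theorem decomp (hT : St Q₁ Q₂ Q) {u : U} (hu : Q₁ u ≠ 0) (v : W →ₗ[F] U) :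
    ∃ z, ∃ x ∈ TT W (perp Q₁ (F ∙ u)), v = pt Q₂ z u + x := by
  obtain ⟨z, hz⟩ := exists_B_eq hT.n2 ((2 * Q₁ u)⁻¹ • B Q₁ u ∘ₗ v)
  refine ⟨z, v - pt Q₂ z u, fun y => mem_perp_span_singleton.2 ?_, by abel⟩
  have := hT.h2
  simp [hz, B_self]; field_simp; ring

theorem refl_pt (hT : St Q₁ Q₂ Q) {u : U} (hu : Q₁ u ≠ 0) (x z : W) :
    refl Q (pt Q₂ x u) (pt Q₂ z u) = pt Q₂ (refl Q₂ x z) u := by
  have := hT.h2
  rw [refl_apply, refl_apply, hT.Q_pt, hT.hB]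
  simp only [pt_apply, map_smul, B_self, map_sub, LinearMap.sub_apply, LinearMap.smul_apply,
    smul_eq_mul, B_comm Q₂ z x]
  congr 2
  by_cases hx : Q₂ x = 0
  · simp [hx]
  · field_simp

theorem good_all (hT : St Q₁ Q₂ Q) (hb : Even (finrank F W)) (u : U) (hu : Q₁ u ≠ 0) :
    kr (refl Q₁ u) (1 : W ≃ₗ[F] W) ∈ PM (EO Q) := by
  obtain ⟨c, hc, h0⟩ := hT.good1
  obtain ⟨u₀, -, hu₀⟩ := hT.n1.ndOn_top.exists_Q_eq le_rfl (by have := hT.ha; simp; omega) c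
  have hp : ∀ {u : U} (x : W), ∀ v ∈ TT W (perp Q₁ (F ∙ u)), refl Q (pt Q₂ x u) v = v :=
    fun x v hv => refl_of_perp (by rw [hT.hB]; exact mem_perp_span_singleton.1 (hv x))
  let Γ : Subgroup (W ≃ₗ[F] W) :=
    { carrier := {C | ∀ u, Q₁ u ≠ 0 → ∃ g ∈ EO Q, (∀ z, g (pt Q₂ z u) = pt Q₂ (C z) u) ∧
        ∀ v ∈ TT W (perp Q₁ (F ∙ u)), g v = v}
      mul_mem' := fun {a b} ha hb u hu => by
        obtain ⟨g, hg, h1, h2⟩ := ha u hu
        obtain ⟨k, hk, h3, h4⟩ := hb u hu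
        exact ⟨g * k, mul_mem hg hk, fun z => by rw [mul_app, h3, h1, mul_app],
          fun v hv => by rw [mul_app, h4 v hv, h2 v hv]⟩
      one_mem' := fun u _ => ⟨1, one_mem _, fun _ => rfl, fun _ _ => rfl⟩
      inv_mem' := fun {a} ha u hu => by
        obtain ⟨g, hg, h1, h2⟩ := ha u hu
        exact ⟨g⁻¹, inv_mem hg, fun z => g.injective (by rw [h1]; simp),
          fun v hv => g.injective (by rw [h2 v hv]; simp)⟩ }
  obtain ⟨x, -, hx⟩ := hT.n2.ndOn_top.exists_nonsing le_rfl (by have := hT.hb; simp; omega)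
  have e1 := hT.n2.finrank_perp (F ∙ x)
  rw [finrank_span_singleton (by rintro rfl; simp at hx)] at e1
  obtain ⟨y, hy, hy0, A, hA, h1, h2⟩ := exists_neg hT.n2 hT.h2 Γ (fun x y hx h u hu =>
    ⟨_, hT.nd.refl_mul_refl_mem_EO hT.dim (a := pt Q₂ x u) (b := pt Q₂ y u)
      (by rw [hT.Q_pt, hT.Q_pt, h]), fun z => by rw [mul_app, hT.refl_pt hu, hT.refl_pt hu, mul_app],
      fun v hv => by rw [mul_app, hp y v hv, hp x v hv]⟩) _ ((ndOn_one hT.h2 hx).perp hT.n2)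
    (by rw [← e1, Nat.even_add_one, Nat.not_even_iff_odd] at hb; exact hb)
  have h3 : ∀ z, refl Q₂ x (refl Q₂ y (A z)) = -z := fun z => by
    obtain ⟨a, ha, b, hb, rfl⟩ := (ndOn_one hT.h2 hx).exists_decomp z
    obtain ⟨c, rfl⟩ := Submodule.mem_span_singleton.1 ha
    rw [map_add, map_add, h1 b hb, h2 _ (le_perp_perp _ ha), map_add, map_neg,
      refl_of_perp (mem_perp_span_singleton.1 hb), map_smul,
      refl_of_perp (a := y) (by rw [B_comm]; exact mem_perp_span_singleton.1 hy), map_smul,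
      refl_self hx]
    simp; abel
  have h4 : ∀ u, Q₁ u ≠ 0 → ∃ g ∈ EO Q, kr (refl Q₁ u) (1 : W ≃ₗ[F] W) =
      refl Q (pt Q₂ x u) * refl Q (pt Q₂ y u) * g := fun u hu => by
    obtain ⟨g, hg, h5, h6⟩ := hA u hu
    refine ⟨g, hg, LinearEquiv.ext fun v => ?_⟩
    obtain ⟨z, v, hv, rfl⟩ := hT.decomp hu v
    simp only [map_add, mul_app, h5, h6 v hv, hT.refl_pt hu, hp _ v hv, h3]
    congr 1
    · ext; simp [refl_self hu]
    · ext y; simp [refl_of_perp (mem_perp_span_singleton.1 (hv y))]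
  obtain ⟨g, hg, h5⟩ := h4 u hu
  obtain ⟨g₀, hg₀, h6⟩ := h4 u₀ (hu₀ ▸ hc)
  have hO := fun v => refl_mem_O Q v
  have hr : ∀ a b, Q a ≠ 0 → Q b ≠ 0 → IsSquare (Q a * Q b) → refl Q a * refl Q b ∈ EO Q :=
    fun a b ha hb h => by
      obtain ⟨c, hc, h⟩ := ratio_of_sq ha hb h
      exact hT.nd.refl_mul_refl_mem_EO' hT.dim hc h
  have hn : ∀ {x u}, Q₂ x ≠ 0 → Q₁ u ≠ 0 → Q (pt Q₂ x u) ≠ 0 := fun hx hu => by
    rw [hT.Q_pt]; exact mul_ne_zero (mul_ne_zero hT.h2 hu) hx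
  have hu0 : Q₁ u₀ ≠ 0 := hu₀ ▸ hc
  have h7 : refl Q (pt Q₂ x u) * refl Q (pt Q₂ y u) * (refl Q (pt Q₂ x u₀) * refl Q (pt Q₂ y u₀))
      ∈ EO Q := by
    rcases sq_or (mul_ne_zero hx hy0) (mul_ne_zero hu hu0) with ⟨s, h⟩ | ⟨s, h⟩ | ⟨s, h⟩
    · exact mul_mem (hr _ _ (hn hx hu) (hn hy0 hu) ⟨2 * Q₁ u * s, by
        rw [hT.Q_pt, hT.Q_pt]; linear_combination (2 * Q₁ u) ^ 2 * h⟩)
        (hr _ _ (hn hx hu0) (hn hy0 hu0) ⟨2 * Q₁ u₀ * s, by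
        rw [hT.Q_pt, hT.Q_pt]; linear_combination (2 * Q₁ u₀) ^ 2 * h⟩)
    · have := mul_mem (mul_mem (conj_mem_EO (hO (pt Q₂ x u)) (hT.nd.commutator_mem_EO hT.dim
        (hO (pt Q₂ y u)) (hO (pt Q₂ x u₀)))) (hr _ _ (hn hx hu) (hn hx hu0) ⟨2 * Q₂ x * s, by
        rw [hT.Q_pt, hT.Q_pt]; linear_combination (2 * Q₂ x) ^ 2 * h⟩))
        (hr _ _ (hn hy0 hu) (hn hy0 hu0) ⟨2 * Q₂ y * s, by
        rw [hT.Q_pt, hT.Q_pt]; linear_combination (2 * Q₂ y) ^ 2 * h⟩)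
      convert this using 1; group
    · have := mul_mem (conj_mem_EO (hO (pt Q₂ x u)) (hr _ _ (hn hy0 hu) (hn hx hu0) ⟨2 * s, by
        rw [hT.Q_pt, hT.Q_pt]; linear_combination 4 * h⟩))
        (hr _ _ (hn hx hu) (hn hy0 hu0) ⟨2 * s, by
        rw [hT.Q_pt, hT.Q_pt]; linear_combination 4 * h⟩)
      convert this using 1; group
  have h8 := mul_mem (mul_mem (conj_mem_EO (mul_mem (hO (pt Q₂ x u)) (hO (pt Q₂ y u))) hg) h7) hg₀
  have h9 := mul_mem (le_PM _ h8) (inv_mem (h0 u₀ hu₀))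
  convert h9 using 1
  rw [h5, h6]; group

end St

end Cfsg.Agent.Orth.OO
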