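import Cfsg.Agent.Orth.OO3

/-! `O ⊗ O` in `Ω`, part 4: the centre of the unipotent radical. -/

set_option autoImplicit false
set_option linter.unusedSimpArgs false
set_option linter.unusedSectionVars false

namespace Cfsg.Agent.Orth.OO

open Module Cfsg.Agent.H6
open Cfsg.Agent.H9.Sp (exists_ne_ne)

attribute [-simp] LinearEquiv.coe_inv Submodule.mem_map_equiv

variable {F : Type*} [Field F] [Finite F] {U : Type*} [AddCommGroup U] [Module F U]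
  {W : Type*} [AddCommGroup W] [Module F W] [FiniteDimensional F U] [FiniteDimensional F W]

/-- a proper overgroup of the tensor product group -/
structure Ctx (Q₁ : QuadraticForm F U) (Q₂ : QuadraticForm F W)
    (Q : QuadraticForm F (W →ₗ[F] U)) (M : Subgroup ((W →ₗ[F] U) ≃ₗ[F] (W →ₗ[F] U))) : Prop where
  T : St Q₁ Q₂ Q
  hM : M ≤ PM (EO Q)
  hH : ∀ g ∈ PM (EO Q), Kron g → g ∈ M
  hne : ¬ EO Q ≤ M

variable {Q₁ : QuadraticForm F U} {Q₂ : QuadraticForm F W} {Q : QuadraticForm F (W →ₗ[F] U)}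
  {M : Subgroup ((W →ₗ[F] U) ≃ₗ[F] (W →ₗ[F] U))}

theorem Ctx.le_O (hC : Ctx Q₁ Q₂ Q M) : M ≤ O Q := hC.hM.trans (PM_le EO_le_O (ng_mem_O Q))

theorem Ctx.krU (hC : Ctx Q₁ Q₂ Q M) {A : U ≃ₗ[F] U} (hA : A ∈ St.G1 Q₁ Q) :
    kr A (1 : W ≃ₗ[F] W) ∈ M := hC.hH _ (le_PM _ hA.2) (kr_kron _ _)

theorem Ctx.krW (hC : Ctx Q₁ Q₂ Q M) {C : W ≃ₗ[F] W} (h : C ∈ St.G2 Q₂ Q) :
    kr (1 : U ≃ₗ[F] U) C ∈ M := hC.hH _ (le_PM _ h.2) (kr_kron _ _)

theorem Ctx.ng_mem (hC : Ctx Q₁ Q₂ Q M) : ng F (W →ₗ[F] U) ∈ M :=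
  hC.hH _ (ng_mem_PM _) (by rw [ng_eq_kr]; exact kr_kron _ _)

theorem Ctx.good (hC : Ctx Q₁ Q₂ Q M) :
    ∃ c : F, c ≠ 0 ∧ ∀ u, Q₁ u = c → kr (refl Q₁ u) (1 : W ≃ₗ[F] W) ∈ M :=
  hC.T.good1.imp fun _ h => ⟨h.1, fun u hu => hC.hH _ (h.2 u hu) (kr_kron _ _)⟩

theorem St.exists_perp (hT : St Q₁ Q₂ Q) {u : U} (hu : Q₁ u ≠ 0) (c : F) :
    ∃ x, B Q₁ u x = 0 ∧ Q₁ x = c := by
  have := finrank_perp_ge (Q := Q₁) (F ∙ u)
  have := finrank_span_singleton_le (F := F) u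
  have := hT.ha
  obtain ⟨x, hx, h1⟩ := ((ndOn_one hT.h2 hu).perp hT.n1).exists_Q_eq le_rfl (by omega) c
  exact ⟨x, mem_perp_span_singleton.1 hx, h1⟩

theorem St.exists_Q (hT : St Q₁ Q₂ Q) (c : F) : ∃ u, Q₁ u = c := by
  obtain ⟨u₀, -, hu₀⟩ := hT.n1.ndOn_top.exists_Q_eq le_rfl (by have := hT.ha; simp; omega) c
  exact ⟨u₀, hu₀⟩

theorem St.EO_le (hT : St Q₁ Q₂ Q) (hM : M ≤ O Q)
    (h : ∀ w x y, Q₂ w = 0 → eich Q (pt Q₂ w x) (pt Q₂ w y) ∈ M) : EO Q ≤ M := by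
  have h2 := hT.h2
  let A : ∀ e, Q e = 0 → AddSubgroup (W →ₗ[F] U) := fun e he =>
    { carrier := {y | B Q e y = 0 ∧ eich Q e y ∈ M}
      add_mem' := fun {a b} ha hb => ⟨by simp [ha.1, hb.1], by
        rw [← eich_mul he ha.1 hb.1]; exact mul_mem ha.2 hb.2⟩
      zero_mem' := ⟨by simp, by rw [eich_zero]; exact one_mem _⟩
      neg_mem' := fun {a} ha => ⟨by simp [ha.1], by
        rw [← eich_inv he ha.1]; exact inv_mem ha.2⟩ }
  have hA : ∀ e (he : Q e = 0) g, g ∈ M → g e = e → ∀ y ∈ A e he, g y ∈ A e he :=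
    fun e he g hg h1 y hy => ⟨by rw [← h1, O_B (hM hg)]; exact hy.1, by
      simpa [h1] using eich_conj_mem hM hg hy.2⟩
  have q0 : ∀ {w} (u : U), Q₂ w = 0 → Q (pt Q₂ w u) = 0 := fun u hw => by simp [hT.Q_pt, hw]
  have h0 : ∀ {w} (hw : Q₂ w = 0) u s, pt Q₂ w s ∈ A _ (q0 u hw) := fun hw u s =>
    ⟨by simp [hT.hB, B_self, hw], h _ _ _ hw⟩
  have h1 : ∀ {w} (hw : Q₂ w = 0) u, Q₁ u ≠ 0 → ∀ w₂, Q₂ w₂ = 0 → B Q₂ w w₂ = 1 → ∀ s,
      B Q₁ u s = 0 → pt Q₂ w₂ s ∈ A _ (q0 u hw) := by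
    intro w hw u hu w₂ hw₂ hb s hs
    have := finrank_perp_ge (Q := Q₁) (F ∙ u)
    have := finrank_span_singleton_le (F := F) u
    have := hT.ha
    obtain ⟨u₂, hu₂, h3⟩ := exists_not_mem_one (K := perp Q₁ (F ∙ u)) (by omega) s
    replace hu₂ := mem_perp_span_singleton.1 hu₂
    obtain ⟨s₀, h4, h5⟩ := exists_vec_pair (φ := B Q₁ s) (ψ := B Q₁ u₂) fun c hc =>
      h3 c (B_ext hT.n1 fun z => by rw [B_comm, hc, B_comm Q₁ z]; simp)
    have h6 := hA _ (q0 u hw) _ (h w₂ u₂ s hw₂) (eich_apply_of_perp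
      (by simp [hT.hB, B_comm Q₁ u₂, hu₂]) (by simp [hT.hB, B_comm Q₁ s, hs])) _ (h0 hw u s₀)
    rw [eich_apply (q0 _ hw₂) (by simp [hT.hB, B_self, hw₂])] at h6
    simpa [hT.hB, hb, h4, h5, q0 _ hw₂] using AddSubgroup.sub_mem _ h6 (h0 hw u s₀)
  have h3 : ∀ {w} (hw : Q₂ w = 0) u, w ≠ 0 → Q₁ u ≠ 0 → ∀ z s,
      B Q₁ u s = 0 → pt Q₂ z s ∈ A _ (q0 u hw) := by
    intro w hw u hw0 hu z s hs
    obtain ⟨w', h4, h5⟩ := hT.partner hw hw0
    set y := z - B Q₂ w z • w' - B Q₂ w' z • w with hy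
    have b1 : B Q₂ w y = 0 := by simp [hy, h5, B_self, hw]
    have b2 : B Q₂ w' y = 0 := by simp [hy, h5, B_self, h4, B_comm Q₂ w' w]
    have := AddSubgroup.add_mem _ (AddSubgroup.add_mem _ (h0 hw u ((B Q₂ w' z + Q₂ y) • s))
      (h1 hw u hu w' h4 h5 ((B Q₂ w z - 1) • s) (by simp [hs])))
      (h1 hw u hu (w' + y - Q₂ y • w) (by
        simp [Q_sub, Q_add, Q_smul, h4, hw, b2, B_comm Q₂ w' w, h5, B_comm Q₂ y w, b1])
        (by simp [h5, b1, B_self, hw]) s hs)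
    convert this using 1
    simp only [hy, map_sub, map_add, map_smul, LinearMap.sub_apply, LinearMap.add_apply,
      LinearMap.smul_apply]
    module
  have h4 : ∀ {w} (hw : Q₂ w = 0) u, w ≠ 0 → Q₁ u ≠ 0 → Full Q M (pt Q₂ w u) := by
    intro w hw u hw0 hu v hv
    obtain ⟨w', h4, h5⟩ := hT.partner hw hw0
    obtain ⟨z, x, hx, rfl⟩ := hT.decomp hu v
    let Z : Submodule F (W →ₗ[F] U) :=
      { carrier := {x | ∀ c : F, c • x ∈ A _ (q0 u hw)}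
        add_mem' := fun ha hb c => by rw [smul_add]; exact AddSubgroup.add_mem _ (ha c) (hb c)
        zero_mem' := fun c => by rw [smul_zero]; exact AddSubgroup.zero_mem _
        smul_mem' := fun d x hx c => by rw [smul_smul]; exact hx _ }
    have h6 : x ∈ A _ (q0 u hw) := by
      simpa using hT.TT_ind Z (fun w r hr c => by
        rw [← map_smul]; exact h3 hw u hw0 hu _ _ (by simp [mem_perp_span_singleton.1 hr])) hx 1
    refine ((A _ (q0 u hw)).add_mem ?_ h6).2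
    have h7 : B Q₂ z w = 0 := by
      rw [map_add, h6.1, hT.hB] at hv
      simpa [B_self, h2, hu] using hv
    obtain ⟨u', h8, h9⟩ := hT.exists_perp hu 1
    have h10 := h3 h4 u' (by rintro rfl; simp at h5) (by simp [h9]) ((2 : F)⁻¹ • z) u
      (by rw [B_comm, h8])
    have h11 := hA _ (q0 u hw) _ h10.2 (eich_apply_of_perp
      (by simp [hT.hB, B_comm Q₁ u', h8]) (by simp [hT.hB, B_comm Q₂ w, h7])) _ (h0 hw u u')
    rw [eich_apply (q0 _ h4) h10.1] at h11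
    have := AddSubgroup.add_mem _ (AddSubgroup.sub_mem _ h11 (h0 hw u u')) (h3 hw u hw0 hu w'
      ((B Q (pt Q₂ ((2 : F)⁻¹ • z) u) (pt Q₂ w u') + Q (pt Q₂ ((2 : F)⁻¹ • z) u) *
        B Q (pt Q₂ w' u') (pt Q₂ w u')) • u') (by simp [h8]))
    convert this using 1
    rw [map_smul (pt Q₂ w'), hT.hB w' u']
    simp [h5, B_self, h9, smul_smul, h2]
    abel
  obtain ⟨w, hw, hw0⟩ := hT.exists_sing
  obtain ⟨w', h5, h6⟩ := hT.partner hw hw0
  obtain ⟨u, hu⟩ := hT.exists_Q 1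
  exact EO_le_of_full hT.nd hT.dim hM (q0 u hw) (q0 u h5) (h4 hw u hw0 (by simp [hu]))
    (h4 h5 u (by rintro rfl; simp at h6) (by simp [hu]))
    (by simp [hT.hB, B_comm Q₂ w', h6, B_self, hu, h2])

theorem Ctx.centre (hC : Ctx Q₁ Q₂ Q M) {w : W} (hw : Q₂ w = 0) (hw0 : w ≠ 0)
    {z : (W →ₗ[F] U) ≃ₗ[F] (W →ₗ[F] U)} (hz : z ∈ M) (h : ∀ v, v w = 0 → z v = v) : z = 1 := by
  by_contra hne
  have hT := hC.T
  have h2 := hT.h2
  obtain ⟨w', h4, h5⟩ := hT.partner hw hw0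
  let ZA : AddSubgroup (U →ₗ[F] U) :=
    { carrier := {A | ∀ w, Q₂ w = 0 → ∃ g ∈ M, ∀ v, g v = v + pt Q₂ w (A (v w))}
      add_mem' := fun {a b} ha hb w hw => by
        obtain ⟨g, hg, h1⟩ := ha w hw
        obtain ⟨k, hk, h3⟩ := hb w hw
        exact ⟨g * k, mul_mem hg hk, fun v => by
          rw [mul_app, h1, h3]; simp [B_self, hw]; abel⟩
      zero_mem' := fun w _ => ⟨1, one_mem _, fun v => by simp⟩
      neg_mem' := fun {a} ha w hw => by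
        obtain ⟨g, hg, h1⟩ := ha w hw
        exact ⟨g⁻¹, inv_mem hg, fun v => g.injective (by
          rw [h1 (v + _)]; simp [B_self, hw])⟩ }
  let Z : Submodule F (U →ₗ[F] U) :=
    { ZA with
      smul_mem' := fun c a ha => smul_of_sq h2 ZA (fun c _ a ha w hw => by
        obtain ⟨g, hg, h1⟩ := ha (c • w) (by simp [Q_smul, hw])
        exact ⟨g, hg, fun v => by simp [h1, smul_smul]⟩) c ha }
  have hsk : ∀ A ∈ Z, ∀ x y, B Q₁ x (A y) = -B Q₁ (A x) y := fun A hA x y => by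
    obtain ⟨g, hg, h1⟩ := hA w hw
    have := O_B (hC.le_O hg) (pt Q₂ w' x) (pt Q₂ w' y)
    simp [h1, hT.hB, B_comm Q₂ w' w, h5, B_self, hw, h4] at this
    linear_combination this
  have hcj : ∀ D : U ≃ₗ[F] U, kr D (1 : W ≃ₗ[F] W) ∈ M → ∀ A ∈ Z, cj D A ∈ Z := by
    intro D hD A hA w hw
    obtain ⟨g, hg, h1⟩ := hA w hw
    refine ⟨_, mul_mem (mul_mem hD hg) (inv_mem hD), fun v => ?_⟩
    ext y; simp [mul_app, h1]
  have had : ∀ x y, ∀ A ∈ Z, wd Q₁ x (A y) + wd Q₁ (A x) y ∈ Z := fun x y A hA => by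
    have := so_closed hT.n1 h2 hT.ha hT.hq (Z.comap (LinearMap.proj (R := F) (φ := fun _ : Unit =>
      U →ₗ[F] U) ())) (fun u v _ _ S hS => hcj _ (hC.krU (hT.eich_G1 u v)) _ hS) x y
      (S := fun _ => A) hA
    convert Z.neg_mem this using 1
    ext v; simp [hsk A hA]; abel
  let A : U →ₗ[F] U := LinearMap.applyₗ w' ∘ₗ ((z : (W →ₗ[F] U) →ₗ[F] (W →ₗ[F] U)) - 1) ∘ₗ pt Q₂ w'
  have h6 : ∀ v, z v = v + pt Q₂ w (A (v w)) := fun v => by
    have h7 := h (v - pt Q₂ w' (v w)) (by simp [B_comm Q₂ w' w, h5])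
    obtain ⟨s, hs⟩ := sub_mem_of_fix_perp hT.nd (L := TL U (B Q₂ w)) (hC.le_O hz)
      (fun x hx => h x (hT.mem_perp_L.1 hx)) (pt Q₂ w' (v w))
    have h8 : A (v w) = s := by
      change (z (pt Q₂ w' (v w)) - pt Q₂ w' (v w)) w' = s
      rw [← hs]; simp [h5]
    rw [h8, pt_eq, hs, map_sub, sub_eq_iff_eq_add] at *
    rw [h7]; abel
  have hA : A ∈ Z := fun w₂ hw₂ => by
    by_cases h0 : w₂ = 0
    · exact ⟨1, one_mem _, fun v => by simp [h0]⟩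
    obtain ⟨C, hC', h7⟩ := hT.sing_trans hw₂ hw h0 hw0
    have h8 : C⁻¹ w = w₂ := by simp [← h7]
    refine ⟨_, mul_mem (mul_mem (hC.krW hC') hz) (inv_mem (hC.krW hC')), fun v => ?_⟩
    rw [mul_app, mul_app, h6, map_add, St.kr_pt hC'.1]
    simp [h8]
  obtain ⟨y, hy⟩ : ∃ y, A y ≠ 0 := by
    by_contra! h0
    exact hne (LinearEquiv.ext fun v => by simp [h6, h0])
  obtain ⟨c, hc, h7⟩ := hC.good
  obtain ⟨u, hu⟩ := hT.exists_Q c
  obtain ⟨s, hs0, hs, h8⟩ : ∃ s, s ≠ 0 ∧ B Q₁ u s = 0 ∧ wd Q₁ u s ∈ Z := by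
    by_cases h0 : A u = 0
    · refine ⟨A y, hy, by simp [hsk A hA, h0], ?_⟩
      convert had u y A hA using 1
      ext; simp [h0]
    · have h9 : B Q₁ u (A u) = 0 := by
        have := hsk A hA u u
        rw [B_comm Q₁ (A u)] at this
        exact mul_left_cancel₀ h2 (by linear_combination this)
      refine ⟨A u, h0, h9, ?_⟩
      convert Z.smul_mem c (Z.sub_mem (hcj _ (h7 u hu) A hA) hA) using 1
      ext x
      simp only [wd_apply, LinearMap.smul_apply, LinearMap.sub_apply, cj_apply, refl_inv,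
        refl_apply, map_sub, map_smul, h9, hu, hsk A hA u x, smul_eq_mul]
      match_scalars <;> field_simp <;> ring
  have h9 : ∀ y, wd Q₁ s y ∈ Z := fun y => by
    convert Z.smul_mem (-(2 * c)⁻¹) (Z.add_mem (had u y _ h8) (Z.smul_mem (B Q₁ u y) h8)) using 1
    ext x
    simp only [wd_apply, LinearMap.smul_apply, LinearMap.sub_apply, LinearMap.add_apply, map_sub,
      map_smul, hu, smul_eq_mul, B_self, B_comm Q₁ s u, hs]
    match_scalars <;> field_simp <;> ring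
  obtain ⟨x, hx⟩ := exists_apply_eq_one (B_ne_zero hT.n1 hs0)
  have h10 : ∀ y z, B Q₁ s z = 0 → wd Q₁ y z ∈ Z := fun y z hz => by
    convert Z.add_mem (Z.sub_mem (Z.smul_mem (B Q₁ y x) (h9 z)) (had x z _ (h9 y)))
      (Z.smul_mem (-B Q₁ y z) (h9 x)) using 1
    ext v
    simp only [wd_apply, LinearMap.smul_apply, LinearMap.sub_apply, LinearMap.add_apply, map_sub,
      map_smul, smul_eq_mul, hx, hz]
    module
  have h11 : ∀ y z, wd Q₁ y z ∈ Z := fun y z => by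
    convert Z.sub_mem (h10 y (z - B Q₁ s z • x) (by simp [hx]))
      (Z.smul_mem (B Q₁ s z) (h10 x (y - B Q₁ s y • x) (by simp [hx]))) using 1
    ext v
    simp only [wd_apply, LinearMap.smul_apply, LinearMap.sub_apply, LinearMap.add_apply, map_sub,
      map_smul, smul_eq_mul]
    module
  refine hC.hne (hT.EO_le hC.le_O fun w x y hw => ?_)
  obtain ⟨g, hg, h12⟩ := h11 y x w hw
  convert hg using 1
  ext v : 1
  rw [h12, eich_apply (by simp [hT.Q_pt, hw]) (by simp [hT.hB, B_self, hw])]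
  simp [hT.hB, hT.Q_pt, hw, add_sub_assoc]

end Cfsg.Agent.Orth.OO
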