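import Cfsg.Agent.Orth.OO4

/-! `O ⊗ O` in `Ω`, part 5: the unipotent radical. -/

set_option autoImplicit false
set_option linter.unusedSimpArgs false
set_option linter.unusedSectionVars false

namespace Cfsg.Agent.Orth.OO

open Module Cfsg.Agent.H6
open Cfsg.Agent.H9.Sp (exists_ne_ne)

attribute [-simp] LinearEquiv.coe_inv Submodule.mem_map_equiv

variable {F : Type*} [Field F] [Finite F] {U : Type*} [AddCommGroup U] [Module F U]
  {W : Type*} [AddCommGroup W] [Module F W] [FiniteDimensional F U] [FiniteDimensional F W]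
  {Q₁ : QuadraticForm F U} {Q₂ : QuadraticForm F W} {Q : QuadraticForm F (W →ₗ[F] U)}
  {M : Subgroup ((W →ₗ[F] U) ≃ₗ[F] (W →ₗ[F] U))}

variable (U Q₂) in
/-- `1 ⊗ E(w,y)` -/
noncomputable def rho (w y : W) : (W →ₗ[F] U) ≃ₗ[F] (W →ₗ[F] U) := kr 1 (eich Q₂ w y)

theorem rho_apply {w y : W} (hw : Q₂ w = 0) (hy : B Q₂ w y = 0) (v : W →ₗ[F] U) :
    rho U Q₂ w y v = v + pt Q₂ w (v y) - pt Q₂ y (v w) - Q₂ y • pt Q₂ w (v w) := by
  ext z
  simp only [rho, kr_apply, eich_apply hw hy, one_app, map_add, map_sub, map_smul,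
    LinearMap.add_apply, LinearMap.sub_apply, LinearMap.smul_apply, pt_apply]
  module

theorem rho_perp {w y : W} (hw : Q₂ w = 0) (hy : B Q₂ w y = 0) {v : W →ₗ[F] U} (hv : v w = 0) :
    rho U Q₂ w y v = v + pt Q₂ w (v y) := by simp [rho_apply hw hy, hv]

theorem rho_kron (w y : W) : Kron (rho U Q₂ w y) := kr_kron _ _

theorem Ctx.rho_mem (hC : Ctx Q₁ Q₂ Q M) (w y : W) : rho U Q₂ w y ∈ M := hC.krW (hC.T.eich_G2 _ _)

variable (Q₂ M) in
/-- the maps induced by the unipotent radical -/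
def NA (w : W) : AddSubgroup (W → (U →ₗ[F] U)) where
  carrier := {S | S w = 0 ∧ B Q₂ w w = 0 ∧ ∃ g ∈ M, ∀ z u, B Q₂ w z = 0 →
    g (pt Q₂ z u) = pt Q₂ z u + pt Q₂ w (S z u)} ∪ {0}
  add_mem' := by
    rintro a b (⟨h1, h0, g, hg, h2⟩ | rfl) (⟨h3, h5, k, hk, h4⟩ | rfl)
    · exact Or.inl ⟨by simp [h1, h3], h0, g * k, mul_mem hg hk, fun z u hz => by
        rw [mul_app, h4 z u hz, map_add, h2 z u hz, h2 w _ h0]; simp [h1]; abel⟩
    · exact Or.inl (by simpa using ⟨h1, h0, g, hg, h2⟩)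
    · exact Or.inl (by simpa using ⟨h3, h5, k, hk, h4⟩)
    · exact Or.inr (by simp)
  zero_mem' := Or.inr rfl
  neg_mem' := by
    rintro a (⟨h1, h0, g, hg, h2⟩ | rfl)
    · exact Or.inl ⟨by simp [h1], h0, g⁻¹, inv_mem hg, fun z u hz => g.injective (by
        rw [map_add, h2 z u hz, h2 w _ h0]; simp [h1])⟩
    · exact Or.inr (by simp)

theorem mem_NA {w : W} (hw : Q₂ w = 0) {S : W → (U →ₗ[F] U)} : S ∈ NA Q₂ M w ↔ S w = 0 ∧
    ∃ g ∈ M, ∀ z u, B Q₂ w z = 0 → g (pt Q₂ z u) = pt Q₂ z u + pt Q₂ w (S z u) := by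
  constructor
  · rintro (⟨h1, -, h⟩ | rfl)
    · exact ⟨h1, h⟩
    · exact ⟨rfl, 1, one_mem _, fun z u _ => by simp⟩
  · exact fun h => Or.inl ⟨h.1, B_self_of_sing _ hw, h.2⟩

theorem NA_congr {w : W} (hw : Q₂ w = 0) {S S' : W → (U →ₗ[F] U)} (hS : S ∈ NA Q₂ M w)
    (h : ∀ z, B Q₂ w z = 0 → S' z = S z) : S' ∈ NA Q₂ M w := by
  obtain ⟨h1, g, hg, h2⟩ := (mem_NA hw).1 hS
  exact (mem_NA hw).2 ⟨by rw [h w (B_self_of_sing _ hw), h1], g, hg, fun z u hz => by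
    rw [h z hz, h2 z u hz]⟩

theorem NA_cjU {w : W} (hw : Q₂ w = 0) {S : W → (U →ₗ[F] U)} (hS : S ∈ NA Q₂ M w)
    {D : U ≃ₗ[F] U} (hD : kr D (1 : W ≃ₗ[F] W) ∈ M) : (fun z => cj D (S z)) ∈ NA Q₂ M w := by
  obtain ⟨h1, g, hg, h2⟩ := (mem_NA hw).1 hS
  refine (mem_NA hw).2 ⟨by ext; simp [h1], _, mul_mem (mul_mem hD hg) (inv_mem hD),
    fun z u hz => ?_⟩
  rw [mul_app, mul_app, kr_inv, St.kr_pt (inv_mem (one_mem _)), h2 _ _ (by simpa using hz)]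
  ext; simp

theorem Ctx.NA_cjW (hC : Ctx Q₁ Q₂ Q M) {w : W} (hw : Q₂ w = 0) {S : W → (U →ₗ[F] U)}
    (hS : S ∈ NA Q₂ M w) {C : W ≃ₗ[F] W} (hD : C ∈ St.G2 Q₂ Q) {c : F} (h : c • C w = w)
    (h0 : S (C w) = 0) : (fun z => c • S (C z)) ∈ NA Q₂ M w := by
  obtain ⟨h1, g, hg, h2⟩ := (mem_NA hw).1 hS
  have h3 : C⁻¹ w = c • w := by nth_rewrite 1 [← h]; simp
  refine (mem_NA hw).2 ⟨by simp [h0], _,
    mul_mem (mul_mem (hC.krW hD) hg) (inv_mem (hC.krW hD)), fun z u hz => ?_⟩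
  rw [mul_app, mul_app, kr_inv, St.kr_pt (inv_mem hD.1), h2 _ _ (by
    rw [← h, inv_inv, map_smul, LinearMap.smul_apply, O_B hD.1, hz, smul_zero]), map_add,
    St.kr_pt hD.1, St.kr_pt hD.1, h3]
  simp

theorem Ctx.NA_add (hC : Ctx Q₁ Q₂ Q M) {w : W} (hw : Q₂ w = 0) (hw0 : w ≠ 0)
    {S : W → (U →ₗ[F] U)} (hS : S ∈ NA Q₂ M w) {z : W} (hz : B Q₂ w z = 0) (c : F) :
    S (z + c • w) = S z := by
  obtain ⟨h1, g, hg, h2⟩ := (mem_NA hw).1 hS
  ext u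
  have := h2 (z + c • w) u (by simp [hz, B_self, hw])
  simp only [map_add, map_smul, LinearMap.add_apply, LinearMap.smul_apply, h2 z u hz,
    h2 w u (B_self_of_sing _ hw), h1] at this
  exact hC.T.pt_inj hw0 (by simp at this; linear_combination (norm := module) -this)

theorem Ctx.NA_smul (hC : Ctx Q₁ Q₂ Q M) {w : W} (hw : Q₂ w = 0) (hw0 : w ≠ 0) (c : F)
    {S : W → (U →ₗ[F] U)} (hS : S ∈ NA Q₂ M w) : c • S ∈ NA Q₂ M w := by
  refine smul_of_sq hC.T.h2 _ (fun c hc S hS => ?_) c hS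
  obtain ⟨w', h4, h5⟩ := hC.T.partner hw hw0
  have h6 : ∀ z, B Q₂ w z = 0 → (refl Q₂ (w - c • w') * refl Q₂ (w - w')) z =
      z + ((c⁻¹ - 1) * B Q₂ w' z) • w := fun z hz => by
    have q1 : Q₂ (w - c • w') = -c := by simp [Q_sub, Q_smul, hw, h4, h5]
    have q2 : Q₂ (w - w') = -1 := by simp [Q_sub, Q_smul, hw, h4, h5]
    simp only [mul_app, refl_apply, q1, q2, hw, h4, h5, hz, map_sub, map_smul,
      LinearMap.sub_apply, LinearMap.smul_apply, B_self, B_comm Q₂ w' w, smul_eq_mul]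
    match_scalars <;> field_simp <;> ring
  set C := refl Q₂ (w - c • w') * refl Q₂ (w - w')
  have h7 : ∀ z, B Q₂ w z = 0 → S ((C * C) z) = S z := fun z hz => by
    rw [mul_app, h6 z hz, h6 _ (by simp [hz, B_self, hw]), hC.NA_add hw hw0 hS
      (by simp [hz, B_self, hw]), hC.NA_add hw hw0 hS hz]
  have h8 : C w = c⁻¹ • w := by
    rw [h6 w (B_self_of_sing _ hw), B_comm, h5]; module
  refine NA_congr hw (hC.NA_cjW hw hS (hC.T.sq_G2 (mul_mem (refl_mem_O _ _) (refl_mem_O _ _)))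
    (c := c * c) (by rw [mul_app, h8, map_smul, h8]; match_scalars; field_simp)
    (by rw [h7 w (B_self_of_sing _ hw), ((mem_NA hw).1 hS).1])) fun z hz => ?_
  rw [h7 z hz]; rfl

theorem Ctx.NA_comm (hC : Ctx Q₁ Q₂ Q M) {w : W} (hw : Q₂ w = 0) (hw0 : w ≠ 0)
    {S : W → (U →ₗ[F] U)} (hS : S ∈ NA Q₂ M w) {k : (W →ₗ[F] U) ≃ₗ[F] (W →ₗ[F] U)} (hk : k ∈ M)
    {z : W} (hz : B Q₂ w z = 0) {A : U →ₗ[F] U} (hA : ∀ x y, B Q₁ x (A y) = B Q₁ (A x) y)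
    (h : ∀ v, v w = 0 → k v = v + pt Q₂ w (A (v z))) (x y : U) :
    B Q₁ x (S z (A y)) = B Q₁ (S z (A x)) y := by
  have hT := hC.T
  obtain ⟨h1, g, hg, h2⟩ := (mem_NA hw).1 hS
  obtain ⟨w', h4, h5⟩ := hT.partner hw hw0
  have hww := B_self_of_sing _ hw
  have g1 : ∀ s, g (pt Q₂ w s) = pt Q₂ w s := fun s => by simp [h2 w s hww, h1]
  have k1 : ∀ s, k (pt Q₂ w s) = pt Q₂ w s := fun s => by simp [h _ (by simp [hww] :
    pt Q₂ w s w = 0), hz]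
  have g2 : ∀ v : W →ₗ[F] U, v w = 0 → ∃ s, g v = v + pt Q₂ w s := fun v hv => by
    obtain ⟨s, hs⟩ := hT.perp_ind hw0 ((LinearMap.range (pt Q₂ w)).comap
      ((g : (W →ₗ[F] U) →ₗ[F] (W →ₗ[F] U)) - 1)) (fun z u hz => ⟨S z u, by simp [h2 z u hz]⟩) hv
    exact ⟨s, by rw [hs]; simp⟩
  have hc := hC.centre hw hw0 (mul_mem (inv_mem (mul_mem hk hg)) (mul_mem hg hk)) fun v hv => by
    obtain ⟨s, hs⟩ := g2 v hv
    apply (k * g).injective
    simp only [mul_app, apply_inv_apply]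
    rw [h v hv, map_add, g1, hs, map_add, k1, h v hv]; abel
  have hc' := LinearEquiv.congr_fun (inv_mul_eq_one.1 hc) (pt Q₂ w' y)
  have e0 : pt Q₂ w' y w = y := by simp [B_comm Q₂ w' w, h5]
  set x₀ := pt Q₂ w' y
  obtain ⟨t, ht⟩ := hT.mem_L (w := w) (v := k x₀ - x₀ + pt Q₂ z (A y)) fun v hv => by
    have e1 := O_B (hC.le_O hk) v x₀
    have e2 := O_B (hC.le_O hk) (pt Q₂ w (A (v z))) x₀
    rw [k1, hT.hB w _ x₀, e0] at e2
    rw [h v hv, map_add, LinearMap.add_apply, e2] at e1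
    rw [map_add, map_sub, hT.hB' z, B_comm Q₁, hA]
    linear_combination e1
  have e3 : (g x₀ - x₀) w = 0 := hT.n1 _ fun s => by
    have := O_B (hC.le_O hg) (pt Q₂ w s) x₀
    rw [g1, hT.hB, hT.hB] at this
    simp [this]
  have e4 : k x₀ = x₀ - pt Q₂ z (A y) + pt Q₂ w t := by rw [← ht]; abel
  have e5 := h _ e3
  rw [map_sub] at e5
  rw [mul_app, mul_app, sub_eq_iff_eq_add.1 e5, e4, map_add, map_sub, g1, h2 z _ hz] at hc'
  have e6 : A ((g x₀ - x₀) z) = -S z (A y) :=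
    hT.pt_inj hw0 (by rw [map_neg]; linear_combination (norm := module) hc')
  have e7 := O_B (hC.le_O hg) (pt Q₂ z (A x)) x₀
  have e8 := O_B (hC.le_O hg) (pt Q₂ w (S z (A x))) x₀
  rw [g1, hT.hB w _ x₀, e0] at e8
  rw [h2 z _ hz, map_add, LinearMap.add_apply, e8, hT.hB, hT.hB] at e7
  have e9 := hA x ((g x₀ - x₀) z)
  rw [e6, map_neg, LinearMap.sub_apply, map_sub] at e9
  linear_combination -e9 - e7

theorem Ctx.NA_scalar (hC : Ctx Q₁ Q₂ Q M) {w : W} (hw : Q₂ w = 0) (hw0 : w ≠ 0)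
    {S : W → (U →ₗ[F] U)} (hS : S ∈ NA Q₂ M w) {z : W} (hz : B Q₂ w z = 0) :
    ∃ c : F, ∀ u, S z u = c • u := by
  have hT := hC.T
  have h2 := hT.h2
  let P : Submodule F (W → (U →ₗ[F] U)) :=
    { NA Q₂ M w with smul_mem' := fun c _ hS => hC.NA_smul hw hw0 c hS }
  have hsa : ∀ S ∈ P, ∀ z, B Q₂ w z = 0 → ∀ x y, B Q₁ x (S z y) = B Q₁ (S z x) y :=
    fun S hS z hz x y => hC.NA_comm hw hw0 hS (hC.rho_mem w z) hz (A := LinearMap.id)
      (fun _ _ => rfl) (fun v hv => rho_perp hw hz hv) x y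
  have had : ∀ x y, ∀ S ∈ P, (fun z => wd Q₁ x y ∘ₗ S z - S z ∘ₗ wd Q₁ x y) ∈ P := fun x y S hS =>
    so_closed hT.n1 h2 hT.ha hT.hq P (fun u v _ _ S hS => NA_cjU hw hS (hC.krU (hT.eich_G1 u v)))
      x y hS
  obtain ⟨c, hc, h7⟩ := hC.good
  obtain ⟨u, hu⟩ := hT.exists_Q c
  have hrf : ∀ u, Q₁ u = c → ∀ S ∈ P,
      (fun z => sy Q₁ u (S z u - (B Q₁ u (S z u) / (2 * c)) • u)) ∈ P := fun u hu S hS => by
    refine NA_congr hw (P.smul_mem c (P.sub_mem hS (NA_cjU hw hS (h7 u hu)))) fun z hz => ?_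
    ext x
    simp only [sy_apply, LinearMap.smul_apply, LinearMap.sub_apply, cj_apply, refl_inv,
      refl_apply, map_sub, map_smul, hu, hsa S hS z hz u x, smul_eq_mul, Pi.smul_apply,
      Pi.sub_apply]
    match_scalars <;> field_simp <;> ring
  by_cases h0 : ∀ S ∈ P, ∀ z, B Q₂ w z = 0 → ∃ c : F, S z u = c • u
  · obtain ⟨d, hd⟩ := h0 S hS z hz
    refine ⟨d, fun x => ?_⟩
    set y := x - (B Q₁ u x / (2 * c)) • u with hy
    have b1 : B Q₁ u y = 0 := by simp [hy, B_self, hu]; field_simp; ring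
    obtain ⟨e, he⟩ := h0 _ (had u y S hS) z hz
    simp only [LinearMap.sub_apply, LinearMap.comp_apply, hd, map_smul, wd_apply, B_comm Q₁ y u,
      b1, B_self, hu, map_sub] at he
    have h3 := congrArg (B Q₁ u) he
    simp [hsa S hS z hz u y, hd, b1, B_self, hu, h2, hc] at h3
    have h4 : S z y = d • y := smul_right_injective U (mul_ne_zero h2 hc) (by
      simp only [h3] at he; linear_combination (norm := module) he)
    have h5 : x = y + (B Q₁ u x / (2 * c)) • u := by rw [hy]; abel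
    rw [h5, map_add, h4, map_smul, hd]; module
  exfalso
  push Not at h0
  obtain ⟨S, hS, z, hz, h0⟩ := h0
  have hu0 : Q₁ u ≠ 0 := hu ▸ hc
  obtain ⟨u', h3, h4⟩ := hT.exists_perp hu0 c
  have hu' : Q₁ u' ≠ 0 := h4 ▸ hc
  obtain ⟨V, hV, h5, h6⟩ : ∃ V : W → U, (fun z => sy Q₁ u (V z)) ∈ P ∧ (∀ z, B Q₁ u (V z) = 0) ∧
      B Q₁ u' (V z) ≠ 0 := by
    have h5 := hrf u hu S hS
    set V := fun z => S z u - (B Q₁ u (S z u) / (2 * c)) • u with hV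
    have h6 : ∀ z, B Q₁ u (V z) = 0 := fun z => by simp [hV, B_self, hu]; field_simp; ring
    by_cases h8 : B Q₁ u' (V z) = 0
    · obtain ⟨y, hy, h9⟩ := ((ndOn_two h2 hu0 hu' h3).perp hT.n1).exists_B_ne (v := V z)
        (mem_perp_span.2 (by rintro _ (rfl | rfl); exacts [h6 z, h8]))
        (fun h => h0 _ (sub_eq_zero.1 h))
      have b1 : B Q₁ u y = 0 := mem_perp_span.1 hy u (by simp)
      have b2 : B Q₁ u' y = 0 := mem_perp_span.1 hy u' (by simp)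
      refine ⟨fun z => wd Q₁ u' y (V z), ?_, fun z => by simp [h3, b1], ?_⟩
      · convert had u' y _ h5 using 2 with z
        change _ = _ ∘ₗ sy Q₁ u (V z) - sy Q₁ u (V z) ∘ₗ _
        ext x
        simp only [LinearMap.sub_apply, LinearMap.comp_apply, map_smul, wd_apply, sy_apply,
          map_sub, map_add, B_comm Q₁ y u, B_comm Q₁ u' u, b1, h3, LinearMap.smul_apply,
          B_comm Q₁ (V z), smul_eq_mul]
        module
      · simpa [b2, B_self, hu', h2, B_comm Q₁ y] using h9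
    · exact ⟨V, h5, h6, h8⟩
  have h8 : (fun z => B Q₁ u' (V z) • sy Q₁ u u') ∈ P := by
    convert hrf u' h4 _ hV using 2 with z
    ext x
    simp only [LinearMap.smul_apply, sy_apply, map_smul, map_sub, map_add, h3, B_comm Q₁ u' u,
      B_comm Q₁ (V z), LinearMap.sub_apply, LinearMap.add_apply, smul_eq_mul]
    module
  obtain ⟨h9, g, hg, h10⟩ := (mem_NA hw).1 h8
  obtain ⟨w', h11, h12⟩ := hT.partner hw hw0
  obtain ⟨z₀, h13⟩ := exists_B_eq hT.n2 ((2 * c * (2 * c))⁻¹ • (B Q₁ u' ∘ₗ LinearMap.applyₗ w' ∘ₗ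
    ((g : (W →ₗ[F] U) →ₗ[F] (W →ₗ[F] U)) - 1) ∘ₗ (pt Q₂).flip u))
  have h14 : ∀ z, B Q₂ w z = 0 → B Q₂ z₀ z = B Q₁ u' (V z) := fun z hz => by
    simp [h13, h10 z u hz, h12, B_comm Q₁ u' u, h3, B_self, hu, h4]; field_simp
  have h15 : B Q₂ w z₀ = 0 := by
    rw [B_comm, h14 w (B_self_of_sing _ hw)]
    have := congrArg (B Q₁ u') (LinearMap.congr_fun h9 u)
    simpa [B_comm Q₁ u' u, h3, B_self, hu0, hu', h2] using this
  have h16 : ∀ v : W →ₗ[F] U, v w = 0 → g v = v + pt Q₂ w (sy Q₁ u u' (v z₀)) := fun v hv => by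
    have := hT.perp_ind hw0 (LinearMap.eqLocus (g : (W →ₗ[F] U) →ₗ[F] (W →ₗ[F] U))
      (LinearMap.id + pt Q₂ w ∘ₗ sy Q₁ u u' ∘ₗ LinearMap.applyₗ z₀)) (fun z u hz => by
        change g _ = _
        rw [h10 z u hz, ← h14 z hz, B_comm]; simp) hv
    simpa using this
  obtain ⟨C, hC', h17, h18⟩ : ∃ C ∈ St.G2 Q₂ Q, C w = w ∧ B Q₂ z₀ (C z₀) ≠ 0 := by
    by_cases hq : Q₂ z₀ = 0
    swap
    · exact ⟨1, one_mem _, rfl, by simp [B_self, h2, hq]⟩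
    have h17 : B Q₂ z₀ z ≠ 0 := by rwa [h14 z hz]
    obtain ⟨z', h18, h19, h20⟩ := exists_partner (H := perp Q₂ (F ∙ w))
      (mem_perp_span_singleton.2 h15) hq ⟨z, mem_perp_span_singleton.2 hz, h17⟩
    replace h18 := mem_perp_span_singleton.1 h18
    have h21 : 5 ≤ finrank F W := by
      have := hT.hW (Submodule.span F {w, z₀}) (ts_span (by rintro _ (rfl | rfl) <;> assumption)
        (by
          rintro _ (rfl | rfl) _ (rfl | rfl)
          exacts [B_self_of_sing _ hw, h15, by rw [B_comm, h15], B_self_of_sing _ hq]))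
      have h4 : LinearIndependent F ![w, z₀] :=
        (LinearIndependent.pair_iff' hw0).2 fun c hc => h17 (by simp [← hc, hz])
      have h5 := finrank_span_eq_card h4
      rw [Matrix.range_cons_cons_empty] at h5
      simp only [Fintype.card_fin] at h5
      have := hT.hb
      omega
    have := finrank_perp_ge (Q := Q₂) (Submodule.span F {z₀, z'})
    have := Orth.finrank_span_pair_le (F := F) z₀ z'
    have := finrank_inf_perp_ge (Q := Q₂) (perp Q₂ (Submodule.span F {z₀, z'})) (F ∙ w)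
    have := finrank_span_singleton_le (F := F) w
    obtain ⟨y, ⟨hy1, hy2⟩, hy⟩ := ((ndOn_hyp hq h19 (by simp [h20])).perp hT.n2).exists_nonsing
      (H := perp Q₂ (Submodule.span F {z₀, z'}) ⊓ perp Q₂ (F ∙ w)) inf_le_left (by omega)
    have b1 : B Q₂ z₀ y = 0 := mem_perp_span.1 hy1 _ (by simp)
    have b2 : B Q₂ z' y = 0 := mem_perp_span.1 hy1 _ (by simp)
    have b3 : B Q₂ w y = 0 := mem_perp_span_singleton.1 hy2
    refine ⟨_, hT.eich_G2 z' y, eich_apply_of_perp (by rw [B_comm, h18]) (by rw [B_comm, b3]), ?_⟩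
    simp [eich_apply h19 b2, B_self, hq, b1, B_comm Q₂ z' z₀, B_comm Q₂ y z₀, h20, hy]
  have := finrank_perp_ge (Q := Q₁) (Submodule.span F {u, u'})
  have := Orth.finrank_span_pair_le (F := F) u u'
  have := hT.ha
  obtain ⟨u'', h19, h20⟩ := ((ndOn_two h2 hu0 hu' h3).perp hT.n1).exists_nonsing le_rfl (by omega)
  have b1 : B Q₁ u u'' = 0 := mem_perp_span.1 h19 _ (by simp)
  have b2 : B Q₁ u' u'' = 0 := mem_perp_span.1 h19 _ (by simp)
  have h21 := hC.NA_cjW hw (had u' u'' _ h8) hC' (c := 1) (by simp [h17])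
    (by rw [h17]; exact ((mem_NA hw).1 (had u' u'' _ h8)).1)
  have h22 := hC.NA_comm hw hw0 h21 hg h15 (A := sy Q₁ u u')
    (fun x y => by simp [B_comm Q₁ x]; ring) h16 u'' u'
  rw [← h14 _ (by rw [← h17, O_B hC'.1, h15])] at h22
  simp [b1, b2, h3, B_comm Q₁ u'' u, B_comm Q₁ u'' u', B_comm Q₁ u' u, B_self, h18, h2, hu0, hu',
    h20] at h22

theorem Ctx.eq_rho (hC : Ctx Q₁ Q₂ Q M) {w : W} (hw : Q₂ w = 0) (hw0 : w ≠ 0)
    {g : (W →ₗ[F] U) ≃ₗ[F] (W →ₗ[F] U)} (hg : g ∈ M) (h1 : ∀ s, g (pt Q₂ w s) = pt Q₂ w s)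
    (h2 : ∀ v, v w = 0 → ∃ s, g v = v + pt Q₂ w s) : ∃ y, B Q₂ w y = 0 ∧ g = rho U Q₂ w y := by
  have hT := hC.T
  obtain ⟨w', h4, h5⟩ := hT.partner hw hw0
  let S : W → (U →ₗ[F] U) := fun z =>
    LinearMap.applyₗ w' ∘ₗ ((g : (W →ₗ[F] U) →ₗ[F] (W →ₗ[F] U)) - 1) ∘ₗ pt Q₂ z
  have h3 : ∀ z u, B Q₂ w z = 0 → g (pt Q₂ z u) = pt Q₂ z u + pt Q₂ w (S z u) := fun z u hz => by
    obtain ⟨s, hs⟩ := h2 (pt Q₂ z u) (by simp [B_comm Q₂ z, hz])
    simp [S, hs, h5]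
  have hS : S ∈ NA Q₂ M w := (mem_NA hw).2 ⟨by ext; simp [S, h1], g, hg, h3⟩
  haveI := hT.ntU
  obtain ⟨u, hu⟩ := exists_ne (0 : U)
  obtain ⟨θ, hθ⟩ := exists_dual_one' (F := F) hu
  obtain ⟨y, hy⟩ := exists_B_eq hT.n2 (θ ∘ₗ LinearMap.applyₗ w' ∘ₗ
    ((g : (W →ₗ[F] U) →ₗ[F] (W →ₗ[F] U)) - 1) ∘ₗ (pt Q₂).flip u)
  have h6 : B Q₂ w y = 0 := by rw [B_comm, hy]; simp [h1]
  refine ⟨y, h6, (inv_mul_eq_one.1 (hC.centre hw hw0 (mul_mem (inv_mem (hC.rho_mem w y)) hg)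
    fun v hv => ?_)).symm⟩
  apply (rho U Q₂ w y).injective
  rw [mul_app, apply_inv_apply]
  refine hT.perp_ind hw0 (LinearMap.eqLocus (g : (W →ₗ[F] U) →ₗ[F] (W →ₗ[F] U))
    (rho U Q₂ w y)) (fun z x hz => ?_) hv
  change g _ = rho U Q₂ w y _
  obtain ⟨c, hc⟩ := hC.NA_scalar hw hw0 hS hz
  have : B Q₂ y z = θ (S z u) := by rw [hy]; rfl
  rw [h3 z x hz, rho_perp hw h6 (by simp [B_comm Q₂ z, hz]), hc, pt_apply, B_comm, this, hc]
  simp [hθ]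

theorem Ctx.kron_of_stab (hC : Ctx Q₁ Q₂ Q M) {w : W} (hw : Q₂ w = 0) (hw0 : w ≠ 0)
    {s : (W →ₗ[F] U) ≃ₗ[F] (W →ₗ[F] U)} (hs : s ∈ M) (h : ∀ v, v w = 0 → s v w = 0) : Kron s := by
  have hT := hC.T
  have h2 := hT.h2
  have hO := hC.le_O hs
  have hww := B_self_of_sing _ hw
  obtain ⟨w', h4, h5⟩ := hT.partner hw hw0
  have h5' : B Q₂ w' w = 1 := by rw [B_comm, h5]
  have hi : ∀ v : W →ₗ[F] U, v w = 0 → s⁻¹ v w = 0 :=
    inv_mem_of_stab (L := LinearMap.ker (LinearMap.applyₗ (R := F) (M₂ := U) w)) (g := s) h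
  let α₀ : U →ₗ[F] U := LinearMap.applyₗ w' ∘ₗ (s : (W →ₗ[F] U) →ₗ[F] (W →ₗ[F] U)) ∘ₗ pt Q₂ w
  have e0 : ∀ u, s (pt Q₂ w u) = pt Q₂ w (α₀ u) := fun u => by
    obtain ⟨t, ht⟩ := hT.mem_L (w := w) (v := s (pt Q₂ w u)) fun x hx => by
      rw [B_comm, O_B_inv hO, hT.hB, hi x hx, map_zero]
    simp [α₀, ht, h5]
  let α : U ≃ₗ[F] U := LinearEquiv.ofInjectiveEndo α₀ fun u u' h =>
    hT.pt_inj hw0 (s.injective (by rw [e0, e0, h]))
  have e1 : ∀ u, s (pt Q₂ w u) = pt Q₂ w (α u) := e0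
  have e2 : ∀ y, ∃ y', B Q₂ w y' = 0 ∧ B Q₂ w' y' = 0 ∧ ∀ v : W →ₗ[F] U, v w = 0 →
      s v y' = α (v (y - B Q₂ w y • w')) := fun y => by
    have hy : B Q₂ w (y - B Q₂ w y • w') = 0 := by simp [h5]
    have e3 : ∀ v : W →ₗ[F] U, v w = 0 → (s * rho U Q₂ w (y - B Q₂ w y • w') * s⁻¹) v =
        v + pt Q₂ w (α (s⁻¹ v (y - B Q₂ w y • w'))) := fun v hv => by
      rw [mul_app, mul_app, rho_perp hw hy (hi v hv), map_add, e1, apply_inv_apply]
    obtain ⟨y', h6, h7⟩ := hC.eq_rho hw hw0 (mul_mem (mul_mem hs (hC.rho_mem w _)) (inv_mem hs))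
      (fun t => by
        obtain ⟨t, rfl⟩ := α.surjective t
        rw [e3 _ (by simp [hww]), ← e1, inv_apply_apply, pt_apply, hy]; simp)
      fun v hv => ⟨_, e3 v hv⟩
    refine ⟨y' - B Q₂ w' y' • w, by simp [h6, hww], by simp [h5'], fun v hv => ?_⟩
    have := e3 _ (h v hv)
    rw [h7, rho_perp hw h6 (h v hv), inv_apply_apply] at this
    rw [map_sub, map_smul, h v hv, smul_zero, sub_zero]
    exact hT.pt_inj hw0 (add_left_cancel this)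
  choose σ₀ s1 s2 s3 using e2
  haveI := hT.ntU
  obtain ⟨u₀, hu₀⟩ := exists_ne (0 : U)
  have uq : ∀ y, B Q₂ w' y = 0 → (∀ v : W →ₗ[F] U, v w = 0 → s v y = 0) → y = 0 := fun y hy h6 =>
    hT.n2 _ fun z => by
      have := h6 _ (hi (pt Q₂ (z - B Q₂ w z • w') u₀) (by simp [B_comm Q₂ z, h5']))
      simpa [hu₀, hy] using this
  let σ : W →ₗ[F] W :=
    { toFun := σ₀
      map_add' := fun x y => sub_eq_zero.1 (uq _ (by simp [s2]) fun v hv => by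
        simp only [map_sub, map_add, s3 _ v hv, map_smul, add_smul]; abel)
      map_smul' := fun c x => sub_eq_zero.1 (uq _ (by simp [s2]) fun v hv => by
        simp only [map_sub, map_add, s3 _ v hv, map_smul, RingHom.id_apply, smul_eq_mul]; module) }
  have adj : ∀ u, ∃ u', ∀ x, B Q₁ u (α x) = B Q₁ u' x := fun u => by
    obtain ⟨u', hu'⟩ := exists_B_eq hT.n1 (B Q₁ u ∘ₗ (α : U →ₗ[F] U))
    exact ⟨u', fun x => by rw [hu']; rfl⟩
  have e4 : ∀ y y₂ u u', (∀ x, B Q₁ u (α x) = B Q₁ u' x) → B Q₂ (σ₀ y) (σ₀ y₂) • u =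
      B Q₂ (y - B Q₂ w y • w') (y₂ - B Q₂ w y₂ • w') • α u' := fun y y₂ u u' hu => by
    have h6 : pt Q₂ (σ₀ y) u w = 0 := by simp [B_comm Q₂ (σ₀ y), s1]
    obtain ⟨t, ht⟩ := hT.mem_L (w := w)
      (v := s⁻¹ (pt Q₂ (σ₀ y) u) - pt Q₂ (y - B Q₂ w y • w') u') fun x hx => by
        rw [map_sub, ← O_B_inv hO, hT.hB', hT.hB', s3 _ x hx, hu, sub_self]
    have := s3 y₂ _ (hi _ h6)
    rw [apply_inv_apply, sub_eq_iff_eq_add.1 ht, LinearMap.add_apply, pt_apply, pt_apply,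
      pt_apply] at this
    rw [this]; simp [h5]
  obtain ⟨y₀, b1, b2, b3⟩ := hT.hyp_perp hw h4 (by simp [h5]) 1
  set μ := B Q₂ (σ₀ y₀) (σ₀ y₀) / 2 with hμ
  have e5 : ∀ u u', (∀ x, B Q₁ u (α x) = B Q₁ u' x) → α u' = μ • u := fun u u' hu => by
    have := e4 y₀ y₀ u u' hu
    simp only [b1, zero_smul, sub_zero, B_self Q₂ y₀, b3] at this
    apply smul_right_injective U h2
    simp only [hμ, smul_smul]
    rw [mul_div_cancel₀ _ h2, this, mul_one]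
  have e6 : ∀ x y, B Q₁ (α x) (α y) = μ * B Q₁ x y := fun x y => by
    obtain ⟨u', hu'⟩ := adj (α x)
    have := e5 _ _ hu'
    rw [← map_smul] at this
    rw [hu', α.injective this]; simp
  have hμ0 : μ ≠ 0 := fun h0 => by
    obtain ⟨x, hx⟩ := hT.n1.exists_B_ne hu₀
    have := e6 (α⁻¹ u₀) (α⁻¹ x)
    simp [h0, hx] at this
  let D₀ : W →ₗ[F] W := σ + rk (B Q₂ w) w' + μ • rk (B Q₂ w') w
  have d0 : ∀ y, D₀ y = σ₀ y + B Q₂ w y • w' + (μ * B Q₂ w' y) • w := fun y => by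
    simp [D₀, σ, smul_smul]
  have e7 : ∀ x y, B Q₂ (D₀ x) (D₀ y) = μ * B Q₂ x y := fun x y => by
    obtain ⟨u', hu'⟩ := adj u₀
    have := e4 x y _ _ hu'
    rw [e5 _ _ hu', smul_smul] at this
    have := smul_left_injective F hu₀ this
    simp only [d0, map_add, map_smul, LinearMap.add_apply, LinearMap.smul_apply, this, s1, s2,
      B_comm Q₂ (σ₀ x) w, B_comm Q₂ (σ₀ x) w', h5, h5', hww, B_self_of_sing _ h4, map_sub,
      LinearMap.sub_apply, smul_eq_mul, B_comm Q₂ x w']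
    ring
  let D : W ≃ₗ[F] W := LinearEquiv.ofInjectiveEndo D₀ (by
    rw [injective_iff_map_eq_zero]
    exact fun y hy => hT.n2 _ fun x => by simpa [hy, hμ0] using (e7 x y).symm)
  have d1 : ∀ y, D y = σ₀ y + B Q₂ w y • w' + (μ * B Q₂ w' y) • w := d0
  have hh : kr α D⁻¹ ∈ O Q := hT.mem_O fun z u v => by
    have : kr α D⁻¹ (pt Q₂ z u) = pt Q₂ (μ⁻¹ • D z) (α u) := by
      ext y
      obtain ⟨y, rfl⟩ := D.surjective y
      have : B Q₂ (D z) (D y) = μ * B Q₂ z y := e7 z y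
      simp [this, smul_smul, hμ0]
    rw [this, hT.hB]
    simp [e6, hμ0]
  have k1 : ∀ t, ((kr α D⁻¹)⁻¹ * s) (pt Q₂ w t) = pt Q₂ w t := fun t => by
    ext y; simp [mul_app, e1, d1, s1, h5, hww]
  have k2 : ∀ v : W →ₗ[F] U, v w = 0 → ∃ t, ((kr α D⁻¹)⁻¹ * s) v = v + pt Q₂ w t := fun v hv => by
    obtain ⟨t, ht⟩ := mem_TL_of (B_ne_zero hT.n2 hw0) (X := ((kr α D⁻¹)⁻¹ * s) v - v) fun y hy => by
      simp [mul_app, d1, hy, h v hv, s3 y v hv]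
    exact ⟨t, by rw [pt_eq, ht]; abel⟩
  have kO := mul_mem (inv_mem hh) hO
  set k := (kr α D⁻¹)⁻¹ * s with hk
  obtain ⟨p, hp⟩ := CharP.exists F
  haveI : Fact p.Prime := ⟨CharP.char_is_prime F p⟩
  have kE : k ∈ EO Q := odd_mem_EO hT.nd hT.dim kO (odd_char (p := p) h2) (pow_char_eq_one h2
    fun x => by
      obtain ⟨t, ht⟩ := k2 (k x - x) (hT.n1 _ fun t => by
        have := O_B kO (pt Q₂ w t) x
        rw [k1, hT.hB, hT.hB] at this
        simp [this])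
      change k (k (k x - x) - (k x - x)) - (k (k x - x) - (k x - x)) = 0
      rw [ht, add_sub_cancel_left, k1, sub_self])
  have h6 : kr α D⁻¹ ∈ M := hC.hH _ (by
    simpa [hk] using mul_mem (hC.hM hs) (inv_mem (le_PM _ kE))) (kr_kron _ _)
  obtain ⟨y, -, hy⟩ := hC.eq_rho hw hw0 (mul_mem (inv_mem h6) hs) k1 k2
  have : s = kr α D⁻¹ * rho U Q₂ w y := by rw [← hy]; simp
  rw [this]
  exact (KG F U W).mul_mem (kr_kron _ _) (rho_kron _ _)

end Cfsg.Agent.Orth.OO
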