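import Cfsg.Agent.Orth.OO5

/-! `O ⊗ O` in `Ω`, part 6: the elements `1 ⊗ E(w,y)` lie in a unique conjugate. -/

set_option autoImplicit false
set_option linter.unusedSimpArgs false
set_option linter.unusedSectionVars false

namespace Cfsg.Agent.Orth.OO

open Module Cfsg.Agent.H6
open Cfsg.Agent.H9.Sp (exists_ne_ne)

attribute [-simp] LinearEquiv.coe_inv Submodule.mem_map_equiv

variable {F : Type*} [Field F] [Finite F] {U : Type*} [AddCommGroup U] [Module F U]
  {W : Type*} [AddCommGroup W] [Module F W] [FiniteDimensional F U] [FiniteDimensional F W]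
  {Q₁ : QuadraticForm F U} {Q₂ : QuadraticForm F W} {Q : QuadraticForm F (W →ₗ[F] U)}
  {M : Subgroup ((W →ₗ[F] U) ≃ₗ[F] (W →ₗ[F] U))}

theorem finrank_eq_of_equiv (g : U ≃ₗ[F] U) {K L : Submodule F U} (h : ∀ v, v ∈ K ↔ g v ∈ L) :
    finrank F K = finrank F L := by
  have : K.map (g : U →ₗ[F] U) = L := by
    ext v
    obtain ⟨v, rfl⟩ := g.surjective v
    rw [← h, mem_map_equiv', inv_apply_apply]
  rw [← g.finrank_map_eq K, this]

/-- eigenspaces -/
def Eg (g : U ≃ₗ[F] U) (c : F) : Submodule F U := LinearMap.ker ((g : U →ₗ[F] U) - c • LinearMap.id)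

theorem mem_Eg {g : U ≃ₗ[F] U} {c : F} {v : U} : v ∈ Eg g c ↔ g v = c • v := by
  simp [Eg, sub_eq_zero]

theorem mem_Eg1 {g : U ≃ₗ[F] U} {v : U} : v ∈ Eg g 1 ↔ g v = v := by simp [mem_Eg]

theorem mem_Eg2 {g : U ≃ₗ[F] U} {v : U} : v ∈ Eg g (-1) ↔ g v = -v := by simp [mem_Eg]

theorem finrank_Eg_conj (g k : U ≃ₗ[F] U) (c : F) :
    finrank F (Eg (g * k * g⁻¹) c) = finrank F (Eg k c) :=
  (finrank_eq_of_equiv g fun v => by simp [mem_Eg, mul_app, ← map_smul]).symm

theorem Eg_kr (A : U ≃ₗ[F] U) (c : F) : Eg (kr A (1 : W ≃ₗ[F] W)) c = TT W (Eg A c) := by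
  ext v
  simp only [mem_Eg, mem_TT, LinearMap.ext_iff]
  rfl

theorem finrank_Eg_add (A : U ≃ₗ[F] U) :
    finrank F (LinearMap.range ((A : U →ₗ[F] U) - 1)) + finrank F (Eg A 1) = finrank F U := by
  have : Eg A 1 = LinearMap.ker ((A : U →ₗ[F] U) - 1) := by ext v; simp [mem_Eg, sub_eq_zero]
  rw [this]
  exact LinearMap.finrank_range_add_finrank_ker _

theorem fix_le_left {A : U ≃ₗ[F] U} (hn : IsNilpotent ((A : U →ₗ[F] U) - 1)) (C : W ≃ₗ[F] W) :
    finrank F (Eg (kr A C) 1) ≤ finrank F W * finrank F (Eg A 1) := by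
  obtain ⟨π, hπ⟩ := LinearMap.exists_leftInverse_of_injective (Eg A 1).subtype (by simp)
  rw [← finrank_linearMap F F W (Eg A 1)]
  refine LinearMap.finrank_le_finrank_of_injective
    (f := LinearMap.compRight (M := W) F π ∘ₗ (Eg (kr A C) 1).subtype) ?_
  rw [injective_iff_map_eq_zero]
  rintro ⟨v, hv⟩ h
  by_contra h0
  obtain ⟨z, hz⟩ : ∃ z, v z ≠ 0 := by
    by_contra! h1
    exact h0 (Subtype.ext (LinearMap.ext h1))
  obtain ⟨_, ⟨x, rfl⟩, h1, h2⟩ := exists_fixed hn (K := LinearMap.range v) (by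
    rintro _ ⟨x, rfl⟩
    refine ⟨C⁻¹ x - x, ?_⟩
    have := LinearMap.congr_fun (mem_Eg1.1 hv) (C⁻¹ x)
    simp at this
    simp [this]) ⟨z, rfl⟩ hz
  have h3 : v x ∈ Eg A 1 := mem_Eg1.2 (sub_eq_zero.1 h2)
  have h4 := LinearMap.congr_fun hπ ⟨_, h3⟩
  have h5 : π (v x) = 0 := LinearMap.congr_fun h x
  exact h1 (congrArg Subtype.val (h4.symm.trans h5))

theorem fix_le_right (A : U ≃ₗ[F] U) {C : W ≃ₗ[F] W} (hn : IsNilpotent ((C : W →ₗ[F] W) - 1))
    {y : W} (hy : C y = y) :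
    finrank F (Eg (kr A C) 1) + finrank F (LinearMap.range ((C : W →ₗ[F] W) - 1) ⊔ F ∙ y :
      Submodule F W) * finrank F U ≤ finrank F W * finrank F U + finrank F (Eg A 1) := by
  obtain ⟨X, hX⟩ := Submodule.exists_isCompl (LinearMap.range ((C : W →ₗ[F] W) - 1) ⊔ F ∙ y)
  rw [← Submodule.finrank_add_eq_of_isCompl hX, add_mul, ← finrank_linearMap F F X U, add_assoc,
    add_comm, add_le_add_iff_left, ← finrank_prod]
  refine LinearMap.finrank_le_finrank_of_injective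
    (f := (LinearMap.lcomp F U X.subtype ∘ₗ (Eg (kr A C) 1).subtype).prod
      ((LinearMap.applyₗ y ∘ₗ (Eg (kr A C) 1).subtype).codRestrict (Eg A 1) fun v => mem_Eg1.2 (by
        simpa [hy] using LinearMap.congr_fun (mem_Eg1.1 v.2) y))) ?_
  rw [injective_iff_map_eq_zero]
  rintro ⟨v, hv⟩ h
  have h1 : v y = 0 := congrArg Subtype.val (congrArg Prod.snd h)
  have h2 : ∀ x ∈ X, v x = 0 := fun x hx => LinearMap.congr_fun (congrArg Prod.fst h) ⟨x, hx⟩
  refine Subtype.ext (LinearMap.ext fun x => nakayama hn (K := LinearMap.ker v) (fun x hx => ?_)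
    (fun x => ?_) x)
  · have := LinearMap.congr_fun (mem_Eg1.1 hv) x
    simp only [LinearMap.mem_ker] at hx
    simpa [hx] using this
  · obtain ⟨a, ha, b, hb, rfl⟩ := Submodule.mem_sup.1 (hX.sup_eq_top ▸ Submodule.mem_top (x := x))
    obtain ⟨_, ⟨a, rfl⟩, d, hd, rfl⟩ := Submodule.mem_sup.1 ha
    obtain ⟨c, rfl⟩ := Submodule.mem_span_singleton.1 hd
    exact ⟨a, by simp [h1, h2 b hb]⟩

theorem St.kr_eq_one (hT : St Q₁ Q₂ Q) {A : U ≃ₗ[F] U} {C : W ≃ₗ[F] W} (hC : C ∈ O Q₂)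
    (h : kr A C = 1) : (A = 1 ∧ C = 1) ∨ (A = ng F U ∧ C = ng F W) := by
  haveI := hT.ntW
  haveI := hT.ntU
  obtain ⟨r, hr⟩ := exists_ne (0 : U)
  obtain ⟨c, -, h2⟩ := kr_fix hr fun φ => by rw [h]; rfl
  obtain ⟨y, -, hy⟩ := hT.n2.ndOn_top.exists_nonsing le_rfl (by have := hT.hb; simp; omega)
  have h3 : c * c = 1 := by
    have := congrArg Q₂ (h2 y)
    rw [Q_smul, hC] at this
    exact mul_right_cancel₀ hy (by rw [this, one_mul])
  obtain ⟨φ, hφ⟩ := exists_dual_one' (F := F) (v := y) (by rintro rfl; simp at hy)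
  have h4 := fun u => LinearMap.congr_fun (LinearEquiv.congr_fun h (rk φ u)) y
  rcases mul_self_eq_one_iff.1 h3 with rfl | rfl
  · have : C = 1 := LinearEquiv.ext fun y => by simpa using h2 y
    subst this
    exact Or.inl ⟨LinearEquiv.ext fun u => by simpa [hφ] using h4 u, rfl⟩
  · have : C = ng F W := LinearEquiv.ext fun y => by
      rw [ng_apply, ← neg_eq_iff_eq_neg]; simpa using h2 y
    subst this
    exact Or.inr ⟨LinearEquiv.ext fun u => by
      rw [ng_apply, ← neg_eq_iff_eq_neg]; simpa [hφ] using h4 u, rfl⟩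

theorem kr_ng (A : U ≃ₗ[F] U) (C : W ≃ₗ[F] W) : kr (ng F U * A) (ng F W * C) = kr A C := by
  ext; simp [mul_app]

theorem St.kron_odd (hT : St Q₁ Q₂ Q) {g : (W →ₗ[F] U) ≃ₗ[F] (W →ₗ[F] U)} (hg : g ∈ O Q)
    (hk : Kron g) {n : ℕ} (hn : Odd n) (h : g ^ n = 1) :
    ∃ A ∈ O Q₁, ∃ C ∈ O Q₂, A ^ n = 1 ∧ C ^ n = 1 ∧ g = kr A C := by
  obtain ⟨A, hA, C, hC, rfl⟩ := hT.kron_norm hg hk
  rw [kr_pow] at h
  rcases hT.kr_eq_one (pow_mem hC n) h with ⟨h1, h2⟩ | ⟨h1, h2⟩
  · exact ⟨A, hA, C, hC, h1, h2, rfl⟩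
  · obtain ⟨k, rfl⟩ := hn
    refine ⟨_, mul_mem (ng_mem_O _) hA, _, mul_mem (ng_mem_O _) hC, ?_, ?_, (kr_ng A C).symm⟩
    · rw [Commute.mul_pow (ng_comm A), h1, pow_succ, pow_mul, pow_two, ng_mul_self, one_pow,
        one_mul, ng_mul_self]
    · rw [Commute.mul_pow (ng_comm C), h2, pow_succ, pow_mul, pow_two, ng_mul_self, one_pow,
        one_mul, ng_mul_self]

theorem rho_pow {p : ℕ} [CharP F p] (w y : W) : rho U Q₂ w y ^ p = 1 := by
  rw [rho, kr_pow, eich_pow_char, one_pow, kr_one]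

theorem Ctx.R_rho (hC : Ctx Q₁ Q₂ Q M) {w y : W} (hw : Q₂ w = 0) (hw0 : w ≠ 0)
    (hy : B Q₂ w y = 0) (hy0 : Q₂ y ≠ 0) {g : (W →ₗ[F] U) ≃ₗ[F] (W →ₗ[F] U)} (hg : g ∈ M)
    (h : Kron (g * rho U Q₂ w y * g⁻¹)) : Kron g := by
  have hT := hC.T
  have h2 := hT.h2
  obtain ⟨p, hp⟩ := CharP.exists F
  haveI : Fact p.Prime := ⟨CharP.char_is_prime F p⟩
  obtain ⟨A, hA, C, hC', h3, h4, h5⟩ := hT.kron_odd
    (hC.le_O (mul_mem (mul_mem hg (hC.rho_mem w y)) (inv_mem hg))) h (odd_char (p := p) h2)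
    (by rw [conj_pow, rho_pow, mul_one, mul_inv_cancel])
  have nA := nil_of_pow h3
  have nC := nil_of_pow h4
  have hww := B_self_of_sing _ hw
  have e1 : ∀ v, kr A C (g v) = g (rho U Q₂ w y v) := fun v => by simp [← h5, mul_app]
  have e2 : ∀ v, kr A C (kr A C (g v) - g v) - (kr A C (g v) - g v) =
      g (pt Q₂ w ((-(2 * Q₂ y)) • v w)) := fun v => by
    rw [e1, ← map_sub, e1, ← map_sub, rho_perp hw hy (by
      simp [rho_apply hw hy, hww, B_comm Q₂ y w, hy])]
    simp [rho_apply hw hy, hy, B_self]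
  by_cases hA1 : A = 1
  · subst hA1
    obtain ⟨w', h6, h7⟩ := hT.partner hw hw0
    haveI := hT.ntU
    obtain ⟨u, hu⟩ := exists_ne (0 : U)
    obtain ⟨z, hz⟩ : ∃ z, C (C z - z) - (C z - z) ≠ 0 := by
      by_contra! h0
      have := e2 (pt Q₂ w' u)
      rw [show kr 1 C (kr 1 C (g (pt Q₂ w' u)) - g (pt Q₂ w' u)) - (kr 1 C (g (pt Q₂ w' u)) -
        g (pt Q₂ w' u)) = 0 from LinearMap.ext fun z => by
          simpa using congrArg (g (pt Q₂ w' u)) (h0 z), eq_comm, g.map_eq_zero_iff] at this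
      have := hT.pt_inj hw0 (this.trans (map_zero _).symm)
      simp [B_comm Q₂ w' w, h7, hu, h2, hy0] at this
    set w₂ := C (C z - z) - (C z - z) with hw₂
    have h8 : ∀ v, g v w₂ = g (pt Q₂ w ((-(2 * Q₂ y)) • v w)) z := fun v => by
      rw [← e2]; simp [hw₂]
    have h9 : C w₂ = w₂ := sub_eq_zero.1 (hT.n2 _ fun x => by
      obtain ⟨v, hv⟩ := g.surjective (pt Q₂ x u)
      have h9 := e1 (pt Q₂ w ((-(2 * Q₂ y)) • v w))
      rw [rho_perp hw hy (by simp [hww]), pt_apply, hy, zero_smul, map_zero, add_zero, ← e2, hv]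
        at h9
      have := LinearMap.congr_fun h9 z
      simp only [kr_apply, one_app, LinearMap.sub_apply, pt_apply, ← sub_smul] at this
      simp only [hw₂, map_sub]
      linear_combination smul_left_injective F hu this)
    have h10 : Q₂ w₂ = 0 := by
      have := range_perp_ker hC' h9 (C z - z)
      rw [← hw₂, B_self] at this
      simpa [h2] using this
    obtain ⟨D, hD, h11⟩ := hT.sing_trans hw h10 hw0 hz
    have := hC.kron_of_stab hw hw0 (mul_mem (hC.krW hD) hg) fun v hv => by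
      simp [mul_app, h11, h8, hv]
    simpa [mem_KG] using (KG F U W).mul_mem ((KG F U W).inv_mem (kr_mem_KG 1 D)) this
  exfalso
  have f1 : finrank F W * finrank F U ≤ finrank F (Eg (kr A C) 1) + 2 * finrank F U := by
    rw [← h5, finrank_Eg_conj, ← finrank_linearMap F F W U, ← LinearMap.finrank_range_add_finrank_ker
      ((LinearMap.applyₗ (R := F) (M₂ := U) w).prod (LinearMap.applyₗ y)), add_comm]
    refine add_le_add (Submodule.finrank_mono fun v hv => mem_Eg1.2 ?_)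
      ((Submodule.finrank_le _).trans (by simp [two_mul]))
    have a1 : v w = 0 := congrArg Prod.fst hv
    have a2 : v y = 0 := congrArg Prod.snd hv
    simp [rho_apply hw hy, a1, a2]
  have f2 := two_le_rank hT.n1 h2 hA nA hA1
  have f3 := finrank_Eg_add A
  have f4 := fix_le_left nA C
  have ha := hT.ha
  have hb := hT.hb
  have f5 : Even (finrank F W) := hT.hab.resolve_left fun h => by nlinarith
  by_cases hC1 : C = 1
  · subst hC1
    have f6 := hT.nd.finrank_perp (TL U (B Q₂ w))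
    rw [finrank_TL (B_ne_zero hT.n2 hw0), finrank_linearMap, finrank_eq_of_equiv g
      (L := TT W (LinearMap.ker (((A : U →ₗ[F] U) - 1) ∘ₗ ((A : U →ₗ[F] U) - 1)))) (fun v => by
        rw [hT.mem_perp_L]
        constructor
        · intro hv z
          simpa [hv] using LinearMap.congr_fun (e2 v) z
        · intro hv
          have := e2 v
          rw [show kr A 1 (kr A 1 (g v) - g v) - (kr A 1 (g v) - g v) = 0 from
            LinearMap.ext fun z => by simpa using hv z, eq_comm, g.map_eq_zero_iff] at this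
          simpa [h2, hy0] using hT.pt_inj hw0 (this.trans (map_zero _).symm)), finrank_TT] at f6
    exact (Nat.not_even_iff_odd.2 ((f5.mul_right _).add_odd hT.odd)) (f6 ▸ f5.mul_right _)
  have f6 := two_le_rank hT.n2 h2 hC' nC hC1
  have f7 : ∀ y, C y = y → finrank F (LinearMap.range ((C : W →ₗ[F] W) - 1) ⊔ F ∙ y :
      Submodule F W) ≤ 2 := fun y hy => by
    have := fix_le_right A nC hy
    by_contra hlt
    nlinarith
  have f8 : Eg C 1 ≤ LinearMap.range ((C : W →ₗ[F] W) - 1) := fun y hy => by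
    rw [Submodule.eq_of_le_of_finrank_le le_sup_left ((f7 y (mem_Eg1.1 hy)).trans f6)]
    exact Submodule.mem_sup_right (Submodule.mem_span_singleton_self y)
  have f9 := Submodule.finrank_mono f8
  have f10 := (Submodule.finrank_mono le_sup_left).trans (f7 0 (map_zero _))
  have f11 := finrank_Eg_add C
  refine hT.hW (Eg C 1) (fun x hx => ?_) (by omega)
  obtain ⟨z, hz⟩ := f8 hx
  have := range_perp_ker hC' (mem_Eg1.1 hx) z
  rw [show C z - z = x from hz, B_self] at this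
  simpa [h2] using this

end Cfsg.Agent.Orth.OO
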