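import Cfsg.Agent.Orth.OO6
import Cfsg.Agent.H1.FrameTI

/-! `O ⊗ O` in `Ω`, part 7: pointwise stabilisers of the spaces `S ⊗ W`. -/

set_option autoImplicit false
set_option linter.unusedSimpArgs false
set_option linter.unusedSectionVars false

namespace Cfsg.Agent.Orth.OO

open Module Cfsg.Agent.H6
open Cfsg.Agent.H9.Sp (exists_ne_ne)

attribute [-simp] LinearEquiv.coe_inv Submodule.mem_map_equiv

variable {F : Type*} [Field F] [Finite F] {U : Type*} [AddCommGroup U] [Module F U]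
  {W : Type*} [AddCommGroup W] [Module F W] [FiniteDimensional F U] [FiniteDimensional F W]
  {Q₁ : QuadraticForm F U} {Q₂ : QuadraticForm F W} {Q : QuadraticForm F (W →ₗ[F] U)}
  {M : Subgroup ((W →ₗ[F] U) ≃ₗ[F] (W →ₗ[F] U))}

theorem finite_equiv : Finite (U ≃ₗ[F] U) := by
  haveI : Finite U := Module.finite_of_finite F
  exact Finite.of_injective _ (DFunLike.coe_injective (F := U ≃ₗ[F] U))

theorem finrank_pair {u v : U} (hu : u ≠ 0) (h : ∀ c : F, c • u ≠ v) :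
    finrank F (Submodule.span F {u, v}) = 2 := by
  have h5 := finrank_span_eq_card ((LinearIndependent.pair_iff' hu).2 h)
  rwa [Matrix.range_cons_cons_empty, Fintype.card_fin] at h5

theorem finrank_inf_ge (K L : Submodule F U) :
    finrank F K + finrank F L ≤ finrank F (K ⊓ L : Submodule F U) + finrank F U := by
  have := Submodule.finrank_sup_add_finrank_inf_eq K L
  have := Submodule.finrank_le (K ⊔ L)
  omega

theorem exists_nonsq (h2 : (2 : F) ≠ 0) : ∃ a : F, ¬ IsSquare a := by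
  haveI := Fintype.ofFinite F
  exact FiniteField.exists_nonsquare fun h => h2 (by
    have := ringChar.Nat.cast_ringChar (R := F); rw [h] at this; exact_mod_cast this)

theorem Eg_refl_neg (h2 : (2 : F) ≠ 0) {u : U} (hu : Q₁ u ≠ 0) : Eg (refl Q₁ u) (-1) = F ∙ u := by
  ext x
  rw [mem_Eg2, Submodule.mem_span_singleton]
  constructor
  · intro h
    rw [refl_apply] at h
    exact ⟨(2 : F)⁻¹ * ((Q₁ u)⁻¹ * B Q₁ u x), smul_right_injective U h2 (by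
      simp only [smul_smul, ← mul_assoc, mul_inv_cancel₀ h2]
      linear_combination (norm := module) -h)⟩
  · rintro ⟨c, rfl⟩
    rw [map_smul, refl_self hu, smul_neg]

theorem Eg_refl_one {u : U} (hu : Q₁ u ≠ 0) : Eg (refl Q₁ u) 1 = perp Q₁ (F ∙ u) := by
  ext x
  have : u ≠ 0 := by rintro rfl; simp at hu
  simp [mem_Eg1, mem_perp_span_singleton, refl_apply, hu, this]

theorem eq_smul_of_refl (h2 : (2 : F) ≠ 0) {u v : U} (hu : Q₁ u ≠ 0) (hv : Q₁ v ≠ 0)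
    (h : refl Q₁ u = refl Q₁ v) : ∃ c : F, c • u = v := by
  rw [← Submodule.mem_span_singleton, ← Eg_refl_neg h2 hu, h, mem_Eg2, refl_self hv]

theorem isCompl_Eg (h2 : (2 : F) ≠ 0) {A : U ≃ₗ[F] U} (hA : A * A = 1) :
    IsCompl (Eg A 1) (Eg A (-1)) := by
  have h : ∀ x, A (A x) = x := fun x => LinearEquiv.congr_fun hA x
  constructor
  · rw [Submodule.disjoint_def]
    intro x h1 h3
    rw [mem_Eg1] at h1
    rw [mem_Eg2, h1] at h3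
    exact smul_right_injective U h2 (by linear_combination (norm := module) h3)
  · rw [codisjoint_iff, eq_top_iff]
    intro x _
    refine Submodule.mem_sup.2 ⟨(2 : F)⁻¹ • (x + A x), mem_Eg1.2 (by simp [h, add_comm]),
      (2 : F)⁻¹ • (x - A x), mem_Eg2.2 (by simp [h, ← smul_neg]), ?_⟩
    match_scalars <;> field_simp <;> ring

theorem Eg_perp (h2 : (2 : F) ≠ 0) {A : U ≃ₗ[F] U} (hA : A ∈ O Q₁) {x y : U} (hx : A x = x)
    (hy : A y = -y) : B Q₁ x y = 0 := by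
  have := O_B hA x y
  rw [hx, hy, map_neg] at this
  exact mul_left_cancel₀ h2 (by linear_combination -this)

theorem fix_le_invol (h2 : (2 : F) ≠ 0) (A : U ≃ₗ[F] U) {C : W ≃ₗ[F] W} (hC : C * C = 1) :
    finrank F (Eg (kr A C) 1) ≤ finrank F (Eg C 1) * finrank F (Eg A 1) +
      finrank F (Eg C (-1)) * finrank F (Eg A (-1)) := by
  rw [← finrank_linearMap F F (Eg C 1), ← finrank_linearMap F F (Eg C (-1)), ← finrank_prod]
  let f : Eg (kr A C) 1 →ₗ[F] (Eg C 1 →ₗ[F] Eg A 1) × (Eg C (-1) →ₗ[F] Eg A (-1)) :=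
    { toFun := fun v => ((v.1 ∘ₗ (Eg C 1).subtype).codRestrict _ fun x => mem_Eg1.2 (by
          simpa [mem_Eg1.1 x.2] using LinearMap.congr_fun (mem_Eg1.1 v.2) x),
        (v.1 ∘ₗ (Eg C (-1)).subtype).codRestrict _ fun x => mem_Eg2.2 (by
          simpa [mem_Eg2.1 x.2, neg_eq_iff_eq_neg] using LinearMap.congr_fun (mem_Eg1.1 v.2) x))
      map_add' := fun _ _ => rfl
      map_smul' := fun _ _ => rfl }
  refine LinearMap.finrank_le_finrank_of_injective (f := f) ?_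
  rw [injective_iff_map_eq_zero]
  rintro ⟨v, hv⟩ h
  refine Subtype.ext (LinearMap.ext fun x => ?_)
  obtain ⟨a, ha, b, hb, rfl⟩ := Submodule.mem_sup.1
    ((isCompl_Eg h2 hC).sup_eq_top ▸ Submodule.mem_top (x := x))
  have h3 : v a = 0 := congrArg Subtype.val (LinearMap.congr_fun (congrArg Prod.fst h) ⟨a, ha⟩)
  have h4 : v b = 0 := congrArg Subtype.val (LinearMap.congr_fun (congrArg Prod.snd h) ⟨b, hb⟩)
  simp [h3, h4]

theorem St.exists_plane (hT : St Q₁ Q₂ Q) : ∃ w y₁ y₂, Q₂ w = 0 ∧ w ≠ 0 ∧ B Q₂ w y₁ = 0 ∧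
    B Q₂ w y₂ = 0 ∧ ∀ a b : F, Q₂ (a • y₁ + b • y₂) = 0 → a = 0 ∧ b = 0 := by
  obtain ⟨w, hw, hw0⟩ := hT.exists_sing
  obtain ⟨w', h4, h5⟩ := hT.partner hw hw0
  have n0 := (ndOn_hyp hw h4 (by simp [h5])).perp hT.n2
  have e0 := finrank_perp_ge (Q := Q₂) (Submodule.span F {w, w'})
  have e1 := Orth.finrank_span_pair_le (F := F) w w'
  have hb := hT.hb
  obtain ⟨y₁, h6, h7⟩ := n0.exists_Q_eq le_rfl (by omega) 1
  have l1 := (Submodule.span_singleton_le_iff_mem _ _).2 h6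
  have n1 := n0.inf_perp (ndOn_one hT.h2 (by simp [h7])) l1
  have e2 := finrank_inf_perp_ge (Q := Q₂) (perp Q₂ (Submodule.span F {w, w'})) (F ∙ y₁)
  have e3 := finrank_span_singleton_le (F := F) y₁
  have b1 : B Q₂ w y₁ = 0 := mem_perp_span.1 h6 _ (by simp)
  by_cases h : 5 ≤ finrank F W
  · obtain ⟨ν, hν⟩ := exists_nonsq hT.h2
    obtain ⟨y₂, h8, h9⟩ := n1.exists_Q_eq le_rfl (by omega) (-ν)
    refine ⟨w, y₁, y₂, hw, hw0, b1, mem_perp_span.1 h8.1 _ (by simp), fun a b h => ?_⟩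
    simp [Q_add, Q_smul, h7, h9, mem_perp_span_singleton.1 h8.2] at h
    have : b = 0 := by
      by_contra hb
      exact hν ⟨a / b, by field_simp; linear_combination -h⟩
    simpa [this] using h
  · obtain ⟨y₂, h8, h9⟩ := n1.exists_nonsing le_rfl (by omega)
    have b2 : B Q₂ w y₂ = 0 := mem_perp_span.1 h8.1 _ (by simp)
    have b3 : B Q₂ y₁ y₂ = 0 := mem_perp_span_singleton.1 h8.2
    refine ⟨w, y₁, y₂, hw, hw0, b1, b2, fun a b h => ?_⟩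
    by_contra hab
    refine hT.hW (Submodule.span F {w, a • y₁ + b • y₂}) (ts_span
      (by rintro _ (rfl | rfl) <;> assumption) (by
        rintro _ (rfl | rfl) _ (rfl | rfl)
        exacts [B_self_of_sing _ hw, by simp [b1, b2], by rw [B_comm]; simp [b1, b2],
          B_self_of_sing _ h])) ?_
    rw [finrank_pair hw0 fun c hc => hab ?_]
    · omega
    · have a1 := congrArg (B Q₂ y₁) hc
      have a2 := congrArg (B Q₂ y₂) hc
      simp [B_comm Q₂ _ w, b1, b2, b3, B_comm Q₂ y₂ y₁, B_self, h7, h9, hT.h2] at a1 a2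
      exact ⟨a1, a2⟩

theorem St.exists_rho (hT : St Q₁ Q₂ Q) : ∃ w y, Q₂ w = 0 ∧ w ≠ 0 ∧ B Q₂ w y = 0 ∧ Q₂ y ≠ 0 := by
  obtain ⟨w, y, y', h1, h2, h3, -, h⟩ := hT.exists_plane
  exact ⟨w, y, h1, h2, h3, fun h0 => one_ne_zero (h 1 0 (by simpa using h0)).1⟩

theorem Ctx.cl (hC : Ctx Q₁ Q₂ Q M) {p : ℕ} [Fact p.Prime] [CharP F p]
    (N K : Subgroup ((W →ₗ[F] U) ≃ₗ[F] (W →ₗ[F] U))) (hN : N ≤ M) (hK : K ≤ KG F U W)
    (h1 : ∀ w y, ∀ c ∈ N, rho U Q₂ w y * c * (rho U Q₂ w y)⁻¹ ∈ N)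
    (h2 : ∀ w y, ∀ c ∈ K, rho U Q₂ w y * c * (rho U Q₂ w y)⁻¹ ∈ K)
    (h3 : ∀ c ∈ N, ∀ k ∈ K, c * k * c⁻¹ ∈ K)
    (hp : (∀ c ∈ N, Kron c → c ^ p ∈ K → c ∈ K) ∨ ∀ c ∈ N, c ^ p ∈ K) : N ≤ KG F U W := by
  haveI := finite_equiv (F := F) (U := W →ₗ[F] U)
  obtain ⟨w, y₁, y₂, hw, hw0, b1, b2, h⟩ := hC.T.exists_plane
  refine le_of_pp (p := p) (x := rho U Q₂ w y₁) (y := rho U Q₂ w y₂) ?_ (rho_pow _ _) (rho_pow _ _)
    _ N K (rho_kron _ _) (rho_kron _ _) (h1 _ _) (h1 _ _) (h2 _ _) (h2 _ _) hK h3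
    (fun i j hij c hc h4 => ?_) hp
  · change _ * _ = _ * _
    simp [rho, kr_mul, eich_mul hw, b1, b2, add_comm]
  · have e : rho U Q₂ w y₁ ^ i * rho U Q₂ w y₂ ^ j = rho U Q₂ w ((i : F) • y₁ + (j : F) • y₂) := by
      simp [rho, kr_mul, kr_pow, eich_pow hw, eich_mul hw, b1, b2, add_comm]
    rw [e] at h4
    exact (KG F U W).inv_mem_iff.1 (hC.R_rho (y := (i : F) • y₁ + (j : F) • y₂) hw hw0
      (by simp [b1, b2]) (fun h0 => hij (by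
      simpa [CharP.cast_eq_zero_iff F p] using h _ _ h0)) (inv_mem (hN hc)) (by rwa [inv_inv]))

variable (M) in
/-- pointwise stabiliser of `S ⊗ W` -/
def FX (S : Submodule F U) : Subgroup ((W →ₗ[F] U) ≃ₗ[F] (W →ₗ[F] U)) where
  carrier := {g | g ∈ M ∧ ∀ v ∈ TT W S, g v = v}
  mul_mem' := fun ha hb => ⟨mul_mem ha.1 hb.1, fun v hv => by rw [mul_app, hb.2 v hv, ha.2 v hv]⟩
  one_mem' := ⟨one_mem _, fun _ _ => rfl⟩
  inv_mem' := fun {g} ha => ⟨inv_mem ha.1, fun v hv => g.injective (by simp [ha.2 v hv])⟩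

theorem FX_le (S : Submodule F U) : FX M S ≤ M := fun _ h => h.1

theorem FX_conj {S : Submodule F U} {g c : (W →ₗ[F] U) ≃ₗ[F] (W →ₗ[F] U)} (hg : g ∈ M)
    (h : ∀ v ∈ TT W S, g⁻¹ v ∈ TT W S) (hc : c ∈ FX M S) : g * c * g⁻¹ ∈ FX M S :=
  ⟨mul_mem (mul_mem hg hc.1) (inv_mem hg), fun v hv => by
    rw [mul_app, mul_app, hc.2 _ (h v hv), apply_inv_apply]⟩

theorem Ctx.FX_rho (hC : Ctx Q₁ Q₂ Q M) (S : Submodule F U) (w y : W) :
    ∀ c ∈ FX M S, rho U Q₂ w y * c * (rho U Q₂ w y)⁻¹ ∈ FX M S :=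
  fun _ hc => FX_conj (hC.rho_mem w y) (fun _ hv _ => hv _) hc

theorem St.perp_ne_bot (hT : St Q₁ Q₂ Q) {R : Submodule F U} (h : finrank F R ≤ 2) :
    perp Q₁ R ≠ ⊥ := fun h0 => by
  have := finrank_perp_ge (Q := Q₁) R
  have := hT.ha
  rw [h0, finrank_bot] at *
  omega

theorem St.kr_inj (hT : St Q₁ Q₂ Q) {A A' : U ≃ₗ[F] U} (h : kr A (1 : W ≃ₗ[F] W) = kr A' 1) :
    A = A' := by
  obtain ⟨w, -, hw⟩ := hT.exists_sing
  ext x
  refine hT.pt_inj hw ?_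
  simpa [St.kr_pt (one_mem _)] using LinearEquiv.congr_fun h (pt Q₂ w x)

theorem Ctx.base (hC : Ctx Q₁ Q₂ Q M) {R : Submodule F U} (hR : NdOn Q₁ R) (h : finrank F R ≤ 2) :
    FX M (perp Q₁ R) ≤ KG F U W := by
  have hT := hC.T
  obtain ⟨p, hp⟩ := CharP.exists F
  haveI : Fact p.Prime := ⟨CharP.char_is_prime F p⟩
  refine hC.cl (p := p) _ ⊥ (FX_le _) bot_le (hC.FX_rho _) (by simp) (by simp)
    (Or.inl fun c hc hk h1 => ?_)
  obtain ⟨A, hA, rfl, h3⟩ := hT.kron_fix (hC.le_O hc.1) hk (hT.perp_ne_bot h) hc.2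
  rw [Subgroup.mem_bot, kr_pow, one_pow, ← kr_one] at h1
  have nA := nil_of_pow (hT.kr_inj h1)
  by_contra h4
  have h5 : A ≠ 1 := by rintro rfl; exact h4 (by simp [kr_one])
  have h6 := two_le_rank hT.n1 hT.h2 hA nA h5
  have h7 : LinearMap.range ((A : U →ₗ[F] U) - 1) = R := Submodule.eq_of_le_of_finrank_le
    (by rintro _ ⟨x, rfl⟩; exact sub_mem_of_fix_perp hT.n1 hA h3 x) (by omega)
  obtain ⟨x, hx, hx0⟩ := exists_ne_zero_of_finrank (K := R) (by rw [← h7]; omega)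
  obtain ⟨r, hr, hr0, h8⟩ := exists_fixed nA (K := R) (fun x _ => h7 ▸ ⟨x, rfl⟩) hx hx0
  refine hr0 (hR r hr fun y hy => ?_)
  obtain ⟨z, rfl⟩ := h7 ▸ hy
  rw [B_comm]
  exact range_perp_ker hA (sub_eq_zero.1 h8) z

theorem Ctx.step1 (hC : Ctx Q₁ Q₂ Q M) {S : Submodule F U} (hS : S ≠ ⊥) {u : U} (hu : Q₁ u ≠ 0)
    (h : FX M (S ⊔ F ∙ u) ≤ KG F U W) {c : (W →ₗ[F] U) ≃ₗ[F] (W →ₗ[F] U)} (hc : c ∈ FX M S)
    (h1 : ∀ v ∈ TT W (F ∙ u), c v ∈ TT W (F ∙ u)) : Kron c := by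
  have hT := hC.T
  obtain ⟨p, hp⟩ := CharP.exists F
  haveI : Fact p.Prime := ⟨CharP.char_is_prime F p⟩
  let N : Subgroup ((W →ₗ[F] U) ≃ₗ[F] (W →ₗ[F] U)) :=
    { carrier := {c | c ∈ FX M S ∧ ∀ v ∈ TT W (F ∙ u), c v ∈ TT W (F ∙ u)}
      mul_mem' := fun ha hb => ⟨mul_mem ha.1 hb.1, fun v hv => ha.2 _ (hb.2 v hv)⟩
      one_mem' := ⟨one_mem _, fun _ h => h⟩
      inv_mem' := fun ha => ⟨inv_mem ha.1, inv_mem_of_stab ha.2⟩ }
  refine hC.cl (p := p) N (FX M S ⊓ FX M (F ∙ u)) (fun _ h => h.1.1) (fun k hk => h ⟨hk.1.1, ?_⟩)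
    (fun w y c hc => ⟨hC.FX_rho _ w y c hc.1, fun v hv z =>
      hc.2 ((rho U Q₂ w y)⁻¹ v) (fun _ => hv _) _⟩)
    (fun w y c hc => ⟨hC.FX_rho _ w y c hc.1, hC.FX_rho _ w y c hc.2⟩)
    (fun c hc k hk => ⟨(FX M S).mul_mem ((FX M S).mul_mem hc.1 hk.1) ((FX M S).inv_mem hc.1),
      FX_conj hc.1.1 (inv_mem_of_stab hc.2) hk.2⟩) (Or.inl fun c hc hk h1 => ?_) ⟨hc, h1⟩
  · intro v hv
    refine mem_Eg1.1 (hT.TT_ind (Eg k 1) (fun w r hr => mem_Eg1.2 ?_) hv)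
    obtain ⟨a, ha, b, hb, rfl⟩ := Submodule.mem_sup.1 hr
    rw [map_add, map_add, hk.1.2 _ (St.pt_mem_TT w ha), hk.2.2 _ (St.pt_mem_TT w hb)]
  obtain ⟨A, hA, rfl, h3⟩ := hT.kron_fix (hC.le_O hc.1.1) hk hS hc.1.2
  obtain ⟨w, -, hw⟩ := hT.exists_sing
  obtain ⟨z, hz⟩ := exists_apply_eq_one (B_ne_zero hT.n2 hw)
  have hm := St.pt_mem_TT (Q₂ := Q₂) w (Submodule.mem_span_singleton_self (R := F) u)
  obtain ⟨d, hd⟩ := Submodule.mem_span_singleton.1 (hc.2 _ hm z)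
  simp only [kr_apply, one_app, pt_apply, hz, one_smul] at hd
  have h4 : d * d = 1 := by
    have := hA u
    rw [← hd, Q_smul] at this
    exact mul_right_cancel₀ hu (by rw [this, one_mul])
  have h5 : ∀ n : ℕ, (A ^ n) u = d ^ n • u := fun n => by
    induction n with
    | zero => simp
    | succ n ih => rw [pow_succ, mul_app, ← hd, map_smul, ih, smul_smul, pow_succ']
  have h6 := LinearMap.congr_fun (h1.2.2 _ hm) z
  simp only [kr_pow, one_pow, kr_apply, one_app, pt_apply, hz, one_smul, h5] at h6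
  obtain ⟨k, rfl⟩ := odd_char (p := p) hT.h2
  rw [pow_succ, pow_mul, pow_two, h4, one_pow, one_mul, hd] at h6
  refine ⟨hc.1, hc.1.1, fun v hv => LinearMap.ext fun y => ?_⟩
  obtain ⟨e, he⟩ := Submodule.mem_span_singleton.1 (hv y)
  simp [← he, h6]

variable (W Q₁) in
/-- `r_u ⊗ 1` -/
def sU (u : U) : (W →ₗ[F] U) ≃ₗ[F] (W →ₗ[F] U) := kr (refl Q₁ u) 1

theorem sU_kron (u : U) : sU W Q₁ u ∈ KG F U W := kr_kron _ _

theorem sU_mul_self (u : U) : sU W Q₁ u * sU W Q₁ u = 1 := by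
  rw [sU, kr_mul, refl_mul_self, mul_one, kr_one]

theorem kr_conj_sU {A : U ≃ₗ[F] U} (hA : A ∈ O Q₁) (C : W ≃ₗ[F] W) (u : U) :
    kr A C * sU W Q₁ u * (kr A C)⁻¹ = sU W Q₁ (A u) := by
  rw [sU, sU, kr_inv, kr_mul, kr_mul, conj_refl hA]; simp

theorem sU_mem_FX {R : Submodule F U} {u : U} (hu : u ∈ R) (h : sU W Q₁ u ∈ M) :
    sU W Q₁ u ∈ FX M (perp Q₁ R) :=
  ⟨h, fun v hv => LinearMap.ext fun z => refl_of_perp (hv z u hu)⟩

theorem St.finrank_sU_neg (hT : St Q₁ Q₂ Q) {u : U} (hu : Q₁ u ≠ 0) :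
    finrank F (Eg (sU W Q₁ u) (-1)) = finrank F W := by
  rw [sU, Eg_kr, finrank_TT, Eg_refl_neg hT.h2 hu,
    finrank_span_singleton (by rintro rfl; simp at hu), mul_one]

theorem St.finrank_sU_one (hT : St Q₁ Q₂ Q) {u : U} (hu : Q₁ u ≠ 0) :
    finrank F (Eg (sU W Q₁ u) 1) + finrank F W = finrank F W * finrank F U := by
  have := Submodule.finrank_add_eq_of_isCompl (isCompl_Eg hT.h2 (sU_mul_self (W := W) (Q₁ := Q₁) u))
  rwa [finrank_linearMap, hT.finrank_sU_neg hu] at this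

theorem Ctx.RR (hC : Ctx Q₁ Q₂ Q M) {R : Submodule F U} (hR : perp Q₁ R ≠ ⊥)
    (h : ∀ u ∈ R, Q₁ u ≠ 0 → FX M (perp Q₁ R ⊔ F ∙ u) ≤ KG F U W) {u : U} (huR : u ∈ R)
    (hu : Q₁ u ≠ 0) (hs : sU W Q₁ u ∈ M) {c : (W →ₗ[F] U) ≃ₗ[F] (W →ₗ[F] U)}
    (hc : c ∈ FX M (perp Q₁ R)) (hk : Kron (c * sU W Q₁ u * c⁻¹)) : Kron c := by
  have hT := hC.T
  have hm := mul_mem (mul_mem hc (sU_mem_FX huR hs)) (inv_mem hc)
  obtain ⟨A, hA, h1, h3⟩ := hT.kron_fix (hC.le_O hm.1) hk hR hm.2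
  have h4 := finrank_Eg_conj c (sU W Q₁ u) (-1)
  rw [h1, Eg_kr, finrank_TT, hT.finrank_sU_neg hu] at h4
  have hb := hT.hb
  have h5 : finrank F (Eg A (-1)) = 1 := by nlinarith
  obtain ⟨u₃, h6, h7⟩ := exists_ne_zero_of_finrank h5.ge
  have h8 : Eg A (-1) = F ∙ u₃ := (Submodule.eq_of_le_of_finrank_le
    ((Submodule.span_singleton_le_iff_mem _ _).2 h6) (by rw [finrank_span_singleton h7, h5])).symm
  have h9 : ∀ v, v ∈ TT W (F ∙ u) ↔ c v ∈ TT W (F ∙ u₃) := fun v => by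
    rw [← h8, ← Eg_kr, ← h1, ← Eg_refl_neg hT.h2 hu, ← Eg_kr, mem_Eg2, mem_Eg2]
    simp [mul_app, ← map_neg, sU]
  have h10 : Q₁ u₃ ≠ 0 := by
    obtain ⟨y, -, hy⟩ := hT.n2.ndOn_top.exists_nonsing le_rfl (by simp; omega)
    obtain ⟨z, hz⟩ := hT.eq_pt_of_TT ((h9 _).1 (St.pt_mem_TT (Q₂ := Q₂) y
      (Submodule.mem_span_singleton_self u)))
    have := hC.le_O hc.1 (pt Q₂ y u)
    rw [hz, hT.Q_pt, hT.Q_pt] at this
    intro h0
    simp [h0, hT.h2, hu, hy] at this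
  have h11 : u₃ ∈ R := by
    rw [← hT.n1.perp_perp R]
    exact fun x hx => Eg_perp hT.h2 hA (h3 x hx) (mem_Eg2.1 h6)
  obtain ⟨w, y, hw, hw0, hy, hy0⟩ := hT.exists_rho
  have h12 := hC.step1 hR h10 (h _ h11 h10) (mul_mem hc (hC.FX_rho _ w y _ (inv_mem hc)))
    fun v hv => (h9 _).1 fun z => (h9 (c⁻¹ ((rho U Q₂ w y)⁻¹ v))).2
      (by rw [apply_inv_apply]; exact fun _ => hv _) _
  refine hC.R_rho hw hw0 hy hy0 hc.1 ?_
  simpa [mul_assoc, mem_KG] using (KG F U W).mul_mem h12 (rho_kron (Q₂ := Q₂) w y)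

theorem pow_fix {G X : Type*} [Group G] [MulAction G X] {g : G} {x : X} (h : g • x = x) (n : ℕ) :
    (g ^ n) • x = x := (MulAction.stabilizer G x).pow_mem h n

theorem Ctx.odd_order (hC : Ctx Q₁ Q₂ Q M) {Y : Subgroup ((W →ₗ[F] U) ≃ₗ[F] (W →ₗ[F] U))}
    (hY : Y ≤ M) {u u' : U} (hu : Q₁ u ≠ 0) (hu' : Q₁ u' ≠ 0) (hs : sU W Q₁ u ∈ Y)
    (hs' : sU W Q₁ u' ∈ Y) (hR : ∀ c ∈ Y, Kron (c * sU W Q₁ u * c⁻¹) → Kron c)
    (hR' : ∀ c ∈ Y, Kron (c * sU W Q₁ u' * c⁻¹) → Kron c)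
    {g : (W →ₗ[F] U) ≃ₗ[F] (W →ₗ[F] U)} (hg : g ∈ Y) (hg' : ¬ Kron g) :
    Odd (orderOf (sU W Q₁ u * (g * sU W Q₁ u' * g⁻¹))) := by
  have hT := hC.T
  haveI := finite_equiv (F := F) (U := W →ₗ[F] U)
  rw [← Nat.not_even_iff_odd]
  intro he
  set s := sU W Q₁ u with hs0
  set t := g * sU W Q₁ u' * g⁻¹ with ht0
  have ht : t ∈ Y := mul_mem (mul_mem hg hs') (inv_mem hg)
  obtain ⟨m, j, h1, h2, -, h3⟩ := dih_even' (s := s) (sU_mul_self u)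
    (by rw [ht0, conj_mul, sU_mul_self, mul_one, mul_inv_cancel] : t * t = 1) he
  have hY' := fun n : ℕ => pow_mem (mul_mem hs ht) n
  set z := (s * t) ^ m
  have hz : z ∈ KG F U W := hR z (hY' m) (by rw [h2, mul_inv_cancel_right]; exact sU_kron u)
  have hzs : z * s ∈ KG F U W := mul_mem hz (sU_kron u)
  obtain ⟨u₂, hu₂, h4⟩ : ∃ u₂, Q₁ u₂ ≠ 0 ∧ z * s = sU W Q₁ u₂ := by
    rcases h3 with ⟨h3, -⟩ | ⟨h3, -⟩
    · obtain ⟨A, hA, C, -, h5⟩ := hT.kron_norm (hC.le_O (hY (hY' j))) (hR _ (hY' j) (h3 ▸ hzs))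
      exact ⟨A u, by rwa [hA], by rw [h3, h5, kr_conj_sU hA]⟩
    · have h4 : z * s = ((s * t) ^ (j + 1) * g) * sU W Q₁ u' * ((s * t) ^ (j + 1) * g)⁻¹ := by
        rw [h3]; nth_rewrite 2 [ht0]; group
      obtain ⟨A, hA, C, -, h5⟩ := hT.kron_norm (hC.le_O (hY (mul_mem (hY' (j + 1)) hg)))
        (hR' _ (mul_mem (hY' (j + 1)) hg) (h4 ▸ hzs))
      exact ⟨A u', by rwa [hA], by rw [h4, h5, kr_conj_sU hA]⟩
  have h5 : z = kr (refl Q₁ u₂ * refl Q₁ u) 1 := by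
    rw [← mul_one z, ← sU_mul_self u, ← mul_assoc, h4, sU, sU, kr_mul, mul_one]
  have h6 : ∀ c : F, c • u ≠ u₂ := by
    rintro c rfl
    rw [refl_smul (by rintro rfl; simp at hu₂), refl_mul_self, kr_one] at h5
    exact h1 h5
  have h7 : B Q₁ u₂ u = 0 := by
    rw [h5, hs0, sU, kr_mul, kr_mul, mul_one] at h2
    have := LinearEquiv.congr_fun (hT.kr_inj h2) u
    simp only [mul_app, refl_self hu, map_neg, neg_neg] at this
    obtain ⟨c, hc⟩ := Submodule.mem_span_singleton.1 (Eg_refl_neg hT.h2 hu ▸ mem_Eg2.2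
      (neg_eq_iff_eq_neg.1 this.symm))
    by_contra h0
    rw [refl_apply] at hc
    refine h6 ((1 - c) * Q₁ u₂ / B Q₁ u₂ u) (smul_right_injective U (mul_ne_zero (inv_ne_zero hu₂)
      h0) ?_)
    simp only [smul_smul]
    rw [show (Q₁ u₂)⁻¹ * B Q₁ u₂ u * ((1 - c) * Q₁ u₂ / B Q₁ u₂ u) = 1 - c by field_simp]
    linear_combination (norm := module) -hc
  have hu0 : u ≠ 0 := by rintro rfl; simp at hu
  have f1 := hT.n1.finrank_perp (Submodule.span F {u, u₂})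
  rw [finrank_pair hu0 h6] at f1
  have f2 := finrank_inf_ge (Eg s 1) (Eg t 1)
  rw [finrank_linearMap, ht0, finrank_Eg_conj] at f2
  have f3 := hT.finrank_sU_one hu
  have f4 := hT.finrank_sU_one hu'
  have h8 : Eg s 1 ⊓ Eg t 1 = TT W (perp Q₁ (Submodule.span F {u, u₂})) :=
    Submodule.eq_of_le_of_finrank_le (fun v hv y => by
      have h8 : z v = v := pow_fix (g := s * t) (x := v) (by
        change s (t v) = v
        rw [mem_Eg1.1 hv.2, mem_Eg1.1 hv.1]) m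
      have h9 := LinearMap.congr_fun h8 y
      rw [h5, kr_apply, one_app, mul_app, refl_apply, refl_apply] at h9
      have a1 := congrArg (B Q₁ u) h9
      simp [B_comm Q₁ u u₂, h7, B_self, hu, hT.h2] at a1
      have a2 := congrArg (B Q₁ u₂) h9
      simp [h7, B_self, hu₂, hT.h2, a1] at a2
      exact mem_perp_span.2 (by rintro _ (rfl | rfl) <;> assumption))
    (by rw [finrank_TT]; nlinarith)
  exact hg' (hR' g hg (hC.base (ndOn_two hT.h2 hu hu₂ (by rw [B_comm, h7]))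
    (Orth.finrank_span_pair_le _ _) ⟨hY ht, fun v hv => mem_Eg1.1 (h8 ▸ hv).2⟩))

theorem swap_of_odd {G : Type*} [Group G] {Y : Subgroup G} {s t : G} (hs : s ∈ Y) (ht : t ∈ Y)
    (h1 : s * s = 1) (h2 : t * t = 1) (h : Odd (orderOf (s * t))) :
    ∃ j : ℕ, ∃ r ∈ Y, r = (s * t) ^ j * s * ((s * t) ^ j)⁻¹ ∧ r * r = 1 ∧ r * s * r⁻¹ = t := by
  obtain ⟨j, hj⟩ := H1.dih_odd h1 h2 h
  have h3 : (s * t) ^ j * s * ((s * t) ^ j)⁻¹ * ((s * t) ^ j * s * ((s * t) ^ j)⁻¹) = 1 := by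
    rw [conj_mul, h1, mul_one, mul_inv_cancel]
  exact ⟨j, _, mul_mem (mul_mem (pow_mem (mul_mem hs ht) j) hs) (inv_mem (pow_mem (mul_mem hs ht) j)),
    rfl, h3, by rw [inv_eq_of_mul_eq_one_right h3, hj]⟩

theorem eq_refl_of_fix (hQ : Nd Q₁) (h2 : (2 : F) ≠ 0) {A : U ≃ₗ[F] U} (hA : A ∈ O Q₁) (h1 : A ≠ 1)
    (h : finrank F U ≤ finrank F (Eg A 1) + 1) : ∃ u, Q₁ u ≠ 0 ∧ A = refl Q₁ u := by
  have f1 := finrank_Eg_add A
  obtain ⟨x, hx⟩ : ∃ x, A x - x ≠ 0 := by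
    by_contra! h
    exact h1 (LinearEquiv.ext fun x => sub_eq_zero.1 (h x))
  have h3 : (F ∙ (A x - x)) = LinearMap.range ((A : U →ₗ[F] U) - 1) :=
    Submodule.eq_of_le_of_finrank_le ((Submodule.span_singleton_le_iff_mem _ _).2 ⟨x, rfl⟩)
      (by rw [finrank_span_singleton hx]; omega)
  have h4 : ∀ y, B Q₁ (A x - x) y = 0 → A y = y := fun y hy => sub_eq_zero.1 (hQ _ fun z => by
    obtain ⟨c, hc⟩ := Submodule.mem_span_singleton.1 (h3.ge ⟨A⁻¹ z, rfl⟩)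
    simp only [LinearMap.sub_apply, LinearEquiv.coe_coe, apply_inv_apply, End.one_apply] at hc
    rw [map_sub, B_comm, O_B_inv hA, B_comm Q₁ z, ← map_sub, ← neg_sub, ← hc, B_comm,
      map_neg, map_smul, LinearMap.neg_apply, LinearMap.smul_apply, hy]
    simp)
  have h5 : Q₁ (A x - x) ≠ 0 := fun h0 => by
    have := two_le_rank hQ h2 hA ⟨2, by
      ext y
      obtain ⟨c, hc⟩ := Submodule.mem_span_singleton.1 (h3.ge ⟨y, rfl⟩)
      rw [pow_two, End.mul_apply, ← hc, map_smul]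
      change c • (A (A x - x) - (A x - x)) = 0
      rw [h4 _ (B_self_of_sing _ h0), sub_self, smul_zero]⟩ h1
    omega
  refine ⟨_, h5, LinearEquiv.ext fun y => ?_⟩
  have h6 : B Q₁ (A x - x) x ≠ 0 := fun h0 => hx (sub_eq_zero.2 (h4 x h0))
  have h7 : y = (y - (B Q₁ (A x - x) y / B Q₁ (A x - x) x) • x) +
    (B Q₁ (A x - x) y / B Q₁ (A x - x) x) • x := by abel
  have h8 : B Q₁ (A x - x) (y - (B Q₁ (A x - x) y / B Q₁ (A x - x) x) • x) = 0 := by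
    rw [map_sub, map_smul, smul_eq_mul, div_mul_cancel₀ _ h6, sub_self]
  rw [h7, map_add, map_add, h4 _ h8, refl_of_perp h8, map_smul, map_smul,
    refl_sub_apply (hA x).symm h5]

theorem Ctx.swap (hC : Ctx Q₁ Q₂ Q M) {R : Submodule F U} (hR : NdOn Q₁ R) (h3 : 3 ≤ finrank F R)
    (hR0 : perp Q₁ R ≠ ⊥) (hRR : ∀ u ∈ R, Q₁ u ≠ 0 → sU W Q₁ u ∈ M → ∀ c ∈ FX M (perp Q₁ R),
      Kron (c * sU W Q₁ u * c⁻¹) → Kron c) : FX M (perp Q₁ R) ≤ KG F U W := by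
  intro g hg
  by_contra hg'
  have hT := hC.T
  have h2 := hT.h2
  obtain ⟨c, hc, h4⟩ := hC.good
  obtain ⟨u₁, m1, q1⟩ := hR.exists_Q_eq le_rfl (by omega) c
  have n1 : Q₁ u₁ ≠ 0 := q1 ▸ hc
  have e1 := finrank_inf_perp_ge (Q := Q₁) R (F ∙ u₁)
  have e2 := finrank_span_singleton_le (F := F) u₁
  obtain ⟨u₂, ⟨m2, b2⟩, q2⟩ := (hR.inf_perp (ndOn_one h2 n1)
    ((Submodule.span_singleton_le_iff_mem _ _).2 m1)).exists_Q_eq le_rfl (by omega) c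
  replace b2 := mem_perp_span_singleton.1 b2
  have n2 : Q₁ u₂ ≠ 0 := q2 ▸ hc
  have y1 := sU_mem_FX m1 (h4 _ q1)
  have y2 := sU_mem_FX m2 (h4 _ q2)
  have r1 := hRR _ m1 n1 (h4 _ q1)
  have r2 := hRR _ m2 n2 (h4 _ q2)
  have ht := mul_mem (mul_mem hg y1) (inv_mem hg)
  have ht2 : g * sU W Q₁ u₁ * g⁻¹ * (g * sU W Q₁ u₁ * g⁻¹) = 1 := by
    rw [conj_mul, sU_mul_self, mul_one, mul_inv_cancel]
  obtain ⟨j₁, t₁, a1, a2, a3, a4⟩ := swap_of_odd y1 ht (sU_mul_self _) ht2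
    (hC.odd_order (FX_le _) n1 n1 y1 y1 r1 r1 hg hg')
  obtain ⟨j₂, t₂, c1, c2, c3, c4⟩ := swap_of_odd y2 ht (sU_mul_self _) ht2
    (hC.odd_order (FX_le _) n2 n1 y2 y1 r2 r1 hg hg')
  have k1 : ¬ Kron t₁ := fun h => hg' (r1 g hg (a4 ▸ mul_mem (mul_mem h (sU_kron _))
    ((KG F U W).inv_mem h)))
  have i1 : t₁⁻¹ = t₁ := inv_eq_of_mul_eq_one_right a3
  have i2 : t₂⁻¹ = t₂ := inv_eq_of_mul_eq_one_right c3
  have d1 : t₁ * t₂ * sU W Q₁ u₂ * (t₁ * t₂)⁻¹ = sU W Q₁ u₁ := by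
    have : t₁ * t₂ * sU W Q₁ u₂ * (t₁ * t₂)⁻¹ = t₁ * (t₂ * sU W Q₁ u₂ * t₂⁻¹) * t₁⁻¹ := by group
    rw [this, c4, ← a4, ← mul_assoc, ← mul_assoc, a3, one_mul, mul_assoc, i1, a3, mul_one]
  have hd := mul_mem a1 c1
  obtain ⟨δ, hδ, d2, d3⟩ := hT.kron_fix (hC.le_O hd.1) (r2 _ hd (d1 ▸ sU_kron _)) hR0 hd.2
  have d4 : δ ≠ 1 := by
    rintro rfl
    rw [d2, kr_one, one_mul, inv_one, mul_one] at d1
    obtain ⟨e, he⟩ := eq_smul_of_refl h2 n2 n1 (hT.kr_inj d1)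
    simp [← he, B_self, h2, n2] at b2
    simp [← he, b2] at n1
  have f1 := hT.finrank_sU_one n1
  have f2 := hT.finrank_sU_one n2
  rw [← finrank_Eg_conj ((sU W Q₁ u₁ * (g * sU W Q₁ u₁ * g⁻¹)) ^ j₁), ← a2] at f1
  rw [← finrank_Eg_conj ((sU W Q₁ u₂ * (g * sU W Q₁ u₁ * g⁻¹)) ^ j₂), ← c2] at f2
  have f3 := finrank_inf_ge (Eg t₁ 1) (Eg t₂ 1)
  rw [finrank_linearMap] at f3
  by_cases h5 : finrank F U ≤ finrank F (Eg δ 1) + 1
  · obtain ⟨u, hu, rfl⟩ := eq_refl_of_fix hT.n1 h2 hδ d4 h5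
    refine k1 (hRR u ?_ hu (by rw [sU, ← d2]; exact hd.1) _ a1 ?_)
    · rw [← hT.n1.perp_perp R]
      exact fun x hx => Eg_perp h2 hδ (d3 x hx) (refl_self hu)
    · rw [sU, ← d2, ← mul_assoc, a3, one_mul, ← i2, ← mul_inv_rev, d2]
      exact (KG F U W).inv_mem (kr_kron _ _)
  have h6 : Eg t₁ 1 ⊓ Eg t₂ 1 = TT W (Eg δ 1) := Submodule.eq_of_le_of_finrank_le
    (fun v hv => by rw [← Eg_kr, ← d2, mem_Eg1, mul_app, mem_Eg1.1 hv.2, mem_Eg1.1 hv.1])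
    (by rw [finrank_TT]; nlinarith)
  have f4 := congrArg (fun K : Submodule F (W →ₗ[F] U) => finrank F K) h6
  simp only [finrank_TT] at f4
  have f5 := hT.n1.finrank_perp (Eg δ 1)
  have hb := hT.hb
  have f6 : finrank F (perp Q₁ (Eg δ 1)) ≤ 2 := by
    by_contra h
    nlinarith
  have h7 : t₁ ∈ FX M (Eg δ 1) := ⟨a1.1, fun v hv => mem_Eg1.1 (h6 ▸ hv).1⟩
  by_cases h8 : NdOn Q₁ (perp Q₁ (Eg δ 1))
  · exact k1 (hC.base h8 f6 (by rwa [hT.n1.perp_perp]))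
  obtain ⟨u₀, h9, h10, h11⟩ : ∃ u₀ ∈ perp Q₁ (Eg δ 1), u₀ ∈ Eg δ 1 ∧ u₀ ≠ 0 := by
    by_contra! h
    exact h8 fun v hv h' => h v hv (by rw [← hT.n1.perp_perp (Eg δ 1)]; exact h')
  have l0 : TT W (F ∙ u₀) ≤ TT W (Eg δ 1) :=
    TT_mono ((Submodule.span_singleton_le_iff_mem _ _).2 h10)
  let N : Subgroup ((W →ₗ[F] U) ≃ₗ[F] (W →ₗ[F] U)) :=
    { carrier := {c | c ∈ FX M (Eg δ 1) ∧ ∀ v ∈ TT W (perp Q₁ (Eg δ 1)), c v - v ∈ TT W (F ∙ u₀)}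
      mul_mem' := fun {a b} ha hb => ⟨mul_mem ha.1 hb.1, fun v hv => by
        convert add_mem (ha.2 v hv) (hb.2 v hv) using 1
        rw [← ha.1.2 _ (l0 (hb.2 v hv)), map_sub, mul_app]; abel⟩
      one_mem' := ⟨one_mem _, fun v _ => by simp⟩
      inv_mem' := fun {a} ha => ⟨inv_mem ha.1, fun v hv => by
        convert neg_mem (ha.2 v hv) using 1
        rw [← (inv_mem ha.1).2 _ (l0 (ha.2 v hv))]; simp⟩ }
  obtain ⟨p, hp⟩ := CharP.exists F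
  haveI : Fact p.Prime := ⟨CharP.char_is_prime F p⟩
  have hN := hC.cl (p := p) N ⊥ (fun _ h => h.1.1) bot_le
    (fun w y c hc => ⟨hC.FX_rho _ w y c hc.1, fun v hv z => by
      have := hc.2 ((rho U Q₂ w y)⁻¹ v) (fun _ => hv _) (eich Q₂ w y z)
      simpa [rho, mul_app] using this⟩) (by simp) (by simp)
    (Or.inr fun c hc => pow_char_eq_one h2 fun x => by
      have : c x - x ∈ TT W (perp Q₁ (Eg δ 1)) := sub_mem_of_fix_perp hT.nd (hC.le_O hc.1.1)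
        (by rw [hT.perp_TT, hT.n1.perp_perp]; exact hc.1.2) x
      exact sub_eq_zero.2 (hc.1.2 _ (l0 (hc.2 _ this))))
  have h12 : ∀ v ∈ TT W (perp Q₁ (Eg δ 1)), t₁ v + v ∈ TT W (F ∙ u₀) := by
    have f7 := Submodule.finrank_add_eq_of_isCompl (isCompl_Eg h2 a3)
    have f8 := Submodule.finrank_sup_add_finrank_inf_eq (Eg t₁ (-1)) (TT W (F ∙ u₀))
    rw [finrank_TT, finrank_span_singleton h11, show Eg t₁ (-1) ⊓ TT W (F ∙ u₀) = ⊥ from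
      (isCompl_Eg h2 a3).symm.disjoint.mono_right (fun v hv => mem_Eg1.2 (h7.2 v (l0 hv))) |>.eq_bot,
      finrank_bot] at f8
    rw [finrank_linearMap] at f7
    have h12 : Eg t₁ (-1) ⊔ TT W (F ∙ u₀) = TT W (perp Q₁ (Eg δ 1)) :=
      Submodule.eq_of_le_of_finrank_le (sup_le (fun v hv => by
        rw [← hT.perp_TT]
        exact fun x hx => Eg_perp h2 (hC.le_O a1.1) (h7.2 x hx) (mem_Eg2.1 hv))
        (TT_mono ((Submodule.span_singleton_le_iff_mem _ _).2 h9)))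
        (by rw [finrank_TT]; nlinarith)
    intro v hv
    obtain ⟨a, ha, b, hb, rfl⟩ := Submodule.mem_sup.1 (h12 ▸ hv)
    convert add_mem hb hb using 1
    rw [map_add, mem_Eg2.1 ha, h7.2 b (l0 hb)]; abel
  obtain ⟨w, y, hw, hw0, hy, hy0⟩ := hT.exists_rho
  have h13 := hN (x := t₁ * (rho U Q₂ w y * t₁⁻¹ * (rho U Q₂ w y)⁻¹))
    ⟨mul_mem h7 (hC.FX_rho _ w y _ (inv_mem h7)), fun v hv => by
      have h14 : rho U Q₂ w y (t₁ ((rho U Q₂ w y)⁻¹ v) + (rho U Q₂ w y)⁻¹ v) ∈ TT W (F ∙ u₀) :=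
        fun _ => h12 ((rho U Q₂ w y)⁻¹ v) (fun _ => hv _) _
      convert sub_mem h14 (h12 v hv) using 1
      rw [← h7.2 _ (l0 h14), i1]
      simp [mul_app]
      abel⟩
  refine k1 (hC.R_rho hw hw0 hy hy0 a1.1 ?_)
  simpa [mul_assoc, mem_KG] using (KG F U W).mul_mem h13 (rho_kron (Q₂ := Q₂) w y)

theorem Ctx.FX_le_KG (hC : Ctx Q₁ Q₂ Q M) {R : Submodule F U} (hR : NdOn Q₁ R)
    (hR0 : perp Q₁ R ≠ ⊥) : FX M (perp Q₁ R) ≤ KG F U W := by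
  have hT := hC.T
  induction hn : finrank F R using Nat.strong_induction_on generalizing R with
  | _ n ih =>
    by_cases h : finrank F R ≤ 2
    · exact hC.base hR h
    refine hC.swap hR (by omega) hR0 fun u huR hu hs c hc =>
      hC.RR hR0 (fun u huR hu => ?_) huR hu hs hc
    have l1 := (Submodule.span_singleton_le_iff_mem _ _).2 huR
    have e1 := hR.finrank_inf_perp l1
    rw [finrank_span_singleton (by rintro rfl; simp at hu)] at e1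
    have e2 : perp Q₁ (R ⊓ perp Q₁ (F ∙ u)) = perp Q₁ R ⊔ F ∙ u := by
      rw [hT.n1.perp_inf, hT.n1.perp_perp]
    rw [← e2]
    exact ih _ (by omega) (hR.inf_perp (ndOn_one hT.h2 hu) l1)
      (fun h0 => hR0 (eq_bot_iff.2 (h0 ▸ perp_anti inf_le_left))) rfl

end Cfsg.Agent.Orth.OO
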