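import Cfsg.Agent.Orth.Ext1
import Cfsg.Agent.H9.Sp.Ten7

/-! `Sp ⊗ Sp` in `Ω`, part 1: symplectic linear algebra and the basic set-up. -/

set_option autoImplicit false
set_option linter.unusedSimpArgs false
set_option linter.unusedSectionVars false

namespace Cfsg.Agent.Orth.SS

open Module Cfsg.Agent.H6
open Cfsg.Agent.H9.Sp (Symp Sp tvE tvE_mem tvE_inv_apply Sp_trans witt Sp_le Sp_left Sp_right
  kron_mul kron_inv exists_ne_ne)

attribute [-simp] LinearEquiv.coe_inv Submodule.mem_map_equiv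

section Symp

variable {F : Type*} [Field F] {U : Type*} [AddCommGroup U] [Module F U] [FiniteDimensional F U]
  {f : U →ₗ[F] U →ₗ[F] F}

theorem witt_pair (hf : Symp f) {x y x' y' : U} (hx : x ≠ 0) (hy : ∀ c : F, y ≠ c • x)
    (hx' : x' ≠ 0) (hy' : ∀ c : F, y' ≠ c • x') (h : f x y = f x' y') :
    ∃ g ∈ Sp f, g x = x' ∧ g y = y' := by
  obtain ⟨φ, h1, h2⟩ := exists_dual_pair hy
  obtain ⟨ψ, h3, h4⟩ := exists_dual_pair (not_smul_symm hx hy)
  let α : U →ₗ[F] U := rk ψ x' + rk φ y'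
  have hα : ∀ a b : F, α (a • x + b • y) = a • x' + b • y' := fun a b => by
    simp [α, h1, h2, h3, h4]
  obtain ⟨g, hg, hgx⟩ := witt hf (Submodule.span F {x, y}) α (fun u hu h0 => by
      obtain ⟨a, b, rfl⟩ := Submodule.mem_span_pair.1 hu
      rw [hα] at h0
      have hb : b = 0 := by
        by_contra hb
        exact hy' (-(a / b)) (by
          have : b • y' = -(a • x') := eq_neg_of_add_eq_zero_right h0
          calc y' = b⁻¹ • b • y' := by rw [smul_smul, inv_mul_cancel₀ hb, one_smul]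
            _ = _ := by rw [this]; match_scalars; field_simp)
      have ha : a = 0 := by simpa [hb, hx'] using h0
      simp [ha, hb]) (fun u hu v hv => by
      obtain ⟨a, b, rfl⟩ := Submodule.mem_span_pair.1 hu
      obtain ⟨c, d, rfl⟩ := Submodule.mem_span_pair.1 hv
      rw [hα, hα]
      simp [hf.alt, hf.skew y x, hf.skew y' x', h])
  refine ⟨g, hg, ?_, ?_⟩
  · simpa using (hgx x (Submodule.subset_span (by simp))).trans (by simpa using hα 1 0)
  · simpa using (hgx y (Submodule.subset_span (by simp))).trans (by simpa using hα 0 1)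

theorem exists_adj (hf : Symp f) (S : U →ₗ[F] U) :
    ∃ T : U →ₗ[F] U, ∀ u y, f (S u) y = f u (T y) := by
  choose T hT using fun y => hf.exists_dual (f.flip y ∘ₗ S)
  refine ⟨⟨⟨T, fun y y' => hf.ext fun x => ?_⟩, fun c y => hf.ext fun x => ?_⟩, fun u y => ?_⟩
  · simp [hT]
  · simp [hT]
  · exact (hT y u).symm

theorem exists_left (hf : Symp f) (φ : Dual F U) : ∃ x, f x = φ := by
  obtain ⟨s, hs⟩ := hf.exists_dual φ
  exact ⟨-s, LinearMap.ext fun x => by rw [← hs, hf.skew x s]; simp⟩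

theorem left_ne (hf : Symp f) {x : U} (hx : x ≠ 0) : f x ≠ 0 := by
  obtain ⟨y, hy⟩ := hf.exists_ne hx
  intro h; simp [h] at hy

theorem exists_perp_one (hf : Symp f) {x y : U} (h : ∀ c : F, y ≠ c • x) :
    ∃ r, f x r = 0 ∧ f y r = 1 := by
  refine exists_vec_pair fun c hc => h c (hf.ext' fun z => ?_)
  simp [hc]

/-- a conjugation invariant subalgebra of `End U` that is not scalar is everything -/
theorem alg_full (hf : Symp f) (h : 3 ≤ finrank F U ∨ ∃ t : F, t ≠ 0 ∧ t ≠ 1)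
    (E : Submodule F (U →ₗ[F] U)) (hmul : ∀ S ∈ E, ∀ T ∈ E, S ∘ₗ T ∈ E)
    (hadj : ∀ S ∈ E, ∀ T : U →ₗ[F] U, (∀ u y, f (S u) y = f u (T y)) → T ∈ E)
    (hE : ∀ g ∈ Sp f, ∀ S ∈ E, cj g S ∈ E) {S : U →ₗ[F] U} (hS : S ∈ E)
    (hS' : ¬ ∃ c : F, ∀ u, S u = c • u) (θ : Dual F U) (u' : U) : rk θ u' ∈ E := by
  have key : ∀ (u : U) (t : F), t • (rk (f.flip u) u ∘ₗ S - S ∘ₗ rk (f.flip u) u) -
      (t ^ 2 * f (S u) u) • rk (f.flip u) u ∈ E := by
    intro u t
    convert E.sub_mem (hE _ (tvE_mem hf u t) S hS) hS using 1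
    ext v
    simp only [LinearMap.sub_apply, LinearMap.smul_apply, LinearMap.comp_apply, rk_apply, map_smul,
      cj_apply, H9.Sp.tvE_apply, tvE_inv_apply, map_sub, smul_eq_mul, LinearMap.flip_apply]
    module
  have hN : ∃ u, u ≠ 0 ∧ rk (f.flip u) u ∈ E := by
    by_cases halt : ∀ u, f (S u) u = 0
    · obtain ⟨u, hu⟩ : ∃ u, ∀ c : F, S u ≠ c • u := by
        by_contra! h'
        exact hS' (eig_const S LinearMap.id (fun _ _ h => h) h')
      have hu0 : u ≠ 0 := by rintro rfl; exact hu 0 (by simp)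
      obtain ⟨r, h1, h2⟩ := exists_perp_one hf hu
      have h3 : f (S r) u = -1 := by
        have := halt (u + r)
        simp only [map_add, LinearMap.add_apply, halt, h2] at this
        linear_combination this
      have h4 : f (S (S u)) u = 0 := by
        have := halt (u + S u)
        simp only [map_add, LinearMap.add_apply, halt, hf.alt] at this
        linear_combination this
      refine ⟨u, hu0, ?_⟩
      convert hmul _ (key u 1) _ (hE _ (tvE_mem hf r 1) _ (key u 1)) using 1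
      ext v
      simp only [LinearMap.sub_apply, LinearMap.smul_apply, LinearMap.comp_apply, rk_apply,
        map_smul, cj_apply, H9.Sp.tvE_apply, tvE_inv_apply, map_sub, smul_eq_mul,
        LinearMap.flip_apply, halt, h1, h2, h3, h4, hf.alt, map_add, LinearMap.add_apply,
        hf.skew r u]
      module
    push Not at halt
    obtain ⟨u, hu⟩ := halt
    have hu0 : u ≠ 0 := by rintro rfl; simp at hu
    rcases h with h | ⟨t, ht0, ht1⟩
    · set D := (1 : F) • (rk (f.flip u) u ∘ₗ S - S ∘ₗ rk (f.flip u) u) -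
        ((1 : F) ^ 2 * f (S u) u) • rk (f.flip u) u with hD
      have hD' : ∀ y, D y = (f (S y) u - f (S u) u * f y u) • u - f y u • S u := fun y => by
        simp only [hD, LinearMap.sub_apply, LinearMap.smul_apply, LinearMap.comp_apply, rk_apply,
          map_smul, LinearMap.flip_apply]
        module
      have hSu : ∀ c : F, S u ≠ c • u := fun c hc => hu (by simp [hc, hf.alt])
      obtain ⟨u₁, ⟨h3, h4⟩, h5⟩ := exists_ne_zero_of_finrank
        (K := LinearMap.ker (f.flip u) ⊓ LinearMap.ker (f.flip u ∘ₗ S))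
        (by have := finrank_ker₂_ge (f.flip u) (f.flip u ∘ₗ S); omega)
      replace h3 : f u₁ u = 0 := h3
      replace h4 : f (S u₁) u = 0 := h4
      have h6 : D u₁ = 0 := by simp [hD', h3, h4]
      have h7 : D u = f (S u) u • u := by simp [hD', hf.alt]
      obtain ⟨ψ, hψ⟩ := exists_dual_one' (F := F) hu0
      obtain ⟨s, -, h8, h9⟩ := exists_ne_ne (S := ⊤) (f u₁) (ψ ∘ₗ D)
        (by obtain ⟨x, hx⟩ := hf.exists_ne h5; exact ⟨x, trivial, hx⟩)
        ⟨u, trivial, by simp [h7, hψ, hu]⟩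
      set v := (f u (S u) / f u₁ s) • s with hv
      have hDv : D v ≠ 0 := fun h0 => by
        have : ψ (D v) = 0 := by rw [h0, map_zero]
        simp [hv, h8, hf.ne_comm hu] at this
        exact h9 this
      obtain ⟨g, hg, hg1, hg2⟩ := witt_pair hf hu0 hSu h5 (y' := v)
        (fun c hc => hDv (by rw [hc, map_smul, h6, smul_zero])) (by simp [hv, h8])
      have hR : rk (f.flip u₁) (D v) ∈ E := by
        convert E.neg_mem (hmul _ (key u 1) _ (hE _ hg _ (key u 1))) using 1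
        ext y
        rw [← hD]
        simp only [LinearMap.neg_apply, LinearMap.comp_apply, cj_apply, hD' (g⁻¹ y), map_sub,
          map_smul, hg1, hg2, h6, rk_apply, LinearMap.flip_apply, ← Sp_right hg]
        module
      by_cases h10 : ∀ c : F, u₁ ≠ c • D v
      · obtain ⟨r, h11, h12⟩ := exists_perp_one hf h10
        refine ⟨D v, hDv, ?_⟩
        convert hmul _ hR _ (hE _ (tvE_mem hf r 1) _ (hadj _ hR (-rk (f.flip (D v)) u₁) ?_))
          using 1
        · ext y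
          simp only [LinearMap.neg_apply, LinearMap.comp_apply, cj_apply, map_sub,
            map_smul, rk_apply, LinearMap.flip_apply, H9.Sp.tvE_apply, tvE_inv_apply, map_neg,
            map_add, LinearMap.add_apply, LinearMap.sub_apply, LinearMap.smul_apply,
            hf.skew r (D v), hf.skew r u₁, h11, h12, hf.alt, smul_eq_mul]
          module
        · intro a y
          simp [hf.skew y (D v), mul_comm]
      · push Not at h10
        obtain ⟨c, hc⟩ := h10
        have hc0 : c ≠ 0 := by rintro rfl; exact h5 (by simpa using hc)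
        refine ⟨D v, hDv, ?_⟩
        convert E.smul_mem c⁻¹ hR using 1
        ext y
        rw [hc]
        simp [smul_smul, hc0]
    · refine ⟨u, hu0, ?_⟩
      have := E.smul_mem ((t - t ^ 2) * f (S u) u)⁻¹
        (E.sub_mem (key u t) (E.smul_mem t (key u 1)))
      have h3 : t - t ^ 2 ≠ 0 := by
        rw [show t - t ^ 2 = t * (1 - t) by ring]
        exact mul_ne_zero ht0 (sub_ne_zero.2 ht1.symm)
      convert this using 1
      match_scalars <;> field_simp <;> ring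
  obtain ⟨u, hu0, hu⟩ := hN
  have hall : ∀ x, x ≠ 0 → rk (f.flip x) x ∈ E := fun x hx => by
    obtain ⟨g, hg, rfl⟩ := Sp_trans hf hu0 hx
    convert hE g hg _ hu using 1
    ext y
    simp [Sp_right hg]
  obtain ⟨s, hs⟩ := hf.exists_dual θ
  by_cases hs0 : s = 0
  · convert E.zero_mem using 1
    ext y; simp [← hs, hs0]
  by_cases hu' : u' = 0
  · simp [hu']
  obtain ⟨x, -, h1, h2⟩ := exists_ne_ne (S := ⊤) (f s) (f u')
    (by obtain ⟨x, hx⟩ := hf.exists_ne hs0; exact ⟨x, trivial, hx⟩)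
    (by obtain ⟨x, hx⟩ := hf.exists_ne hu'; exact ⟨x, trivial, hx⟩)
  have hx : x ≠ 0 := by rintro rfl; simp at h1
  have h3 := hf.ne_comm h2
  convert E.smul_mem (f s x * f x u')⁻¹ (hmul _ (hall u' hu') _ (hmul _ (hall x hx) _ (hall s hs0)))
    using 1
  ext y
  simp only [rk_apply, LinearMap.smul_apply, LinearMap.comp_apply, map_smul, LinearMap.flip_apply,
    ← hs, smul_eq_mul]
  match_scalars
  field_simp

end Symp

variable {F : Type*} [Field F] {U : Type*} [AddCommGroup U] [Module F U] [FiniteDimensional F U]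
  {W : Type*} [AddCommGroup W] [Module F W] [FiniteDimensional F W]

/-- a quadratic form on `U ⊗ W` attached to two symplectic forms -/
structure St (f₁ : U →ₗ[F] U →ₗ[F] F) (f₂ : W →ₗ[F] W →ₗ[F] F)
    (Q : QuadraticForm F (W →ₗ[F] U)) : Prop where
  s1 : Symp f₁
  s2 : Symp f₂
  nd : Nd Q
  hB : ∀ w u v, B Q (rk (f₂ w) u) v = f₁ u (v w)
  pure : ∀ w u, Q (rk (f₂ w) u) = 0

variable {f₁ : U →ₗ[F] U →ₗ[F] F} {f₂ : W →ₗ[F] W →ₗ[F] F} {Q : QuadraticForm F (W →ₗ[F] U)}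

theorem St.hB' (hT : St f₁ f₂ Q) (w : W) (u : U) (v : W →ₗ[F] U) :
    B Q v (rk (f₂ w) u) = f₁ u (v w) := by rw [B_comm, hT.hB]

theorem St.ext_pt (hT : St f₁ f₂ Q) {Z : Type*} [AddCommGroup Z] [Module F Z]
    {a b : (W →ₗ[F] U) →ₗ[F] Z} (h : ∀ w u, a (rk (f₂ w) u) = b (rk (f₂ w) u)) : a = b :=
  ext_rk fun φ u => by
    obtain ⟨w, rfl⟩ := exists_left hT.s2 φ
    exact h w u

theorem St.span_top (hT : St f₁ f₂ Q) (X : W →ₗ[F] U) :
    X ∈ Submodule.span F {v | ∃ w u, v = rk (f₂ w) u} := by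
  rw [sum_rk X]
  refine Submodule.sum_mem _ fun i _ => Submodule.subset_span ?_
  obtain ⟨w, hw⟩ := exists_left hT.s2 ((finBasis F W).coord i)
  exact ⟨w, _, by rw [hw]⟩

theorem St.mem_O (hT : St f₁ f₂ Q) {g : (W →ₗ[F] U) ≃ₗ[F] (W →ₗ[F] U)}
    (h1 : ∀ w u v, B Q (g (rk (f₂ w) u)) (g v) = f₁ u (v w))
    (h2 : ∀ w u, Q (g (rk (f₂ w) u)) = 0) : g ∈ O Q := by
  have h3 : ∀ x v, B Q (g x) (g v) = B Q x v := fun x v => by
    have := hT.ext_pt (a := (B Q).flip (g v) ∘ₗ (g : (W →ₗ[F] U) →ₗ[F] (W →ₗ[F] U)))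
      (b := (B Q).flip v) fun w u => by
        change B Q (g _) (g v) = B Q _ v
        rw [h1, hT.hB]
    exact LinearMap.congr_fun this x
  intro x
  induction hT.span_top x using Submodule.span_induction with
  | mem x hx => obtain ⟨w, u, rfl⟩ := hx; rw [h2, hT.pure]
  | zero => simp
  | add x y _ _ hx hy => rw [map_add, Q_add, Q_add, hx, hy, h3]
  | smul c x _ hx => rw [map_smul, Q_smul, Q_smul, hx]

theorem kr_pt {A : U ≃ₗ[F] U} {C : W ≃ₗ[F] W} (hC : C ∈ Sp f₂) (w : W) (u : U) :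
    kr A C (rk (f₂ w) u) = rk (f₂ (C⁻¹ w)) (A u) := by
  ext y; simp [Sp_right hC]

theorem St.kr_mem_O (hT : St f₁ f₂ Q) {A : U ≃ₗ[F] U} {C : W ≃ₗ[F] W} (hA : A ∈ Sp f₁)
    (hC : C ∈ Sp f₂) : kr A C ∈ O Q :=
  hT.mem_O (fun w u v => by rw [kr_pt hC, hT.hB, kr_apply, hA]; simp)
    fun w u => by rw [kr_pt hC, hT.pure]

theorem St.ts_L (hT : St f₁ f₂ Q) (w : W) : TS Q (TL U (f₂ w)) := by
  rintro _ ⟨u, rfl⟩; exact hT.pure w u

theorem St.mem_perp_L (hT : St f₁ f₂ Q) {w : W} {v : W →ₗ[F] U} :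
    v ∈ perp Q (TL U (f₂ w)) ↔ v w = 0 := by
  constructor
  · intro h
    exact hT.s1.nd _ fun u => by rw [← hT.hB]; exact h _ (rk_mem_TL _ u)
  · rintro h _ ⟨u, rfl⟩
    rw [hT.hB, h, map_zero]

theorem St.mem_L (hT : St f₁ f₂ Q) {w : W} {v : W →ₗ[F] U}
    (h : ∀ x : W →ₗ[F] U, x w = 0 → B Q x v = 0) : v ∈ TL U (f₂ w) := by
  rw [← hT.nd.perp_perp (TL U (f₂ w))]
  exact fun x hx => h x (hT.mem_perp_L.1 hx)

/-- `L^⊥` is spanned by pure tensors -/
theorem St.perp_ind (hT : St f₁ f₂ Q) {w : W} (hw : w ≠ 0) (Z : Submodule F (W →ₗ[F] U))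
    (h : ∀ z u, f₂ w z = 0 → rk (f₂ z) u ∈ Z) {v : W →ₗ[F] U} (hv : v w = 0) : v ∈ Z := by
  rw [← hT.nd.perp_perp Z]
  refine perp_anti (U := perp Q Z) (W := TL U (f₂ w)) (fun x hx => ?_) (hT.mem_perp_L.2 hv)
  exact mem_TL_of (left_ne hT.s2 hw) fun z hz => hT.s1.nd _ fun u => by
    rw [← hT.hB]; exact hx _ (h z u hz)

/-- `1 ⊗ t` -/
def rho (hT : St f₁ f₂ Q) (w : W) (c : F) : (W →ₗ[F] U) ≃ₗ[F] (W →ₗ[F] U) :=
  kr 1 (tvE hT.s2 w (-c))

theorem rho_apply (hT : St f₁ f₂ Q) (w : W) (c : F) (x : W →ₗ[F] U) :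
    rho hT w c x = x + c • rk (f₂ w) (x w) := by
  ext y
  simp only [rho, kr_apply, H9.Sp.tvE_apply, map_add, map_smul, LinearEquiv.coe_one, id_eq,
    LinearMap.add_apply, LinearMap.smul_apply, rk_apply, hT.s2.skew y w]
  module

theorem rho_kron (hT : St f₁ f₂ Q) (w : W) (c : F) : Kron (rho hT w c) := kr_kron _ _

theorem St.kr_mem_EO (hT : St f₁ f₂ Q) {A : U ≃ₗ[F] U} {C : W ≃ₗ[F] W} (hA : A ∈ Sp f₁)
    (hC : C ∈ Sp f₂) : kr A C ∈ EO Q := by
  let N₂ : Subgroup (W ≃ₗ[F] W) :=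
    { carrier := {C | C ∈ Sp f₂ ∧ kr (1 : U ≃ₗ[F] U) C ∈ EO Q}
      mul_mem' := fun {a b} ha hb => ⟨mul_mem ha.1 hb.1, by
        convert mul_mem hb.2 ha.2 using 1
        ext X y; simp⟩
      one_mem' := ⟨one_mem _, by
        convert one_mem (EO Q) using 1
        ext X y; simp⟩
      inv_mem' := fun {a} ha => ⟨inv_mem ha.1, by
        convert inv_mem ha.2 using 1
        ext X y; simp⟩ }
  let N₁ : Subgroup (U ≃ₗ[F] U) :=
    { carrier := {A | A ∈ Sp f₁ ∧ kr A (1 : W ≃ₗ[F] W) ∈ EO Q}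
      mul_mem' := fun {a b} ha hb => ⟨mul_mem ha.1 hb.1, by
        convert mul_mem ha.2 hb.2 using 1
        ext X y; simp⟩
      one_mem' := ⟨one_mem _, by
        convert one_mem (EO Q) using 1
        ext X y; simp⟩
      inv_mem' := fun {a} ha => ⟨inv_mem ha.1, by
        convert inv_mem ha.2 using 1
        ext X y; simp⟩ }
  have h2 : Sp f₂ ≤ N₂ := Sp_le hT.s2 (fun _ h => h.1) fun w c => (H9.Sp.T_iff hT.s2).2
    ⟨tvE_mem _ _ _, mem_of_fix_perp hT.nd (hT.ts_L w) (fun _ _ _ _ => eich_mem_EO _ _)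
      (hT.kr_mem_O (one_mem _) (tvE_mem _ _ _)) fun x hx => by
        ext y; simp [hT.mem_perp_L.1 hx]⟩
  have h1 : Sp f₁ ≤ N₁ := Sp_le hT.s1 (fun _ h => h.1) fun u c => (H9.Sp.T_iff hT.s1).2
    ⟨tvE_mem _ _ _, mem_of_fix_perp hT.nd
      (L := Submodule.span F {v | ∃ w, v = rk (f₂ w) u})
      (ts_span (by rintro _ ⟨w, rfl⟩; exact hT.pure w u)
        (by rintro _ ⟨w, rfl⟩ _ ⟨w', rfl⟩; simp [hT.hB, hT.s1.alt]))
      (fun _ _ _ _ => eich_mem_EO _ _)
      (hT.kr_mem_O (tvE_mem _ _ _) (one_mem _)) fun x hx => by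
        ext y
        have := mem_perp_span.1 hx _ ⟨y, rfl⟩
        rw [hT.hB] at this
        simp [hT.s1.comm.1 this]⟩
  convert mul_mem (h1 hA).2 (h2 hC).2 using 1
  ext X y; simp

end Cfsg.Agent.Orth.SS
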