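import Cfsg.Agent.Orth.SS1

/-! `Sp ⊗ Sp` in `Ω`, part 2: the ring of induced endomorphisms. -/

set_option autoImplicit false
set_option linter.unusedSimpArgs false
set_option linter.unusedSectionVars false

namespace Cfsg.Agent.Orth.SS

open Module Cfsg.Agent.H6
open Cfsg.Agent.H9.Sp (Symp Sp tvE tvE_mem tvE_inv_apply Sp_trans witt Sp_le Sp_left Sp_right
  kron_mul kron_inv exists_ne_ne)

attribute [-simp] LinearEquiv.coe_inv Submodule.mem_map_equiv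

variable {F : Type*} [Field F] {U : Type*} [AddCommGroup U] [Module F U] [FiniteDimensional F U]
  {W : Type*} [AddCommGroup W] [Module F W] [FiniteDimensional F W]

/-- the standing assumptions on an overgroup -/
structure Cx (f₁ : U →ₗ[F] U →ₗ[F] F) (f₂ : W →ₗ[F] W →ₗ[F] F)
    (Q : QuadraticForm F (W →ₗ[F] U)) (M : Subgroup ((W →ₗ[F] U) ≃ₗ[F] (W →ₗ[F] U))) : Prop where
  T : St f₁ f₂ Q
  hM : M ≤ O Q
  hH : ∀ A ∈ Sp f₁, ∀ C ∈ Sp f₂, kr A C ∈ M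
  hb : 6 ≤ finrank F W

variable {f₁ : U →ₗ[F] U →ₗ[F] F} {f₂ : W →ₗ[F] W →ₗ[F] F} {Q : QuadraticForm F (W →ₗ[F] U)}
  {M : Subgroup ((W →ₗ[F] U) ≃ₗ[F] (W →ₗ[F] U))}

/-- `M` induces `x ↦ x + S (x z) ⊗ w` on `(U ⊗ w)^⊥` -/
def Ind (f₂ : W →ₗ[F] W →ₗ[F] F) (M : Subgroup ((W →ₗ[F] U) ≃ₗ[F] (W →ₗ[F] U))) (w z : W)
    (S : U →ₗ[F] U) : Prop :=
  ∃ ρ ∈ M, ∀ x : W →ₗ[F] U, x w = 0 → ρ x = x + rk (f₂ w) (S (x z))

theorem Ind.congr {w z z' : W} {S S' : U →ₗ[F] U} (h : Ind f₂ M w z S)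
    (h' : ∀ x : W →ₗ[F] U, x w = 0 → S' (x z') = S (x z)) : Ind f₂ M w z' S' := by
  obtain ⟨ρ, hρ, h⟩ := h
  exact ⟨ρ, hρ, fun x hx => by rw [h x hx, h' x hx]⟩

theorem Cx.rho_mem (hC : Cx f₁ f₂ Q M) (w : W) (c : F) : rho hC.T w c ∈ M :=
  hC.hH _ (one_mem _) _ (tvE_mem _ _ _)

theorem Ind.move (hC : Cx f₁ f₂ Q M) {w z : W} {S : U →ₗ[F] U} (h : Ind f₂ M w z S) (hw : w ≠ 0)
    (hz : ∀ c : F, z ≠ c • w) (hwz : f₂ w z = 0) (w' z' : W) (h' : f₂ w' z' = 0) :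
    Ind f₂ M w' z' S := by
  by_cases hw' : w' = 0
  · exact ⟨1, one_mem _, fun x _ => by ext y; simp [hw']⟩
  by_cases hz' : ∃ c : F, z' = c • w'
  · obtain ⟨c, rfl⟩ := hz'
    exact ⟨1, one_mem _, fun x hx => by simp [hx]⟩
  push Not at hz'
  obtain ⟨β, hβ, rfl, rfl⟩ := witt_pair hC.T.s2 hw hz hw' hz' (by rw [hwz, h'])
  obtain ⟨ρ, hρ, h⟩ := h
  have hk := hC.hH 1 (one_mem _) β hβ
  refine ⟨(kr 1 β)⁻¹ * ρ * kr 1 β, mul_mem (mul_mem (inv_mem hk) hρ) hk, fun x hx => ?_⟩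
  rw [mul_app, mul_app, h _ (by simpa using hx)]
  ext y
  simp [Sp_left hβ]

/-- the ring of induced endomorphisms -/
def EE (hC : Cx f₁ f₂ Q M) : Submodule F (U →ₗ[F] U) where
  carrier := {S | ∀ w z, f₂ w z = 0 → Ind f₂ M w z S}
  add_mem' {S S'} h h' w z hz := by
    obtain ⟨ρ, hρ, h1⟩ := h w z hz
    obtain ⟨ρ', hρ', h2⟩ := h' w z hz
    refine ⟨ρ * ρ', mul_mem hρ hρ', fun x hx => ?_⟩
    rw [mul_app, h2 x hx, h1 _ (by simp [hx, hC.T.s2.alt])]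
    simp only [LinearMap.add_apply, rk_apply, hz, zero_smul, add_zero, map_add]
    abel
  zero_mem' w z _ := ⟨1, one_mem _, fun x _ => by simp⟩
  smul_mem' c S h w z hz := (h w (c • z) (by simp [hz])).congr fun x _ => by simp

theorem mem_EE {hC : Cx f₁ f₂ Q M} {S : U →ₗ[F] U} :
    S ∈ EE hC ↔ ∀ w z, f₂ w z = 0 → Ind f₂ M w z S := Iff.rfl

theorem EE_of_centre (hC : Cx f₁ f₂ Q M) {S : U →ₗ[F] U}
    (h : ∀ w, ∃ ζ ∈ M, ∀ x, ζ x = x + rk (f₂ w) (S (x w))) : S ∈ EE hC := by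
  intro w z hz
  obtain ⟨ζ₁, h1, h2⟩ := h (w + z)
  obtain ⟨ζ₂, h3, h4⟩ := h z
  refine ⟨ζ₂⁻¹ * ζ₁, mul_mem (inv_mem h3) h1, fun x hx => ζ₂.injective ?_⟩
  rw [mul_app, apply_inv_apply, h2, h4]
  simp only [map_add, hx, zero_add, LinearMap.add_apply, rk_apply, hz, zero_smul, add_zero, rk_add]
  abel

theorem id_mem_EE (hC : Cx f₁ f₂ Q M) : LinearMap.id ∈ EE hC :=
  EE_of_centre hC fun w => ⟨_, hC.rho_mem w 1, fun x => by simp [rho_apply]⟩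

theorem EE_conj (hC : Cx f₁ f₂ Q M) {g : U ≃ₗ[F] U} (hg : g ∈ Sp f₁) {S : U →ₗ[F] U}
    (h : S ∈ EE hC) : cj g S ∈ EE hC := by
  intro w z hz
  obtain ⟨ρ, hρ, h⟩ := h w z hz
  have hk := hC.hH g hg 1 (one_mem _)
  refine ⟨kr g 1 * ρ * (kr g 1)⁻¹, mul_mem (mul_mem hk hρ) (inv_mem hk), fun x hx => ?_⟩
  rw [mul_app, mul_app, h _ (by simp [hx])]
  ext y
  simp

theorem Cx.exists_quad (hC : Cx f₁ f₂ Q M) : ∃ w w₂ z₁ z₂ : W, w ≠ 0 ∧ (∀ c : F, w₂ ≠ c • w) ∧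
    f₂ w w₂ = 0 ∧ f₂ w z₁ = 0 ∧ f₂ w₂ z₁ = 0 ∧ f₂ w z₂ = 0 ∧ f₂ w₂ z₂ = 0 ∧ f₂ z₁ z₂ = 1 := by
  have hb := hC.hb
  have hs := hC.T.s2
  obtain ⟨w, -, hw⟩ := exists_ne_zero_of_finrank (K := (⊤ : Submodule F W)) (by simp; omega)
  obtain ⟨w₂, h1, h2⟩ := exists_not_mem_one (K := LinearMap.ker (f₂ w))
    (by have := finrank_ker_ge (f₂ w); omega) w
  obtain ⟨z₁, ⟨h3, h4⟩, h5⟩ := exists_not_mem_pair (K := LinearMap.ker (f₂ w) ⊓ LinearMap.ker (f₂ w₂))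
    (by have := finrank_ker₂_ge (f₂ w) (f₂ w₂); omega) w w₂
  obtain ⟨z₂, h6, h7⟩ := hs.exists_perp (K := Submodule.span F {w, w₂}) (x := z₁) (fun h => by
    obtain ⟨a, b, h⟩ := Submodule.mem_span_pair.1 h
    exact h5 a b h.symm)
  exact ⟨w, w₂, z₁, z₂, hw, h2, h1, h3, h4, h6 w (Submodule.subset_span (by simp)),
    h6 w₂ (Submodule.subset_span (by simp)), h7⟩

theorem EE_mul_adj (hC : Cx f₁ f₂ Q M) {S₁ S₂ T : U →ₗ[F] U} (h1 : S₁ ∈ EE hC) (h2 : S₂ ∈ EE hC)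
    (hT : ∀ u y, f₁ (S₂ u) y = f₁ u (T y)) : S₁ ∘ₗ T ∈ EE hC := by
  have hs := hC.T.s2
  obtain ⟨w, w₂, z₁, z₂, hw, k1, k2, k3, k4, k5, k6, k7⟩ := hC.exists_quad
  obtain ⟨ρ₁, hρ₁, a1⟩ := h1 w z₁ k3
  obtain ⟨ρ₂, hρ₂, a2⟩ := h2 w₂ z₂ k6
  have b1 : ∀ u, ρ₂ (rk (f₂ w) u) = rk (f₂ w) u := fun u => by
    rw [a2 _ (by simp [k2])]; simp [k5]
  have b2 : ∀ x : W →ₗ[F] U, ρ₂⁻¹ x w = x w := fun x => hC.T.s1.ext fun u => by
    rw [← hC.T.hB, ← O_B_inv (hC.hM hρ₂), b1, hC.T.hB]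
  have b3 : ∀ x : W →ₗ[F] U, ρ₂⁻¹ x z₁ = x z₁ + T (x w₂) := fun x => hC.T.s1.ext fun u => by
    rw [← hC.T.hB, ← O_B_inv (hC.hM hρ₂), a2 _ (by simp [hs.comm.1 k4]), map_add,
      LinearMap.add_apply, hC.T.hB, hC.T.hB]
    simp [k7, hT]
  refine Ind.move hC (w := w) (z := w₂) ⟨ρ₁⁻¹ * (ρ₂ * ρ₁ * ρ₂⁻¹),
    mul_mem (inv_mem hρ₁) (mul_mem (mul_mem hρ₂ hρ₁) (inv_mem hρ₂)), fun x hx => ρ₁.injective ?_⟩
    hw k1 k2
  rw [mul_app, apply_inv_apply, mul_app, mul_app, a1 _ (by rw [b2, hx]), map_add, b1, b3,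
    apply_inv_apply, a1 _ (by simp [hx, hs.alt])]
  simp only [map_add, LinearMap.add_apply, rk_apply, k3, zero_smul, add_zero, LinearMap.comp_apply]
  abel

theorem EE_adj (hC : Cx f₁ f₂ Q M) {S T : U →ₗ[F] U} (h : S ∈ EE hC)
    (hT : ∀ u y, f₁ (S u) y = f₁ u (T y)) : T ∈ EE hC :=
  EE_mul_adj hC (id_mem_EE hC) h hT

theorem EE_mul (hC : Cx f₁ f₂ Q M) {S₁ S₂ : U →ₗ[F] U} (h1 : S₁ ∈ EE hC) (h2 : S₂ ∈ EE hC) :
    S₁ ∘ₗ S₂ ∈ EE hC := by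
  obtain ⟨T, hT⟩ := exists_adj hC.T.s1 S₂
  exact EE_mul_adj hC h1 (EE_adj hC h2 hT) fun u y => by
    rw [hC.T.s1.skew, ← hT, ← hC.T.s1.skew]

theorem EO_le_of_EE [Finite F] (hC : Cx f₁ f₂ Q M) (hU : 1 ≤ finrank F U)
    (h : ∀ (θ : Dual F U) (u : U), rk θ u ∈ EE hC) : EO Q ≤ M := by
  have hT := hC.T
  have hs := hT.s2
  have hb := hC.hb
  obtain ⟨u₀, -, hu₀⟩ := exists_ne_zero_of_finrank (K := (⊤ : Submodule F U)) (by simpa)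
  obtain ⟨u₁, hu₁⟩ := hT.s1.exists_one hu₀
  have h1 : ∀ w, w ≠ 0 → ∀ u (v : W →ₗ[F] U), v w = 0 → eich Q (rk (f₂ w) u) v ∈ M := by
    intro w hw u v hv
    refine eich_mem_of_induced hT.nd (hT.ts_L w) hC.hM ?_ ?_ _ (rk_mem_TL _ u) v
      (hT.mem_perp_L.2 hv)
    · obtain ⟨z, h3, h4⟩ := exists_not_mem_one (K := LinearMap.ker (f₂ w))
        (by have := finrank_ker_ge (f₂ w); omega) w
      obtain ⟨z', h5, h6⟩ := exists_perp_one hs h4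
      refine ⟨rk (f₂ z') u₀, hT.mem_perp_L.2 (by simp [hs.comm.1 h5]), rk (f₂ z) u₁,
        hT.mem_perp_L.2 (by simp [hs.comm.1 h3]), ?_⟩
      simp [hT.hB, h6, hu₁]
    · rintro _ ⟨u', rfl⟩ v hv
      let Z : Submodule F (W →ₗ[F] U) :=
        { carrier := {v | v w = 0 ∧ ∀ u', ∃ ρ ∈ M, ∀ x ∈ perp Q (TL U (f₂ w)),
            ρ x = x - B Q v x • rk (f₂ w) u'}
          add_mem' := fun {a b} ha hb => ⟨by simp [ha.1, hb.1], fun u' => by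
            obtain ⟨ρ, hρ, k1⟩ := ha.2 u'
            obtain ⟨ρ', hρ', k2⟩ := hb.2 u'
            refine ⟨ρ * ρ', mul_mem hρ hρ', fun x hx => ?_⟩
            rw [mul_app, k2 x hx, k1 _ (hT.mem_perp_L.2 (by simp [hT.mem_perp_L.1 hx, hs.alt]))]
            simp only [map_sub, map_smul, hT.hB', ha.1, map_zero, smul_zero, sub_zero, map_add,
              LinearMap.add_apply]
            module⟩
          zero_mem' := ⟨rfl, fun u' => ⟨1, one_mem _, fun x _ => by simp⟩⟩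
          smul_mem' := fun c a ha => ⟨by simp [ha.1], fun u' => by
            obtain ⟨ρ, hρ, k1⟩ := ha.2 (c • u')
            refine ⟨ρ, hρ, fun x hx => ?_⟩
            rw [k1 x hx]
            simp only [map_smul, LinearMap.smul_apply, smul_eq_mul]
            module⟩ }
      refine (hT.perp_ind hw Z (fun z y hz => ⟨by simp [hs.comm.1 hz], fun u' => ?_⟩)
        (hT.mem_perp_L.1 hv)).2 u'
      obtain ⟨ρ, hρ, k1⟩ := h (-f₁ y) u' w z hz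
      refine ⟨ρ, hρ, fun x hx => ?_⟩
      rw [k1 x (hT.mem_perp_L.1 hx), hT.hB]
      simp [sub_eq_add_neg]
  have h2 : ∀ w, w ≠ 0 → ∀ u, Full Q M (rk (f₂ w) u) := by
    intro w hw u v hv
    rw [hT.hB] at hv
    obtain ⟨w', hw'⟩ := hs.exists_one hw
    have e0 : f₂ w' w = -1 := by rw [hs.skew, hw']
    have e1 : Q (rk (f₂ w) u) = 0 := hT.pure w u
    suffices hx : eich Q (rk (f₂ w) u) (rk (f₂ w') (v w)) ∈ M by
      have := mul_mem (h1 w hw u (v + rk (f₂ w') (v w)) (by simp [e0])) (inv_mem hx)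
      rwa [eich_inv e1 (by simp [hT.hB, hv]), eich_mul e1 (by simp [hT.hB, hv])
        (by simp [hT.hB, hv]), add_neg_cancel_right] at this
    by_cases hu' : v w = 0
    · rw [hu', map_zero, eich_zero]; exact one_mem _
    obtain ⟨y, hy⟩ := hT.s1.exists_one hu'
    obtain ⟨z, ⟨h3, h4⟩, h5⟩ := exists_not_mem_one
      (K := LinearMap.ker (f₂ w) ⊓ LinearMap.ker (f₂ w'))
      (by have := finrank_ker₂_ge (f₂ w) (f₂ w'); omega) w'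
    replace h3 : f₂ w z = 0 := h3
    replace h4 : f₂ w' z = 0 := h4
    obtain ⟨w₂, h6, h7⟩ := exists_perp_one hs h5
    have hw₂ : w₂ ≠ 0 := by rintro rfl; simp at h7
    have hg := h1 w₂ hw₂ (v w) (rk (f₂ w') (v w)) (by simp [h6])
    have hv' : f₁ (v w) u = 0 := hT.s1.comm.1 hv
    have e2 := eich_conj_mem hC.hM hg (h1 w hw u (rk (f₂ z) y) (by simp [hs.comm.1 h3]))
    rw [eich_apply_of_perp (by simp [hT.hB, hv']) (by simp [hT.hB, hv']),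
      eich_apply (hT.pure _ _) (by simp [hT.hB, hT.s1.alt])] at e2
    simp only [hT.hB, rk_apply, h7, one_smul, hy, hs.comm.1 h4, zero_smul, map_zero, hT.pure,
      zero_mul, add_zero, sub_zero] at e2
    have := mul_mem (inv_mem (h1 w hw u (rk (f₂ z) y) (by simp [hs.comm.1 h3]))) e2
    rwa [eich_inv e1 (by simp [hT.hB, hs.comm.1 h3]), eich_mul e1 (by simp [hT.hB, hs.comm.1 h3])
      (by simp [hT.hB, hs.comm.1 h3, hv]), neg_add_cancel_left] at this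
  obtain ⟨w, -, hw⟩ := exists_ne_zero_of_finrank (K := (⊤ : Submodule F W)) (by simp; omega)
  obtain ⟨w', hw'⟩ := hs.exists_one hw
  have hw'0 : w' ≠ 0 := by rintro rfl; simp at hw'
  refine EO_le_of_full hT.nd ?_ hC.hM (hT.pure w' u₀) (hT.pure w u₁) (h2 w' hw'0 u₀) (h2 w hw u₁)
    (by simp [hT.hB, hw', hu₁])
  rw [finrank_linearMap]
  nlinarith

theorem scalar_of_EE [Finite F] (hC : Cx f₁ f₂ Q M) (hU : 1 ≤ finrank F U)
    (hq : 3 ≤ finrank F U ∨ ∃ t : F, t ≠ 0 ∧ t ≠ 1) (hne : ¬ EO Q ≤ M) {S : U →ₗ[F] U}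
    (hS : S ∈ EE hC) : ∃ c : F, ∀ u, S u = c • u := by
  by_contra h
  exact hne (EO_le_of_EE hC hU (alg_full hC.T.s1 hq (EE hC) (fun _ h1 _ h2 => EE_mul hC h1 h2)
    (fun _ h1 _ h2 => EE_adj hC h1 h2) (fun _ h1 _ h2 => EE_conj hC h1 h2) hS h))

end Cfsg.Agent.Orth.SS
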