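import Cfsg.Agent.Orth.SS2

/-! `Sp ⊗ Sp` in `Ω`, part 3: the scalar case. -/

set_option autoImplicit false
set_option linter.unusedSimpArgs false
set_option linter.unusedSectionVars false

namespace Cfsg.Agent.Orth.SS

open Module Cfsg.Agent.H6
open Cfsg.Agent.H9.Sp (Symp Sp tvE tvE_mem tvE_inv_apply Sp_trans witt Sp_le Sp_left Sp_right
  kron_mul kron_inv exists_ne_ne)

attribute [-simp] LinearEquiv.coe_inv Submodule.mem_map_equiv

variable {F : Type*} [Field F] {U : Type*} [AddCommGroup U] [Module F U] [FiniteDimensional F U]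
  {W : Type*} [AddCommGroup W] [Module F W] [FiniteDimensional F W]

variable {f₁ : U →ₗ[F] U →ₗ[F] F} {f₂ : W →ₗ[F] W →ₗ[F] F} {Q : QuadraticForm F (W →ₗ[F] U)}
  {M : Subgroup ((W →ₗ[F] U) ≃ₗ[F] (W →ₗ[F] U))}

theorem kron_congr {g k : (W →ₗ[F] U) ≃ₗ[F] (W →ₗ[F] U)} (hk : Kron k) (h : ∀ x, g x = k x) :
    Kron g := (LinearEquiv.ext h : g = k) ▸ hk

theorem kron_of_mul_left {g k : (W →ₗ[F] U) ≃ₗ[F] (W →ₗ[F] U)} (hk : Kron k) (h : Kron (k * g)) :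
    Kron g := by simpa using kron_mul (kron_inv hk) h

/-- elements fixing `L^⊥` pointwise -/
theorem kron_of_centre (hC : Cx f₁ f₂ Q M) (hX : ∀ S ∈ EE hC, ∃ c : F, ∀ u, S u = c • u)
    {w : W} (hw : w ≠ 0) {ρ : (W →ₗ[F] U) ≃ₗ[F] (W →ₗ[F] U)} (hρ : ρ ∈ M)
    (h : ∀ x : W →ₗ[F] U, x w = 0 → ρ x = x) : Kron ρ := by
  have hT := hC.T
  have hs := hT.s2
  obtain ⟨w₁, hw₁⟩ := hs.exists_one hw
  have e0 : f₂ (-w₁) w = 1 := by rw [map_neg, LinearMap.neg_apply, ← hs.skew, hw₁]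
  let S : U →ₗ[F] U := LinearMap.applyₗ w₁ ∘ₗ
    ((ρ : (W →ₗ[F] U) →ₗ[F] (W →ₗ[F] U)) - LinearMap.id) ∘ₗ rk (f₂ (-w₁))
  have h1 : ∀ x, ρ x = x + rk (f₂ w) (S (x w)) := fun x => by
    have e1 := h (x - rk (f₂ (-w₁)) (x w)) (by
      rw [LinearMap.sub_apply, rk_apply, e0, one_smul, sub_self])
    have e2 := eq_rk_of_mem (sub_mem_of_fix_perp hT.nd (hC.hM hρ)
      (fun x hx => h x (hT.mem_perp_L.1 hx)) (rk (f₂ (-w₁)) (x w))) hw₁
    change _ = rk (f₂ w) (S (x w)) at e2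
    rw [← e2]
    rw [map_sub] at e1
    linear_combination (norm := abel) e1
  obtain ⟨c, hc⟩ := hX S (EE_of_centre hC fun w' => by
    by_cases hw' : w' = 0
    · exact ⟨1, one_mem _, fun x => by simp [hw']⟩
    obtain ⟨β, hβ, rfl⟩ := Sp_trans hs hw hw'
    have hk := hC.hH 1 (one_mem _) β hβ
    refine ⟨(kr 1 β)⁻¹ * ρ * kr 1 β, mul_mem (mul_mem (inv_mem hk) hρ) hk, fun x => ?_⟩
    rw [mul_app, mul_app, h1]
    ext y
    simp [Sp_left hβ])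
  exact kron_congr (rho_kron hT w c) fun x => by rw [h1, rho_apply, hc, map_smul]

/-- elements acting trivially on `L` and on `L^⊥ / L` -/
theorem kron_of_uni (hC : Cx f₁ f₂ Q M) (hX : ∀ S ∈ EE hC, ∃ c : F, ∀ u, S u = c • u)
    (hU : 1 ≤ finrank F U) {w : W} (hw : w ≠ 0) {ρ : (W →ₗ[F] U) ≃ₗ[F] (W →ₗ[F] U)} (hρ : ρ ∈ M)
    (h1 : ∀ u, ρ (rk (f₂ w) u) = rk (f₂ w) u)
    (h2 : ∀ x : W →ₗ[F] U, x w = 0 → ρ x - x ∈ TL U (f₂ w)) :
    Kron ρ ∧ ∃ z₀, f₂ w z₀ = 0 ∧ ∀ x : W →ₗ[F] U, x w = 0 → ρ x = x + rk (f₂ w) (x z₀) := by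
  have hT := hC.T
  have hs := hT.s2
  obtain ⟨w₁, hw₁⟩ := hs.exists_one hw
  let ν : (W →ₗ[F] U) →ₗ[F] U := LinearMap.applyₗ w₁ ∘ₗ
    ((ρ : (W →ₗ[F] U) →ₗ[F] (W →ₗ[F] U)) - LinearMap.id)
  have h3 : ∀ x : W →ₗ[F] U, x w = 0 → ρ x = x + rk (f₂ w) (ν x) := fun x hx => by
    have := eq_rk_of_mem (h2 x hx) hw₁
    change _ = rk (f₂ w) (ν x) at this
    rw [← this]; abel
  have h4 : ∀ u, ν (rk (f₂ w) u) = 0 := fun u => by simp [ν, h1]
  have h5 : ∀ z, f₂ w z = 0 → ∃ c : F, ∀ u, ν (rk (f₂ z) u) = c • u := by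
    intro z hz
    by_cases hz' : ∃ c : F, z = c • w
    · obtain ⟨c, rfl⟩ := hz'
      exact ⟨0, fun u => by rw [map_smul, rk_smul, h4, zero_smul]⟩
    push Not at hz'
    refine hX (ν ∘ₗ rk (f₂ z)) (Ind.move hC (w := w) (z := z) ?_ hw hz' hz)
    have hk := hC.rho_mem z 1
    have e1 : ∀ u, rho hT z 1 (rk (f₂ w) u) = rk (f₂ w) u := fun u => by simp [rho_apply, hz]
    refine ⟨ρ⁻¹ * ((rho hT z 1)⁻¹ * ρ * rho hT z 1), mul_mem (inv_mem hρ)
      (mul_mem (mul_mem (inv_mem hk) hρ) hk), fun x hx => ρ.injective ((rho hT z 1).injective ?_)⟩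
    rw [mul_app, apply_inv_apply, mul_app, mul_app, apply_inv_apply,
      h3 _ (by simp [rho_apply, hx, hs.comm.1 hz]), map_add ρ, h1, h3 x hx, map_add, map_add, e1,
      e1, rho_apply]
    simp only [one_smul, map_add, LinearMap.comp_apply]
    abel
  obtain ⟨u₀, -, hu₀⟩ := exists_ne_zero_of_finrank (K := (⊤ : Submodule F U)) (by simpa)
  obtain ⟨θ, hθ⟩ := exists_dual_one' (F := F) hu₀
  obtain ⟨z₀, hz₀⟩ := hs.exists_dual (θ ∘ₗ ν ∘ₗ (LinearMap.smulRightₗ.flip u₀) ∘ₗ f₂)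
  have hz₀' : ∀ z, f₂ z z₀ = θ (ν (rk (f₂ z) u₀)) := hz₀
  have h6 : f₂ w z₀ = 0 := by rw [hz₀', h4, map_zero]
  have h7 : ∀ x : W →ₗ[F] U, x w = 0 → ν x = x z₀ := fun x hx => by
    have := hT.perp_ind hw (LinearMap.ker (ν - LinearMap.applyₗ z₀)) (fun z u hz => by
      obtain ⟨c, hc⟩ := h5 z hz
      simp [hc, hz₀', hθ]) hx
    simpa [sub_eq_zero] using this
  have h8 : ∀ x : W →ₗ[F] U, x w = 0 → ρ x = x + rk (f₂ w) (x z₀) := fun x hx => by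
    rw [h3 x hx, h7 x hx]
  refine ⟨?_, z₀, h6, h8⟩
  refine kron_of_mul_left (kron_mul (rho_kron hT z₀ 1) (rho_kron hT (w + z₀) (-1)))
    (kron_of_centre hC hX hw (mul_mem (mul_mem (hC.rho_mem _ _) (hC.rho_mem _ _)) hρ) fun x hx => ?_)
  rw [mul_app, mul_app, h8 x hx, rho_apply, rho_apply]
  simp only [map_add, hx, hs.alt, h6, hs.comm.1 h6, LinearMap.add_apply, rk_apply, zero_smul,
    add_zero, zero_add, rk_add, LinearMap.smul_apply, smul_zero]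
  module

/-- stabilisers of `L` normalise -/
theorem kron_conj (hC : Cx f₁ f₂ Q M) (hX : ∀ S ∈ EE hC, ∃ c : F, ∀ u, S u = c • u)
    (hU : 1 ≤ finrank F U) {w : W} (hw : w ≠ 0) {s : (W →ₗ[F] U) ≃ₗ[F] (W →ₗ[F] U)} (hs : s ∈ M)
    (h : ∀ l ∈ TL U (f₂ w), s l ∈ TL U (f₂ w)) {z : W} (hz : f₂ w z = 0)
    (hz' : ∀ c : F, z ≠ c • w) : Kron (s * rho hC.T z 1 * s⁻¹) := by
  have hT := hC.T
  have h2 := hT.s2
  have hi := inv_mem_of_stab h
  have hp : ∀ x : W →ₗ[F] U, x w = 0 → s x w = 0 := fun x hx => hT.mem_perp_L.1 fun l hl => by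
    rw [B_comm, O_B_inv (hC.hM hs), B_comm]
    exact hT.mem_perp_L.2 hx _ (hi l hl)
  have hp' : ∀ x : W →ₗ[F] U, x w = 0 → s⁻¹ x w = 0 := fun x hx => hT.mem_perp_L.1 fun l hl => by
    rw [← O_B_inv (hC.hM hs)]
    exact hT.mem_perp_L.2 hx _ (h l hl)
  obtain ⟨w₁, hw₁⟩ := h2.exists_one hw
  let α : U →ₗ[F] U := LinearMap.applyₗ w₁ ∘ₗ (s : (W →ₗ[F] U) →ₗ[F] (W →ₗ[F] U)) ∘ₗ rk (f₂ w)
  have hα : ∀ u, s (rk (f₂ w) u) = rk (f₂ w) (α u) := fun u =>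
    eq_rk_of_mem (h _ (rk_mem_TL _ u)) hw₁
  have hα0 : ∀ u, α u = 0 → u = 0 := fun u hu => by
    have := hα u
    rw [hu, map_zero, EmbeddingLike.map_eq_zero_iff] at this
    exact rk_injective (left_ne h2 hw) (by rw [this, map_zero])
  have c1 : ∀ z, f₂ w z = 0 → ∃ σ, f₂ w σ = 0 ∧
      ∀ x : W →ₗ[F] U, x w = 0 → α (s⁻¹ x z) = x σ := by
    intro z hz
    obtain ⟨e, he, h3⟩ := id_mem_EE hC w z hz
    have h4 : ∀ x : W →ₗ[F] U, x w = 0 → (s * e * s⁻¹) x = x + rk (f₂ w) (α (s⁻¹ x z)) :=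
      fun x hx => by
        rw [mul_app, mul_app, h3 _ (hp' x hx), map_add, apply_inv_apply, hα]; rfl
    obtain ⟨-, σ, h5, h6⟩ := kron_of_uni hC hX hU hw (mul_mem (mul_mem hs he) (inv_mem hs))
      (fun u => by
        rw [h4 _ (by simp [h2.alt]), TL_apply (hi _ (rk_mem_TL _ u)) hz]; simp)
      (fun x hx => by rw [h4 x hx, add_sub_cancel_left]; exact rk_mem_TL _ _)
    refine ⟨σ, h5, fun x hx => rk_injective (left_ne h2 hw) ?_⟩
    have := h4 x hx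
    rw [h6 x hx] at this
    exact (add_left_cancel this).symm
  obtain ⟨z', k1, k2⟩ := exists_perp_one h2 hz'
  obtain ⟨σ, k3, k4⟩ := c1 z hz
  obtain ⟨σ', k5, k6⟩ := c1 z' k1
  have k7 : ∀ y, s (rk (f₂ z) y) σ' = α y := fun y => by
    rw [← k6 _ (hp _ (by simp [h2.comm.1 hz])), inv_apply_apply]; simp [k2]
  have k8 : ∀ y z'', f₂ w z'' = 0 → f₂ σ z'' = 0 → s (rk (f₂ z) y) z'' = 0 := by
    intro y z'' a1 a2
    refine hT.s1.nd _ fun u => ?_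
    rw [← hT.hB, B_comm, O_B_inv (hC.hM hs), hT.hB,
      hα0 _ ((k4 _ (by simp [h2.comm.1 a1])).trans (by simp [h2.comm.1 a2])), map_zero]
  obtain ⟨u₀, -, hu₀⟩ := exists_ne_zero_of_finrank (K := (⊤ : Submodule F U)) (by simpa)
  have k9 : f₂ σ σ' ≠ 0 := fun h0 => hu₀ (hα0 _ (by rw [← k7, k8 _ _ k5 h0]))
  have k10 : ∀ y, s (rk (f₂ z) y) - (f₂ σ σ')⁻¹ • rk (f₂ σ) (α y) ∈ TL U (f₂ w) := fun y =>
    mem_TL_of (left_ne h2 hw) fun z'' a1 => by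
      have := k8 y (z'' - (f₂ σ z'' / f₂ σ σ') • σ') (by simp [a1, k5]) (by simp [k9])
      rw [map_sub, map_smul, k7, sub_eq_zero] at this
      rw [LinearMap.sub_apply, this, LinearMap.smul_apply, rk_apply, smul_smul, sub_eq_zero]
      congr 1
      field_simp
  refine kron_of_mul_left (rho_kron hT σ (-(f₂ σ σ')⁻¹)) (kron_of_uni hC hX hU hw
    (mul_mem (hC.rho_mem _ _) (mul_mem (mul_mem hs (hC.rho_mem _ _)) (inv_mem hs)))
    (fun u => ?_) fun x hx => ?_).1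
  · rw [mul_app, mul_app, mul_app, rho_apply hT z, TL_apply (hi _ (rk_mem_TL _ u)) hz, rho_apply]
    simp [k3]
  · have e1 := k10 (s⁻¹ x z)
    rw [k4 x hx] at e1
    have e2 : s (rk (f₂ z) (s⁻¹ x z)) σ = 0 := by simpa [h2.alt] using TL_apply e1 k3
    rw [mul_app, mul_app, mul_app, rho_apply hT z, one_smul, map_add, apply_inv_apply, rho_apply,
      LinearMap.add_apply, e2, add_zero]
    convert e1 using 1
    module

/-- `g` maps the line `U ⊗ z` to a line -/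
def Line (f₂ : W →ₗ[F] W →ₗ[F] F) (g : (W →ₗ[F] U) ≃ₗ[F] (W →ₗ[F] U)) (z : W) : Prop :=
  ∃ φ : Dual F W, φ ≠ 0 ∧ (TL U (f₂ z)).map (g : (W →ₗ[F] U) →ₗ[F] (W →ₗ[F] U)) = TL U φ

theorem line_of_kron (hT : St f₁ f₂ Q) (hU : 1 ≤ finrank F U) (hab : finrank F U < finrank F W)
    {g : (W →ₗ[F] U) ≃ₗ[F] (W →ₗ[F] U)} {z : W} (hz : z ≠ 0) (h : Kron (g * rho hT z 1 * g⁻¹)) :
    Line f₂ g z := by
  obtain ⟨A, C, h⟩ := h
  set L := (TL U (f₂ z)).map (g : (W →ₗ[F] U) →ₗ[F] (W →ₗ[F] U)) with hL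
  have hd : finrank F L = finrank F U := by
    rw [hL, LinearEquiv.finrank_map_eq, finrank_TL (left_ne hT.s2 hz)]
  have h1 : ∀ X, kr A C X = X + g (rk (f₂ z) (g⁻¹ X z)) := fun X => by
    ext y
    rw [kr_apply, ← h, mul_app, mul_app, rho_apply]
    simp
  have h2 : ∀ X, kr A C X - X ∈ L := fun X => by
    rw [h1, add_sub_cancel_left]; exact ⟨_, rk_mem_TL _ _, rfl⟩
  obtain ⟨c, hc⟩ : ∃ c : F, ∀ u, (A : U →ₗ[F] U) u = c • u := by
    refine eig_const (A : U →ₗ[F] U) LinearMap.id (fun _ _ h => h) fun u => ?_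
    by_contra! hu
    obtain ⟨θ, a1, a2⟩ := exists_dual_pair hu
    let j : Dual F W →ₗ[F] L := LinearMap.codRestrict L
      (((kr A C : (W →ₗ[F] U) →ₗ[F] (W →ₗ[F] U)) - LinearMap.id) ∘ₗ
        LinearMap.smulRightₗ.flip u) fun φ => h2 _
    have hj : Function.Injective j := by
      rw [injective_iff_map_eq_zero]
      intro φ hφ
      ext y
      have := congrArg (fun X : L => θ (X.1 (C⁻¹ y))) hφ
      have a3 : θ (A u) = 1 := a2
      replace a1 : θ u = 0 := a1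
      simpa [j, a1, a3] using this
    have := LinearMap.finrank_le_finrank_of_injective hj
    rw [Subspace.dual_finrank_eq] at this
    omega
  replace hc : ∀ u, A u = c • u := hc
  obtain ⟨y₀, hy₀⟩ : ∃ y₀, c • C y₀ - y₀ ≠ 0 := by
    by_contra! h0
    obtain ⟨u₀, -, hu₀⟩ := exists_ne_zero_of_finrank (K := (⊤ : Submodule F U)) (by simpa)
    obtain ⟨ψ, hψ⟩ := exists_dual_one' (F := F) hz
    have e1 : kr A C (g (rk ψ u₀)) = g (rk ψ u₀) := by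
      ext y; rw [kr_apply, hc, ← map_smul, sub_eq_zero.1 (h0 y)]
    rw [h1, add_eq_left, EmbeddingLike.map_eq_zero_iff] at e1
    exact rk_ne_zero (left_ne hT.s2 hz) hu₀ (by simpa [hψ] using e1)
  obtain ⟨θ, hθ⟩ := exists_dual_one' (F := F) hy₀
  have hφ : θ ∘ₗ (c • (C : W →ₗ[F] W) - LinearMap.id) ≠ 0 := fun h0 => by
    have := LinearMap.congr_fun h0 y₀
    simp only [LinearMap.comp_apply, LinearMap.sub_apply, LinearMap.smul_apply,
      LinearEquiv.coe_coe, LinearMap.id_apply, hθ, LinearMap.zero_apply] at this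
    exact one_ne_zero this
  refine ⟨_, hφ, (Submodule.eq_of_le_of_finrank_eq ?_ (by rw [hd, finrank_TL hφ])).symm⟩
  rintro _ ⟨u, rfl⟩
  convert h2 (rk θ u) using 1
  ext y
  simp [hc, sub_smul, smul_smul, mul_comm]

theorem Line.next (hC : Cx f₁ f₂ Q M) (hX : ∀ S ∈ EE hC, ∃ c : F, ∀ u, S u = c • u)
    (hU : 1 ≤ finrank F U) (hab : finrank F U < finrank F W)
    {g : (W →ₗ[F] U) ≃ₗ[F] (W →ₗ[F] U)} (hg : g ∈ M) {w z : W} (hw : w ≠ 0) (hz0 : z ≠ 0)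
    (hz : f₂ w z = 0) (h : Line f₂ g w) : Line f₂ g z := by
  have hT := hC.T
  obtain ⟨φ, hφ, h⟩ := h
  by_cases hz' : ∃ c : F, z = c • w
  · obtain ⟨c, rfl⟩ := hz'
    have hc : c ≠ 0 := by rintro rfl; simp at hz0
    refine ⟨φ, hφ, ?_⟩
    rw [← h]
    congr 1
    refine Submodule.eq_of_le_of_finrank_eq ?_
      (by rw [finrank_TL (left_ne hT.s2 hw), finrank_TL (left_ne hT.s2 hz0)])
    rintro _ ⟨u, rfl⟩
    rw [map_smul, rk_smul]; exact rk_mem_TL _ _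
  push Not at hz'
  obtain ⟨w', rfl⟩ := exists_left hT.s2 φ
  have hw' : w' ≠ 0 := by rintro rfl; simp at hφ
  obtain ⟨β, hβ, rfl⟩ := Sp_trans hT.s2 hw hw'
  have hk := hC.hH 1 (one_mem _) β hβ
  have := kron_conj hC hX hU hw (mul_mem hk hg) (fun l hl => by
    have : g l ∈ TL U (f₂ (β w)) := h ▸ ⟨l, hl, rfl⟩
    obtain ⟨u, hu⟩ := this
    rw [mul_app, ← hu, kr_pt hβ, inv_apply_apply]
    exact rk_mem_TL _ _) hz hz'
  refine line_of_kron hT hU hab hz0 ?_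
  convert kron_mul (kron_mul (kron_inv (kr_kron 1 β)) this) (kr_kron 1 β) using 1
  group

theorem Line.kron (hC : Cx f₁ f₂ Q M) (hX : ∀ S ∈ EE hC, ∃ c : F, ∀ u, S u = c • u)
    (hU : 1 ≤ finrank F U) (hab : finrank F U < finrank F W)
    {g : (W →ₗ[F] U) ≃ₗ[F] (W →ₗ[F] U)} (hg : g ∈ M) {w : W} (hw : w ≠ 0)
    (h : Line f₂ g w) : Kron g := by
  have hb := hC.hb
  refine kron_of_lines hU (by omega) fun φ hφ => ?_
  obtain ⟨z, rfl⟩ := exists_left hC.T.s2 φ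
  have hz : z ≠ 0 := by rintro rfl; simp at hφ
  obtain ⟨z₁, ⟨h1, h2⟩, h3⟩ := exists_ne_zero_of_finrank
    (K := LinearMap.ker (f₂ w) ⊓ LinearMap.ker (f₂ z))
    (by have := finrank_ker₂_ge (f₂ w) (f₂ z); omega)
  exact (h.next hC hX hU hab hg hw h3 h1).next hC hX hU hab hg h3 hz (hC.T.s2.comm.1 h2)

theorem core [Finite F] (hC : Cx f₁ f₂ Q M) (hU : 1 ≤ finrank F U)
    (hq : 3 ≤ finrank F U ∨ ∃ t : F, t ≠ 0 ∧ t ≠ 1) (hab : finrank F U + 2 ≤ finrank F W)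
    (h : ∃ g ∈ M, ¬ Kron g) : EO Q ≤ M := by
  by_contra hne
  have hX : ∀ S ∈ EE hC, ∃ c : F, ∀ u, S u = c • u := fun S => scalar_of_EE hC hU hq hne
  have hT := hC.T
  obtain ⟨w, -, hw⟩ := exists_ne_zero_of_finrank (K := (⊤ : Submodule F W)) (by simp; omega)
  set L := TL U (f₂ w) with hL
  have hdL : finrank F L = finrank F U := finrank_TL (left_ne hT.s2 hw)
  suffices H : ∀ n, ∀ g ∈ M, finrank F U ≤
      finrank F ↥(L ⊓ L.map (g : (W →ₗ[F] U) →ₗ[F] (W →ₗ[F] U))) + n → Kron g by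
    obtain ⟨g, hg, hg'⟩ := h
    exact hg' (H (finrank F U) g hg (by omega))
  intro n
  induction n with
  | zero =>
    intro g hg hd
    refine Line.kron hC hX hU (by omega) hg hw ⟨_, left_ne hT.s2 hw, ?_⟩
    have e1 : L ⊓ L.map (g : (W →ₗ[F] U) →ₗ[F] (W →ₗ[F] U)) = L :=
      Submodule.eq_of_le_of_finrank_le inf_le_left (by omega)
    exact (Submodule.eq_of_le_of_finrank_eq (inf_eq_left.1 e1)
      (LinearEquiv.finrank_map_eq _ _).symm).symm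
  | succ n ih =>
    intro g hg hd
    by_contra hg'
    set A := L ⊓ L.map (g : (W →ₗ[F] U) →ₗ[F] (W →ₗ[F] U)) with hA
    have hd' : finrank F A < finrank F U := by
      by_contra! h0
      exact hg' (ih g hg (by rw [← hA]; omega))
    obtain ⟨v, hv, hvA⟩ := exists_mem_not_mem_of_finrank_lt
      (K := L.map (g : (W →ₗ[F] U) →ₗ[F] (W →ₗ[F] U))) (L := A)
      (by rw [LinearEquiv.finrank_map_eq]; omega)
    obtain ⟨z, ⟨h1, h2⟩, h3⟩ := exists_ne_zero_of_finrank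
      (K := LinearMap.ker v ⊓ LinearMap.ker (f₂ w)) (by
        have := finrank_inf_ker_ge (LinearMap.ker v) (f₂ w)
        have := LinearMap.finrank_range_add_finrank_ker v
        have := Submodule.finrank_le (LinearMap.range v)
        omega)
    replace h1 : v z = 0 := h1
    have hfix : ∀ x ∈ A ⊔ Submodule.span F {v}, rho hT z 1 x = x := by
      intro x hx
      obtain ⟨a, ha, b, hb, rfl⟩ := Submodule.mem_sup.1 hx
      obtain ⟨c, rfl⟩ := Submodule.mem_span_singleton.1 hb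
      simp [rho_apply, TL_apply ha.1 h2, h1]
    have hle : A ⊔ Submodule.span F {v} ≤ L.map (g : (W →ₗ[F] U) →ₗ[F] (W →ₗ[F] U)) :=
      sup_le inf_le_right ((Submodule.span_singleton_le_iff_mem _ _).2 hv)
    have hk := ih (g⁻¹ * rho hT z 1 * g⁻¹⁻¹)
      (mul_mem (mul_mem (inv_mem hg) (hC.rho_mem _ _)) (inv_mem (inv_mem hg))) (by
        have e1 : (A ⊔ Submodule.span F {v}).map
            ((g⁻¹ : (W →ₗ[F] U) ≃ₗ[F] (W →ₗ[F] U)) : (W →ₗ[F] U) →ₗ[F] (W →ₗ[F] U)) ≤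
            L ⊓ L.map ((g⁻¹ * rho hT z 1 * g⁻¹⁻¹ : (W →ₗ[F] U) ≃ₗ[F] (W →ₗ[F] U)) :
              (W →ₗ[F] U) →ₗ[F] (W →ₗ[F] U)) := by
          rintro _ ⟨x, hx, rfl⟩
          have e2 : g⁻¹ x ∈ L := mem_map_equiv'.1 (hle hx)
          exact ⟨e2, _, e2, by simp [mul_app, hfix x hx]⟩
        have e2 := Submodule.finrank_mono e1
        rw [LinearEquiv.finrank_map_eq, Submodule.finrank_sup_span_singleton hvA] at e2
        omega)
    exact hg' (by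
      simpa using kron_inv (Line.kron hC hX hU (by omega) (inv_mem hg) h3
        (line_of_kron hT hU (by omega) h3 hk)))

theorem St.proper [Finite F] (hT : St f₁ f₂ Q) (hU : 1 ≤ finrank F U) (hW : 5 ≤ finrank F W) :
    ∃ g ∈ EO Q, ¬ Kron g := by
  obtain ⟨u, -, hu⟩ := exists_ne_zero_of_finrank (K := (⊤ : Submodule F U)) (by simpa)
  obtain ⟨x, hx⟩ := hT.s1.exists_one hu
  obtain ⟨w, -, hw⟩ := exists_ne_zero_of_finrank (K := (⊤ : Submodule F W)) (by simp; omega)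
  obtain ⟨z, h1, h2⟩ := exists_not_mem_one (K := LinearMap.ker (f₂ w))
    (by have := finrank_ker_ge (f₂ w); omega) w
  replace h1 : f₂ w z = 0 := h1
  obtain ⟨r, h3, h4⟩ := exists_perp_one hT.s2 h2
  have hx0 : x ≠ 0 := by rintro rfl; simp at hx
  obtain ⟨g, hg, h5⟩ := hT.nd.EO_trans (by rw [finrank_linearMap]; nlinarith)
    (x := rk (f₂ w) u) (y := rk (f₂ w) u + rk (f₂ z) x) (rk_ne_zero (left_ne hT.s2 hw) hu)
    (fun h0 => by simpa [h3, h4, hx0] using LinearMap.congr_fun h0 r)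
    (by simp [Q_add, hT.pure, hT.hB, hT.s2.comm.1 h1])
  refine ⟨g, hg, not_kron_of (fun c hc => ?_) (left_ne hT.s2 hw) (fun c hc => ?_) hu h5⟩
  · simpa [h3, h4] using LinearMap.congr_fun hc r
  · simp [hc, hT.s1.alt] at hx

end Cfsg.Agent.Orth.SS
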